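import Cfsg.Agent.Lib.Tits.Defs

/-!
# The standard diagrams (see `plans/TITS.md`)
-/

set_option autoImplicit false

namespace CfsgLib.Tits

variable {B : Type*} {m : B → B → ℕ} {n : ℕ} {M : ℕ → ℕ → ℕ}

theorem dia_of_fin (e : B ≃ Fin n) (h : ∀ i j, m i j = M (e i) (e j))
    (hd : Dia fun i j : Fin n => M i j) : Dia m := by
  refine ⟨fun i j hij => ?_, fun i j k h1 h2 h3 h4 h5 => ?_, fun i j k h1 h2 h3 h4 => ?_, fun i => ?_⟩
  · rw [h]; exact hd.mem _ _ (e.injective.ne hij)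
  · rw [h] at *; exact hd.tri _ _ _ (e.injective.ne h1) (e.injective.ne h2) (e.injective.ne h3) h4 h5
  · rw [h] at *; exact hd.four _ _ _ h1 (e.injective.ne h2) (e.injective.ne h3) h4
  · obtain ⟨j, k, h1, h2, h3, h4, h5⟩ := hd.three (e i)
    refine ⟨e.symm j, e.symm k, fun x => h1 (by simp [x]), e.symm.injective.ne h2, fun x => h3 (by simp [x]), ?_, ?_⟩ <;>
      simpa [h]

theorem tree_of_fin (e : B ≃ Fin n) (h : ∀ i j, m i j = M (e i) (e j)) {I : Set B} {J : Set (Fin n)}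
    (hI : ∀ i, i ∈ I ↔ e i ∈ J) (hd : Tree (fun i j : Fin n => M i j) J) : Tree m I := by
  obtain ⟨ρ, h1, h2⟩ := hd
  refine ⟨fun i => ρ (e i), fun i => (hI i).trans (h1 _), fun j hj => ?_⟩
  obtain ⟨i, h3, h4, h5⟩ := h2 (e j) (mt (hI j).2 hj)
  refine ⟨e.symm i, by simpa, by simpa [h], fun k k1 k2 k3 => ?_⟩
  rw [h]
  exact h5 _ (e.injective.ne k1) (fun x => k2 (by simp [← x])) k3

theorem mA_spec (i j : ℕ) : (i = j ∧ mA i j = 1) ∨ ((i + 1 = j ∨ j + 1 = i) ∧ mA i j = 3) ∨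
    (i ≠ j ∧ i + 1 ≠ j ∧ j + 1 ≠ i ∧ mA i j = 2) := by
  unfold mA; split_ifs <;> omega

theorem mB_spec (n i j : ℕ) : (i = j ∧ mB n i j = 1) ∨ ((i + 1 = j ∨ j + 1 = i) ∧ i + j + 3 = 2 * n ∧ mB n i j = 4) ∨
    ((i + 1 = j ∨ j + 1 = i) ∧ i + j + 3 ≠ 2 * n ∧ mB n i j = 3) ∨ (i ≠ j ∧ i + 1 ≠ j ∧ j + 1 ≠ i ∧ mB n i j = 2) := by
  unfold mB; split_ifs <;> omega

theorem mD_spec (n i j : ℕ) : (i = j ∧ mD n i j = 1) ∨ (((i + 1 = j ∧ j + 1 < n) ∨ (j + 1 = i ∧ i + 1 < n) ∨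
    (i + 3 = n ∧ j + 1 = n) ∨ (j + 3 = n ∧ i + 1 = n)) ∧ mD n i j = 3) ∨ (i ≠ j ∧ ¬ ((i + 1 = j ∧ j + 1 < n) ∨
    (j + 1 = i ∧ i + 1 < n) ∨ (i + 3 = n ∧ j + 1 = n) ∨ (j + 3 = n ∧ i + 1 = n)) ∧ mD n i j = 2) := by
  unfold mD; split_ifs <;> omega

theorem dia_of_nat (h1 : ∀ i j, i ≠ j → M i j = 2 ∨ M i j = 3 ∨ M i j = 4)
    (h2 : ∀ i j k, i ≠ j → j ≠ k → i ≠ k → M i j ≠ 2 → M j k ≠ 2 → M i k = 2)
    (h3 : ∀ i < n, ∀ j < n, ∀ k < n, M i j = 4 → k ≠ i → k ≠ j → M j k ≠ 2 → M j k = 3)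
    (h4 : ∀ i < n, ∃ j k, j < n ∧ k < n ∧ i ≠ j ∧ j ≠ k ∧ i ≠ k ∧ M i j ≠ 2 ∧ (M j k ≠ 2 ∨ M i k ≠ 2)) :
    Dia fun i j : Fin n => M i j := by
  refine ⟨fun i j h => h1 _ _ (Fin.val_ne_of_ne h), fun i j k a b c => h2 _ _ _ (Fin.val_ne_of_ne a)
    (Fin.val_ne_of_ne b) (Fin.val_ne_of_ne c), fun i j k a b c => h3 _ i.2 _ j.2 _ k.2 a (Fin.val_ne_of_ne b)
    (Fin.val_ne_of_ne c), fun i => ?_⟩
  obtain ⟨j, k, hj, hk, a, b, c, d⟩ := h4 i i.2
  exact ⟨⟨j, hj⟩, ⟨k, hk⟩, Fin.ne_of_val_ne a, Fin.ne_of_val_ne b, Fin.ne_of_val_ne c, d⟩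

theorem tree_of_nat {I : ℕ → Prop} (ρ : ℕ → ℕ) (h1 : ∀ i < n, I i ↔ ρ i = 0)
    (h2 : ∀ j < n, ¬ I j → ∃ i < n, ρ i < ρ j ∧ M i j = 3 ∧ ∀ k < n, k ≠ j → k ≠ i → ρ k ≤ ρ j → M k j = 2) :
    Tree (fun i j : Fin n => M i j) {i | I i} := by
  refine ⟨fun i => ρ i, fun i => h1 _ i.2, fun j hj => ?_⟩
  obtain ⟨i, hi, a, b, c⟩ := h2 j j.2 hj
  exact ⟨⟨i, hi⟩, a, b, fun k d e => c _ k.2 (Fin.val_ne_of_ne d) (Fin.val_ne_of_ne e)⟩

/-- three consecutive nodes of a path -/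
theorem exists_three (hn : 3 ≤ n) {i : ℕ} (hi : i < n) : ∃ j k, j < n ∧ k < n ∧ ((j = i + 1 ∧ k = i + 2) ∨
    (j + 1 = i ∧ k + 2 = i) ∨ (j = i + 1 ∧ k + 1 = i)) := by
  by_cases h : i + 2 < n
  · exact ⟨i + 1, i + 2, by omega⟩
  by_cases h' : i + 1 < n
  · exact ⟨i + 1, i - 1, by omega⟩
  · exact ⟨i - 1, i - 2, by omega⟩

theorem dia_A (hn : 3 ≤ n) : Dia fun i j : Fin n => mA i j := by
  refine dia_of_nat (fun i j => ?_) (fun i j k => ?_) (fun i _ j _ k _ => ?_) fun i hi => ?_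
  · have := mA_spec i j; omega
  · have := mA_spec i j; have := mA_spec j k; have := mA_spec i k; omega
  · have := mA_spec i j; omega
  · obtain ⟨j, k, h⟩ := exists_three hn hi
    have := mA_spec i j; have := mA_spec j k; have := mA_spec i k
    exact ⟨j, k, by omega⟩

theorem dia_B (hn : 3 ≤ n) : Dia fun i j : Fin n => mB n i j := by
  refine dia_of_nat (fun i j => ?_) (fun i j k => ?_) (fun i _ j _ k _ => ?_) fun i hi => ?_
  · have := mB_spec n i j; omega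
  · have := mB_spec n i j; have := mB_spec n j k; have := mB_spec n i k; omega
  · have := mB_spec n i j; have := mB_spec n j k; omega
  · obtain ⟨j, k, h⟩ := exists_three hn hi
    have := mB_spec n i j; have := mB_spec n j k; have := mB_spec n i k
    exact ⟨j, k, by omega⟩

theorem dia_D (hn : 4 ≤ n) : Dia fun i j : Fin n => mD n i j := by
  refine dia_of_nat (fun i j => ?_) (fun i j k a b c d e => ?_) (fun i _ j _ k _ => ?_) fun i hi => ?_
  · have := mD_spec n i j; omega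
  · rcases mD_spec n i j with h | ⟨h1, -⟩ | h <;> try omega
    rcases mD_spec n j k with h | ⟨h2, -⟩ | h <;> try omega
    rcases mD_spec n i k with h | ⟨h3, -⟩ | h <;> omega
  · have := mD_spec n i j; omega
  · by_cases h : i + 3 ≤ n
    · have := mD_spec n i (i + 1); have := mD_spec n (i + 1) (i + 2); have := mD_spec n i (i + 2)
      exact ⟨i + 1, i + 2, by omega⟩
    · have := mD_spec n i (n - 3); have := mD_spec n (n - 3) (n - 4)
      exact ⟨n - 3, n - 4, by omega⟩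

theorem dia_of_dec (h : (∀ i j : Fin n, i ≠ j → M i j = 2 ∨ M i j = 3 ∨ M i j = 4) ∧
    (∀ i j k : Fin n, i = j ∨ j = k ∨ i = k ∨ M i j = 2 ∨ M j k = 2 ∨ M i k = 2) ∧
    (∀ i j k : Fin n, M i j ≠ 4 ∨ k = i ∨ k = j ∨ M j k = 2 ∨ M j k = 3) ∧
    ∀ i : Fin n, ∃ j k : Fin n, i ≠ j ∧ j ≠ k ∧ i ≠ k ∧ M i j ≠ 2 ∧ (M j k ≠ 2 ∨ M i k ≠ 2)) :
    Dia fun i j : Fin n => M i j :=
  ⟨h.1, fun i j k => by have := h.2.1 i j k; tauto, fun i j k => by have := h.2.2.1 i j k; tauto, h.2.2.2⟩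

theorem dia_E6 : Dia fun i j : Fin 6 => mE i j := dia_of_dec ⟨by decide, by decide, by decide, by decide⟩
theorem dia_E7 : Dia fun i j : Fin 7 => mE i j := dia_of_dec ⟨by decide, by decide, by decide, by decide⟩
theorem dia_E8 : Dia fun i j : Fin 8 => mE i j := dia_of_dec ⟨by decide, by decide, by decide, by decide⟩
theorem dia_F : Dia fun i j : Fin 4 => mF i j := dia_of_dec ⟨by decide, by decide, by decide, by decide⟩

theorem tree_A : Tree (fun i j : Fin n => mA i j) {i | i.val = 0} := by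
  refine tree_of_nat (I := fun i => i = 0) id (fun _ _ => Iff.rfl) fun j hj h => ⟨j - 1, by omega, ?_, ?_, fun k _ => ?_⟩
  · simp only [id]; omega
  · have := mA_spec (j - 1) j; omega
  · have := mA_spec k j; simp only [id]; omega

theorem tree_B : Tree (fun i j : Fin n => mB n i j) {i | i.val + 2 = n ∨ i.val + 1 = n} := by
  refine tree_of_nat (I := fun i => i + 2 = n ∨ i + 1 = n) (fun i => n - 2 - i) (fun _ _ => by omega)
    fun j hj h => ⟨j + 1, by omega, by omega, ?_, fun k _ => ?_⟩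
  · have := mB_spec n (j + 1) j; omega
  · have := mB_spec n k j; omega

theorem tree_D (hn : 4 ≤ n) : Tree (fun i j : Fin n => mD n i j) {i | i.val = 0} := by
  refine tree_of_nat (I := fun i => i = 0) (fun i => i) (fun _ _ => Iff.rfl) fun j hj h => ?_
  by_cases h : j + 1 = n
  · refine ⟨n - 3, by omega, by omega, ?_, fun k _ => ?_⟩
    · have := mD_spec n (n - 3) j; omega
    · have := mD_spec n k j; omega
  · refine ⟨j - 1, by omega, by omega, ?_, fun k _ => ?_⟩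
    · have := mD_spec n (j - 1) j; omega
    · have := mD_spec n k j; omega

theorem tree_E6 : Tree (fun i j : Fin 6 => mE i j) {i | i.val = 0} :=
  ⟨fun i => if i.val = 1 then 9 else i, by decide, by decide⟩
theorem tree_E7 : Tree (fun i j : Fin 7 => mE i j) {i | i.val = 0} :=
  ⟨fun i => if i.val = 1 then 9 else i, by decide, by decide⟩
theorem tree_E8 : Tree (fun i j : Fin 8 => mE i j) {i | i.val = 0} :=
  ⟨fun i => if i.val = 1 then 9 else i, by decide, by decide⟩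
theorem tree_F : Tree (fun i j : Fin 4 => mF i j) {i | i.val = 1 ∨ i.val = 2} :=
  ⟨fun i => if i.val = 1 ∨ i.val = 2 then 0 else 1, by decide, by decide⟩

end CfsgLib.Tits
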