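import Cfsg.Agent.Lib.Tits.ModH
import Cfsg.Agent.Lib.Tits.Dia

/-!
# Package MODA: the untwisted models (see `plans/TITS.md`)
-/

set_option autoImplicit false

namespace CfsgLib.Tits
open Cfsg CfsgLib.BN
open scoped commutatorElement

open Cfsg.Lie

section
open CfsgLib.RGD CfsgLib.Twist CfsgLib.ChevAut CfsgLib.LieAll CfsgLib.ClSys CfsgLib.Weyl CfsgLib.Chev

theorem Mh.bc_M {n : ℕ} {k : ℤ} (hk : k = 1 ∨ k = 2) (i j : Fin n) (h : i ≠ j) :
    (rootBC n hk).A i j * (rootBC n hk).A j i = 0 ∧ mB n i j = 2 ∨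
    (rootBC n hk).A i j * (rootBC n hk).A j i = 1 ∧ mB n i j = 3 ∨
    (rootBC n hk).A i j * (rootBC n hk).A j i = 2 ∧ mB n i j = 4 := by
  have := i.2; have := j.2; have := Fin.val_ne_of_ne h
  have := mB_spec n i j
  simp only [Mh.bc_A]
  rcases hk with rfl | rfl <;> split_ifs <;> omega

variable (F : Type) [Field F] [Fintype F]

theorem Mh.mod_chev {D : ChevalleyDatum} [Chev.Good D] (h : RtOK D) (hc : ConnChk D) {n : ℕ} {M : ℕ → ℕ → ℕ}
    (e : D.rank = n) (h0 : ∀ i, M i i = 1) (h1 : ∀ i j : Fin D.rank, i ≠ j →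
      (rootSys h).A i j * (rootSys h).A j i = 0 ∧ M i j = 2 ∨ (rootSys h).A i j * (rootSys h).A j i = 1 ∧ M i j = 3 ∨
      (rootSys h).A i j * (rootSys h).A j i = 2 ∧ M i j = 4) : BNMod n M (fun _ => Nat.card F) (D.group F) :=
  bnMod_id (good_chev h hc).tw (finCongr e) h0 h1

end

open CfsgLib.LieAll CfsgLib.ClSys CfsgLib.Weyl CfsgLib.Chev CfsgLib.RGD

variable (F : Type) [Field F] [Fintype F]

theorem mod_psl {n : ℕ} (hn : 3 ≤ n) :
    BNMod n mA (fun _ => Nat.card F) (Matrix.ProjectiveSpecialLinearGroup (Fin (n + 1)) F) := by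
  refine (bnMod_id (M := mA) (good_psl (K := F) (n := n + 1) (by omega)).tw (finCongr (Nat.add_sub_cancel n 1))
    (fun _ => if_pos rfl) fun i j h => ?_).congr Subgroup.topEquiv.symm
  have := Fin.val_ne_of_ne h
  have := mA_spec i j
  simp only [rootA_A, if_neg h, if_neg h.symm, finCongr_apply, Fin.val_cast]
  split_ifs <;> omega

theorem mod_psp {n : ℕ} (hn : 3 ≤ n) : BNMod n (mB n) (fun _ => Nat.card F) (PSp n F) :=
  (bnMod_id (M := mB n) (good_psp (K := F) (m := n) (by omega)).tw (Equiv.refl _) (fun _ => if_pos rfl)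
    (Mh.bc_M _)).congr Subgroup.topEquiv.symm

theorem mod_odd {n : ℕ} (hn : 3 ≤ n) (h : Odd (Fintype.card F)) :
    BNMod n (mB n) (fun _ => Nat.card F) (POmega F (quadFormOdd n F)) :=
  (bnMod_id (M := mB n) (good_odd (m := n) (by omega) (OrthE.two_ne_zero_of_odd h)).tw (Equiv.refl _) (fun _ => if_pos rfl)
    (Mh.bc_M _)).congr Subgroup.topEquiv.symm

theorem mod_plus {n : ℕ} (hn : 4 ≤ n) : BNMod n (mD n) (fun _ => Nat.card F) (POmega F (quadFormPlus n F)) := by
  refine (bnMod_id (M := mD n) (good_plus (K := F) (m := n) (by omega) (by omega) (by omega)).tw (Equiv.refl _)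
    (fun _ => if_pos rfl) fun i j h => ?_).congr Subgroup.topEquiv.symm
  have := i.2; have := j.2; have := Fin.val_ne_of_ne h
  have := mD_spec n i j
  simp only [Mh.d_A, Equiv.refl_apply]
  split_ifs <;> omega

theorem mod_E6 : BNMod 6 mE (fun _ => Nat.card F) (chevE6.group F) :=
  Mh.mod_chev F rtOKE6 connChkE6 rfl (fun _ => if_pos rfl) (by decide +kernel)

theorem mod_E7 : BNMod 7 mE (fun _ => Nat.card F) (chevE7.group F) :=
  Mh.mod_chev F rtOKE7 connChkE7 rfl (fun _ => if_pos rfl) (by decide +kernel)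

theorem mod_E8 : BNMod 8 mE (fun _ => Nat.card F) (chevE8.group F) :=
  Mh.mod_chev F rtOKE8 connChkE8 rfl (fun _ => if_pos rfl) (by decide +kernel)

theorem mod_F4 : BNMod 4 mF (fun _ => Nat.card F) (chevF4.group F) :=
  Mh.mod_chev F rtOKF4 connChkF4 rfl (fun _ => if_pos rfl) (by decide +kernel)

end CfsgLib.Tits
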