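import Cfsg.Agent.Lib.Tits.ModH
import Cfsg.Agent.Lib.Tits.Dia

/-!
# Package MODU: the unitary models (see `plans/TITS.md`)
-/

set_option autoImplicit false

namespace CfsgLib.Tits
open Cfsg CfsgLib.BN
open scoped commutatorElement

section
open CfsgLib.RGD CfsgLib.Twist CfsgLib.LieAll CfsgLib.ClSys

theorem Mh.a_comm {N : ℕ} {i j : Fin (N - 1)} (h : i.val + 1 ≠ j.val ∧ j.val + 1 ≠ i.val) :
    Commute ((rootA N).s i) ((rootA N).s j) :=
  Mh.s_comm fun e => by rw [rootA_A, if_neg e, if_neg (by omega)]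

theorem Mh.a_braid {N : ℕ} {i j : Fin (N - 1)} (h : i.val + 1 = j.val ∨ j.val + 1 = i.val) :
    (rootA N).s i * (rootA N).s j * (rootA N).s i = (rootA N).s j * (rootA N).s i * (rootA N).s j :=
  Mh.s_braid (by rw [rootA_A, if_neg (by rintro rfl; omega), if_pos h])
    (by rw [rootA_A, if_neg (by rintro rfl; omega), if_pos h.symm])

theorem Mh.ord_A {N n : ℕ} (hN : N = 2 * n ∨ N = 2 * n + 1) (a b : Fin (N - 1)) (h : a.val < b.val)
    (hb : b.val < n) : orderOf ((symA N).sw ((symA N).orb a) * (symA N).sw ((symA N).orb b)) = mB n a b := by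
  have va := a.val_rev
  have vb := b.val_rev
  have vb' : ((symA N).π b).val = N - 1 - (b + 1) := vb
  have hm := mB_spec n a b
  have sq := (rootA N).s_mul_self
  by_cases c : a.val + 1 = b.val
  · have ne : ∀ {i j : Fin (N - 1)}, i.val ≠ j.val → i ≠ j := Fin.ne_of_val_ne
    have h1 : Commute ((rootA N).s a) ((rootA N).s a.rev) := Mh.a_comm (by omega)
    rw [Mh.sw_two (symA N) Fin.rev_rev (ne (i := a.rev) (by omega)) h1]
    change orderOf ((rootA N).s a * (rootA N).s a.rev * _) = _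
    by_cases d : b.val + 1 = n
    · rw [show mB n a b = 4 by omega]
      rcases hN with hN | hN
      · rw [Mh.sw_one (symA N) (Fin.ext (show b.rev.val = b by omega))]
        exact Mh.ord_a3 (sq _) (sq _) (sq _) h1 (Mh.a_braid (by omega)) (Mh.a_braid (by omega))
          fun e => ne (by omega) (Mh.s_inj e)
      · have h2 := Mh.a_braid (i := b) (j := b.rev) (by omega)
        rw [Mh.sw_three (symA N) Fin.rev_rev h2]
        exact Mh.ord_a4 (sq _) (sq _) (sq _) (sq b.rev) h1 (Mh.a_comm (by omega)) (Mh.a_comm (by omega))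
          (Mh.a_braid (by omega)) h2 (Mh.a_braid (by omega)) fun e => ne (by omega) (Mh.s_inj e)
    · have h2 : Commute ((rootA N).s b) ((rootA N).s b.rev) := Mh.a_comm (by omega)
      have h3 := (symA N).sw_injective.ne (a₁ := (symA N).orb a) (a₂ := (symA N).orb b) fun e => by
        have := mem_J_symA.1 ((symA N).mem_J.2 e)
        simp only [Fin.ext_iff] at this
        omega
      have h4 := (symA N).sw_mul_self ((symA N).orb b)
      rw [Mh.sw_two (symA N) Fin.rev_rev (ne (i := a.rev) (by omega)) h1] at h3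
      rw [Mh.sw_two (symA N) Fin.rev_rev (ne (i := b.rev) (by omega)) h2] at h3 h4 ⊢
      rw [show mB n a b = 3 by omega]
      exact Mh.ord3 h4 (Mh.pair3 h1 (Mh.a_comm (j := b.rev) (by omega)) (Mh.a_comm (by omega)) h2
        (Mh.cube (sq _) (sq _) (Mh.a_braid (by omega))) (Mh.cube (sq _) (sq _) (Mh.a_braid (by omega)))) h3
  · have z : ∀ i j : Fin (N - 1), i.val ≠ j.val ∧ i.val + 1 ≠ j.val ∧ j.val + 1 ≠ i.val → (rootA N).A i j = 0 :=
      fun i j e => by rw [rootA_A, if_neg (Fin.ne_of_val_ne e.1), if_neg (by omega)]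
    rw [Mh.sw_ord2 (symA N) Fin.rev_rev (fun e => by
      have := mem_J_symA.1 ((symA N).mem_J.2 e)
      simp only [Fin.ext_iff] at this
      omega) (z a b (by omega)) (z a b.rev (by omega)) (z a.rev b (by omega)) (z a.rev b.rev (by omega))]
    omega

theorem Mh.mod_psu {F : Type} [Field F] [Fintype F] {N n q r : ℕ} (hn : 3 ≤ n) (hF : Fintype.card F = q ^ 2)
    (hN : N = 2 * n ∧ r = q ∨ N = 2 * n + 1 ∧ r = q ^ 3) :
    BNMod n (mB n) (fun i => if i + 1 = n then r else q ^ 2) (PSU N F q) := by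
  obtain ⟨e⟩ := nonempty_psu_equiv (n := N) hF (by omega)
  have hφ := Unitary.conj_conj hF
  have hM := (good_su hφ (Unitary.exists_not_fixed hF) (n := N) (by omega)).tw
  refine (Mh.bnMod_of_rep hM (fun a : Fin n => ⟨a, by have := a.2; omega⟩) ⟨fun c d e => ?_, fun c => ?_⟩
    (fun a b h => Mh.ord_A (by omega) _ _ h b.2) fun c => ?_).congr e
  · have := mem_J_symA.1 ((symA N).mem_J.2 e)
    have := c.2
    have := d.2
    simp only [Fin.ext_iff, Fin.val_rev] at *
    omega
  · obtain ⟨i, rfl⟩ := (symA N).orb_surj c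
    have := i.2
    by_cases h : i.val < n
    · exact ⟨⟨i, h⟩, rfl⟩
    · exact ⟨⟨i.rev, by rw [Fin.val_rev]; omega⟩, (symA N).orb_π i⟩
  have hc := c.2
  generalize hi : (⟨c, _⟩ : Fin (N - 1)) = i
  have hi' : i.val = c := by rw [← hi]
  have vi := i.val_rev
  split_ifs with d
  · rcases hN with ⟨hN, rfl⟩ | ⟨hN, rfl⟩
    · exact (Mh.card_one hM Fin.rev_rev (Fin.ext (show i.rev.val = i by omega))).trans
        (Unitary.card_fixedSubfield hF)
    · have k : 2 * i.val + 3 = N := by omega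
      rw [Ub_eq hM]
      refine (card_of_param (P := Σ t : F, {s : F // s + s ^ q = -(t * t ^ q)}) _ ?_ fun g =>
        ((a2_pos k).mem (T := suTw N (Unitary.conj hF)) ((suTw N _).σ_pos i) (su_pos _ i) hφ hM.sharp (a2_mem k)
          (a2_nodup k)).trans ⟨fun ⟨t, s, h1, h2⟩ => ⟨⟨t, s, h1⟩, h2⟩,
            fun ⟨p, h⟩ => ⟨p.1, p.2.1, p.2.2, h⟩⟩).trans ?_
      · rintro ⟨t, s, h⟩ ⟨t', s', h'⟩ e
        obtain ⟨rfl, -, rfl⟩ := x3_inj hM.sharp (fun r hr => ((a2_mem k r).1 hr).1) (a2_nodup k) e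
        rfl
      · rw [Nat.card_sigma, Finset.sum_congr rfl fun t _ => Unitary.card_trace_eq hF (by
          rw [Unitary.neg_pow_q hF, mul_pow, Unitary.pow_q_pow_q hF, mul_comm]), Finset.sum_const,
          Finset.card_univ, hF, smul_eq_mul, ← pow_succ]
  · exact (Mh.card_two hM Fin.rev_rev (Fin.ne_of_val_ne (show i.rev.val ≠ i by omega)) hφ
      (simple_symA (by omega) (by omega))).trans (Nat.card_eq_fintype_card.trans hF)

end

variable {F : Type} [Field F] [Fintype F]

theorem mod_psu_even {n q : ℕ} (hn : 3 ≤ n) (hF : Fintype.card F = q ^ 2) :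
    BNMod n (mB n) (fun i => if i + 1 = n then q else q ^ 2) (PSU (2 * n) F q) :=
  Mh.mod_psu hn hF (Or.inl ⟨rfl, rfl⟩)

theorem mod_psu_odd {n q : ℕ} (hn : 3 ≤ n) (hF : Fintype.card F = q ^ 2) :
    BNMod n (mB n) (fun i => if i + 1 = n then q ^ 3 else q ^ 2) (PSU (2 * n + 1) F q) :=
  Mh.mod_psu hn hF (Or.inr ⟨rfl, rfl⟩)

end CfsgLib.Tits
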