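import Cfsg.Agent.Lib.Tits.ModH
import Cfsg.Agent.Lib.Tits.Dia

/-!
# Package MODT: the models of type ²D and ²E₆ (see `plans/TITS.md`)
-/

set_option autoImplicit false

namespace CfsgLib.Tits
open Cfsg CfsgLib.BN
open scoped commutatorElement

open Cfsg.Lie

section
open CfsgLib.RGD CfsgLib.Twist CfsgLib.LieAll CfsgLib.ClSys

theorem Mh.ord_D {m : ℕ} (hm : 2 ≤ m + 1) (a b : Fin m) (h : a < b) :
    orderOf ((symD hm).sw ((symD hm).orb a.castSucc) * (symD hm).sw ((symD hm).orb b.castSucc)) = mB m a b := by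
  have hπ : ∀ i, ((symD hm).π i).val = if i.val = m - 1 then m else if i.val = m then m - 1 else i := val_piD
  have ha := a.2
  have hb := b.2
  have hab : a.val < b.val := h
  have va : a.castSucc.val = a.val := rfl
  have vb : b.castSucc.val = b.val := rfl
  have h1 := hπ a.castSucc
  have h2 := hπ b.castSucc
  simp only [Fin.val_castSucc] at h1 h2
  have e1 : (symD hm).π a.castSucc = a.castSucc := Fin.ext (by rw [h1, Fin.val_castSucc]; split_ifs <;> omega)
  by_cases c : a.val + 1 = b.val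
  · rw [Mh.sw_one _ e1]
    by_cases d : b.val + 1 = m
    · have h3 : ((symD hm).π b.castSucc).val = m := by rw [h2, if_pos (by omega)]
      have h4 : (symD hm).π b.castSucc ≠ b.castSucc := fun e => by
        rw [e, Fin.val_castSucc] at h3; omega
      have h5 : Commute ((rootD hm).s b.castSucc) ((rootD hm).s ((symD hm).π b.castSucc)) :=
        Mh.s_comm fun _ => by rw [Mh.d_A, h3, Fin.val_castSucc]; split_ifs <;> omega
      rw [Mh.sw_two _ piD_piD h4 h5, ← orderOf_inv, mul_inv_rev, mul_inv_rev, RootSys.s_inv, RootSys.s_inv,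
        RootSys.s_inv, Mh.ord_a3 (RootSys.s_mul_self _ _) (RootSys.s_mul_self _ _) (RootSys.s_mul_self _ _) h5.symm
          (Mh.s_braid ?_ ?_) (Mh.s_braid ?_ ?_) fun e => h4 (Mh.s_inj e)]
      · have := mB_spec m a b; omega
      all_goals
        rw [Mh.d_A]
        split_ifs <;> omega
    · have e2 : (symD hm).π b.castSucc = b.castSucc := Fin.ext (by rw [h2, Fin.val_castSucc]; split_ifs <;> omega)
      rw [Mh.sw_one _ e2, Mh.ord3 (RootSys.s_mul_self _ _) (Mh.cube (RootSys.s_mul_self _ _)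
        (RootSys.s_mul_self _ _) (Mh.s_braid ?_ ?_)) fun e => h.ne (Fin.castSucc_injective _ (Mh.s_inj e))]
      · have := mB_spec m a b; omega
      all_goals
        simp only [Mh.d_A, Fin.val_castSucc]
        split_ifs <;> omega
  · rw [Mh.sw_ord2 _ piD_piD ?_ ?_ ?_ ?_ ?_]
    · have := mB_spec m a b; omega
    · intro e
      have := (mem_J_iff_of_sq (symD hm) piD_piD).1 ((symD hm).mem_J.2 e.symm)
      rw [e1, or_self] at this
      exact h.ne' (Fin.castSucc_injective _ this)
    all_goals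
      rw [Mh.d_A]
      split_ifs at * <;> omega

end

open CfsgLib.RGD CfsgLib.Twist CfsgLib.LieAll CfsgLib.ClSys CfsgLib.Chev CfsgLib.Weyl

variable {F : Type} [Field F] [Fintype F]

theorem mod_minus {n : ℕ} (hn : 3 ≤ n) {a b : F}
    (hab : ∀ z₁ z₂ : F, z₁ ^ 2 + a * z₁ * z₂ + b * z₂ ^ 2 = 0 → z₁ = 0 ∧ z₂ = 0) :
    BNMod n (mB n) (fun i => if i + 1 = n then Nat.card F ^ 2 else Nat.card F) (POmega F (quadFormMinus n F a b)) := by
  obtain ⟨K, _, _, j, φ, θ, h1, h2, h3, hφ, hj, hs⟩ := exists_quad hab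
  have hm : 2 ≤ n + 1 := by omega
  have h := good_om (m := n) hm (by omega) h1 h2 h3 hφ hj hs
    ((OrthE.hyp_qMinus a b ⟨0, by omega⟩).E_eq_commutator_of_five (OrthE.nondeg_qMinus n hab) (by simp; omega))
    (by omega)
  obtain ⟨e⟩ := nonempty_quot_equiv (omHom_injective _ _ _) h
  have hπ : ∀ i, ((symD hm).π i).val = if i.val = n - 1 then n else if i.val = n then n - 1 else i := val_piD
  have k0 : ∀ x y, φ (j x - θ * j y) = j x - θ * j y → y = 0 := fun x y e => by
    rw [map_sub, map_mul, hj, hj, sub_right_inj, mul_eq_mul_right_iff, map_eq_zero] at e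
    exact e.resolve_left h3.symm
  have k1 : Nat.card K = Nat.card F ^ 2 := by
    rw [sq, ← Nat.card_prod]
    refine (Nat.card_eq_of_bijective (fun p : F × F => j p.1 - θ * j p.2) ⟨fun p q e => ?_, fun t => ?_⟩).symm
    · have e1 : j (p.1 - q.1) - θ * j (p.2 - q.2) = 0 := by
        rw [map_sub, map_sub]; linear_combination e
      have e2 := k0 _ _ (by rw [e1, map_zero])
      rw [e2, map_zero, mul_zero, sub_zero, map_eq_zero] at e1
      exact Prod.ext (sub_eq_zero.1 e1) (sub_eq_zero.1 e2)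
    · obtain ⟨x, y, rfl⟩ := hs t
      exact ⟨(x, y), rfl⟩
  have k2 : Nat.card {t // φ t = t} = Nat.card F := by
    refine (Nat.card_eq_of_bijective (fun x => ⟨j x, hj x⟩) ⟨fun p q e => j.injective (congrArg Subtype.val e), ?_⟩).symm
    rintro ⟨t, ht⟩
    obtain ⟨x, y, rfl⟩ := hs t
    exact ⟨x, Subtype.ext (by simp [k0 x y ht])⟩
  refine (Mh.bnMod_of_rep h.tw Fin.castSucc ⟨fun c d e => ?_, fun c => ?_⟩ (Mh.ord_D hm) fun c => ?_).congr e
  · have := (mem_J_iff_of_sq (symD hm) piD_piD).1 ((symD hm).mem_J.2 e)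
    have := c.2
    have := d.2
    simp only [Fin.ext_iff, hπ, Fin.val_castSucc] at *
    split_ifs at * <;> omega
  · obtain ⟨i, rfl⟩ := (symD hm).orb_surj c
    induction i using Fin.lastCases with
    | last => exact ⟨⟨n - 1, by omega⟩, ((symD hm).orb_π _).symm.trans (congrArg _ (Fin.ext (by simp [hπ])))⟩
    | cast i => exact ⟨i, rfl⟩
  · have := c.2
    have h4 := hπ c.castSucc
    rw [Fin.val_castSucc] at h4
    split_ifs with d
    · refine (Mh.card_two h.tw piD_piD (fun e => ?_) hφ (simple_symD hm _)).trans k1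
      rw [show (symD hm).π c.castSucc = c.castSucc from e, Fin.val_castSucc, if_pos (by omega)] at h4
      omega
    · exact (Mh.card_one h.tw piD_piD (Fin.ext (h4.trans (by rw [Fin.val_castSucc]; split_ifs <;> omega)))).trans k2

theorem mod_2E6 {q : ℕ} (hq : IsPrimePow q) (hF : Fintype.card F = q ^ 2) :
    BNMod 4 mF (fun i => if i < 2 then q ^ 2 else q) (twistedE6 F q) := by
  obtain ⟨φ, hφ⟩ := Twist.exists_frob hq hF
  have hM := isTwE6 hφ (frob2 hφ hF)
  have k : ∀ b c : Fin 4, ordChk chevE6.nroots tSwE6 b c (mF (Fin.revPerm b) (Fin.revPerm c)) = true := by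
    decide +kernel
  refine bnMod_of_isTw hM Fin.revPerm (fun b c => orderOf_of_ordChk (swE6 b) (swE6 c) (k b c)) fun b => ?_
  rw [Ub_eq hM]
  refine (cardJE6 hφ hF b).trans ?_
  fin_cases b <;> simp [wtE6]

end CfsgLib.Tits
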