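import Cfsg.Agent.Lib.Tits.Defs
import Cfsg.Agent.Lib.Tits.PQa

/-!
# Package PQ: finite anisotropic pseudo-quadratic spaces (see `plans/TITS.md`)
-/

set_option autoImplicit false

namespace CfsgLib.Tits
open Cfsg CfsgLib.BN
open scoped commutatorElement

namespace PQD
variable {F F' : Type*} [Field F] [Field F'] [Finite F] [Finite F'] {Y Y' : Type*} [Group Y] [Group Y'] [Finite Y] [Finite Y']
  (D : PQD F Y) (D' : PQD F' Y')

section Basic
omit [Finite F] [Finite Y]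

theorem f_one_left (z : Y) : D.f 1 z = 0 := by
  have := D.f_mul_left 1 1 z
  rw [one_mul] at this; linear_combination -this

theorem f_one_right (z : Y) : D.f z 1 = 0 := by
  have := D.f_mul_right z 1 1
  rw [one_mul] at this; linear_combination -this

theorem π_one : D.π 1 = 0 := (D.π_eq_zero 1).2 rfl

theorem f_inv_left (y z : Y) : D.f y⁻¹ z = -D.f y z := by
  have := D.f_mul_left y⁻¹ y z
  rw [inv_mul_cancel, D.f_one_left] at this; linear_combination -this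

theorem f_inv_right (y z : Y) : D.f y z⁻¹ = -D.f y z := by
  have := D.f_mul_right y z⁻¹ z
  rw [inv_mul_cancel, D.f_one_right] at this; linear_combination -this

theorem π_inv' (y : Y) : D.π y⁻¹ = D.f y y - D.π y := by
  have := D.π_mul y y⁻¹
  rw [mul_inv_cancel, D.π_one, D.f_inv_right] at this; linear_combination -this

theorem π_inv (y : Y) : D.π y⁻¹ = -(D.ε * D.σ (D.π y)) := by rw [D.π_inv', D.f_self]; ring

theorem exists_π_ne : ∃ y, D.π y ≠ 0 := D.ne.imp fun y h => mt (D.π_eq_zero y).1 h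

theorem ε_mul : D.ε * D.σ D.ε = 1 := by
  obtain ⟨y, hy⟩ := D.exists_π_ne
  have := D.π_inv y⁻¹
  rw [inv_inv, D.π_inv, map_neg, map_mul, D.σσ] at this
  exact mul_right_cancel₀ hy (by linear_combination -this)

theorem f_symm (y z : Y) : D.f z y = -(D.ε * D.σ (D.f y z)) := by
  have := D.f_self (y * z)
  rw [D.f_mul_left, D.f_mul_right, D.f_mul_right, D.π_mul, map_add, map_add, D.f_self, D.f_self] at this
  linear_combination this

theorem sep {y y₁ : Y} (h1 : D.f y y = D.f y y₁) (h2 : D.π y = D.π y₁) : y = y₁ :=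
  inv_mul_eq_one.1 ((D.π_eq_zero _).1 (by rw [D.π_mul, D.π_inv', D.f_inv_left, h1, h2]; ring))

theorem rad_left {r : Y} (h : ∀ z, D.f z r = 0) (z : Y) : D.f r z = 0 := by
  rw [D.f_symm, h, map_zero, mul_zero, neg_zero]

theorem card_lam {l : F} (h0 : l ≠ 0) (hl : l = D.ε * D.σ l) :
    Nat.card {x : F // x = D.ε * D.σ x} = Nat.card {x : F // D.σ x = x} :=
  (Nat.card_congr (Equiv.subtypeEquiv (Equiv.mulLeft₀ l h0) fun x => by
    rw [Equiv.mulLeft₀_apply, map_mul, ← mul_assoc, ← hl, mul_right_inj' h0, eq_comm])).symm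

theorem exists_rad (h1 : ∃ t, D.σ t ≠ t) {l : F} (hl : l = D.ε * D.σ l) :
    ∃ r, (∀ z, D.f z r = 0) ∧ D.π r = l := by
  obtain ⟨a, ha⟩ := PQa.exists_trace D.σσ h1
  refine ⟨D.g 1 (a * l), D.f_g_right _ _, ?_⟩
  rw [D.π_g, map_one, map_mul]
  linear_combination l * ha - D.σ a * hl

theorem rad_of_self (h1 : ∃ t, D.σ t ≠ t) {y : Y} (h : D.f y y = 0) (z : Y) : D.f z y = 0 := by
  obtain ⟨r, h2, h3⟩ := D.exists_rad h1 (l := D.π y) (by rw [D.f_self] at h; exact sub_eq_zero.1 h)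
  rw [D.sep (h.trans (h2 y).symm) h3.symm, h2]

theorem exists_self (h1 : ∃ t, D.σ t ≠ t) (hf : ∃ y z, D.f y z ≠ 0) : ∃ v, D.f v v ≠ 0 := by
  obtain ⟨y, z, h⟩ := hf
  exact ⟨z, fun e => h (D.rad_of_self h1 e y)⟩

theorem existsU (h1 : ∃ t, D.σ t ≠ t) (v : Y) {a l : F} (h : l - D.ε * D.σ l = a * D.σ a * D.f v v) :
    ∃ y, D.f v y = a * D.f v v ∧ D.π y = l := by
  have h2 := D.f_self (D.ρ a v)
  rw [D.f_ρ_left, D.f_ρ_right] at h2
  obtain ⟨r, h3, h4⟩ := D.exists_rad h1 (l := l - D.π (D.ρ a v)) (by rw [map_sub]; linear_combination h + h2)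
  exact ⟨D.ρ a v * r, by rw [D.f_mul_right, h3, D.f_ρ_right, add_zero], by rw [D.π_mul, h3, h4]; ring⟩

theorem π_two (v w : Y) (s t : F) : D.π (D.ρ s v * D.ρ t w) =
    s * D.σ s * D.π v + D.σ s * t * D.f v w + t * D.σ t * D.π w := by
  rw [D.π_mul, D.π_ρ, D.π_ρ, D.f_ρ_left, D.f_ρ_right]; ring

end Basic

omit [Finite Y] in
theorem coordU (h1 : ∃ t, D.σ t ≠ t) {v : Y} (hv : D.f v v ≠ 0) (y z : Y) :
    D.f z y = D.σ (D.f v z / D.f v v) * (D.f v y / D.f v v) * D.f v v := by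
  obtain ⟨q, -, -, -, hn⟩ := PQa.invol D.σσ h1
  have hd := D.f_symm v v
  have k : ∀ y, D.f v y = 0 → ∀ z, D.f z y = 0 := fun y hy => D.rad_of_self h1 (by
    by_contra he
    have h2 := D.f_symm y y
    have h3 : D.σ (D.f y y) ≠ 0 := by simpa using he
    obtain ⟨s, hs⟩ := hn (-(D.f v v / D.f y y)) (by
      rw [map_neg, map_div₀, neg_inj, div_eq_div_iff h3 he]
      linear_combination D.σ (D.f v v) * h2 - D.σ (D.f y y) * hd)
    have h4 := D.rad_of_self h1 (y := v * D.ρ s y) (by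
      simp only [D.f_mul_left, D.f_mul_right, D.f_ρ_left, D.f_ρ_right, hy, D.f_symm v y, map_zero]
      field_simp at hs
      linear_combination hs) v
    rw [D.f_mul_right, D.f_ρ_right, hy, mul_zero, add_zero] at h4
    exact hv h4)
  have h2 := k (y * D.ρ (-(D.f v y / D.f v v)) v) (by
    rw [D.f_mul_right, D.f_ρ_right]; field_simp; ring) z
  have h3 : D.σ (D.f v v) ≠ 0 := by simpa using hv
  rw [D.f_mul_right, D.f_ρ_right, D.f_symm v z] at h2
  rw [map_div₀]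
  field_simp at h2 ⊢
  refine mul_left_cancel₀ hv ?_
  linear_combination D.σ (D.f v v) * h2 - D.σ (D.f v z) * D.f v y * hd

omit [Finite Y] in
theorem exists_π (h : ∀ y z, D.f y z = 0) {l : F} (hl : l = D.ε * D.σ l) : ∃ y, D.π y = l := by
  by_cases h1 : ∃ t, D.σ t ≠ t
  · exact (D.exists_rad h1 hl).imp fun _ h => h.2
  push Not at h1
  obtain ⟨y, hy⟩ := D.exists_π_ne
  by_cases h2 : (2 : F) = 0
  · obtain ⟨s, hs⟩ := PQa.exists_sq h2 hy l
    exact ⟨D.ρ s y, by rw [D.π_ρ, h1, hs]⟩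
  · refine ⟨D.g 1 (l / 2), ?_⟩
    rw [h1] at hl
    rw [D.π_g, h1, h1]; field_simp; linear_combination -hl

section Orth
variable (hσ : ∀ t, D.σ t = t) (hf : ∃ y z, D.f y z ≠ 0)
omit [Finite Y]
include hσ hf

theorem rad_one {r : Y} (h : ∀ z, D.f z r = 0) : r = 1 := by
  by_contra h1
  have h2 := mt (D.π_eq_zero r).1 h1
  have h3 := D.f_self r
  rw [h, hσ] at h3
  have e : D.ε = 1 := mul_right_cancel₀ h2 (by linear_combination h3)
  obtain ⟨y, z, hz⟩ := hf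
  obtain ⟨r', h4, h5⟩ : ∃ r', (∀ z, D.f z r' = 0) ∧ D.π r' = D.π z := by
    by_cases h2' : (2 : F) = 0
    · obtain ⟨s, hs⟩ := PQa.exists_sq h2' h2 (D.π z)
      exact ⟨D.ρ s r, fun z => by rw [D.f_ρ_right, h, mul_zero], by rw [D.π_ρ, hσ, hs]⟩
    · exact ⟨D.g 1 (D.π z / 2), D.f_g_right _ _, by rw [D.π_g, hσ, hσ, e]; field_simp; ring⟩
  exact hz (by rw [D.sep (y := z) (by rw [h4, D.f_self, hσ, e]; ring) h5.symm, h4])

theorem ext_f {y y₁ : Y} (h : ∀ z, D.f z y = D.f z y₁) : y = y₁ :=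
  mul_inv_eq_one.1 (D.rad_one hσ hf fun z => by rw [D.f_mul_right, D.f_inv_right, h, add_neg_cancel])

theorem ε_eq : D.ε = -1 := by
  have h := D.π_g 1 1
  rw [D.rad_one hσ hf (D.f_g_right 1 1), D.π_one, hσ] at h
  linear_combination -h

theorem f_self' (y : Y) : D.f y y = 2 * D.π y := by rw [D.f_self, hσ, D.ε_eq hσ hf]; ring

theorem f_symm' (y z : Y) : D.f z y = D.f y z := by rw [D.f_symm, hσ, D.ε_eq hσ hf]; ring

theorem aniso {v w : Y} (h : ∀ s, w ≠ D.ρ s v) (x : F) : D.π v * x * x + D.f v w * x + D.π w ≠ 0 := by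
  intro e
  have h1 := (D.π_eq_zero (D.ρ x v * w)).1 (by rw [D.π_mul, D.π_ρ, D.f_ρ_left, hσ]; linear_combination e)
  exact h (-x) (D.ext_f hσ hf fun z => by
    rw [eq_inv_of_mul_eq_one_right h1, D.f_inv_right, D.f_ρ_right, D.f_ρ_right, neg_mul])

theorem f_two (v w : Y) (s t s' t' : F) : D.f (D.ρ s v * D.ρ t w) (D.ρ s' v * D.ρ t' w) =
    s * s' * (2 * D.π v) + (s * t' + t * s') * D.f v w + t * t' * (2 * D.π w) := by
  simp only [D.f_mul_left, D.f_mul_right, D.f_ρ_left, D.f_ρ_right, hσ, D.f_self' hσ hf, D.f_symm' hσ hf v w]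
  ring

theorem bij_two {v w : Y} (hv : v ≠ 1) (h : ∀ s, w ≠ D.ρ s v) :
    Function.Bijective fun p : F × F => D.ρ p.1 v * D.ρ p.2 w := by
  have hA := mt (D.π_eq_zero v).1 hv
  have hd := PQa.disc_ne hA (D.aniso hσ hf h)
  have k1 : ∀ s t, D.f v (D.ρ s v * D.ρ t w) = s * (2 * D.π v) + t * D.f v w := fun s t => by
    rw [D.f_mul_right, D.f_ρ_right, D.f_ρ_right, D.f_self' hσ hf]
  have k2 : ∀ s t, D.f w (D.ρ s v * D.ρ t w) = s * D.f v w + t * (2 * D.π w) := fun s t => by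
    rw [D.f_mul_right, D.f_ρ_right, D.f_ρ_right, D.f_self' hσ hf, D.f_symm' hσ hf]
  refine ⟨fun ⟨s, t⟩ ⟨s', t'⟩ e => ?_, fun y => ?_⟩
  · have e1 := (k1 s t).symm.trans ((congrArg (D.f v) e).trans (k1 s' t'))
    have e2 := (k2 s t).symm.trans ((congrArg (D.f w) e).trans (k2 s' t'))
    exact Prod.ext (mul_right_cancel₀ hd (by linear_combination 2 * D.π w * e1 - D.f v w * e2))
      (mul_right_cancel₀ hd (by linear_combination 2 * D.π v * e2 - D.f v w * e1))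
  obtain ⟨s, t, h1, h2⟩ : ∃ s t, s * (2 * D.π v) + t * D.f v w = D.f v y ∧
      s * D.f v w + t * (2 * D.π w) = D.f w y :=
    ⟨(2 * D.π w * D.f v y - D.f v w * D.f w y) / (4 * D.π v * D.π w - D.f v w * D.f v w),
      (2 * D.π v * D.f w y - D.f v w * D.f v y) / (4 * D.π v * D.π w - D.f v w * D.f v w),
      by rw [div_mul_eq_mul_div, div_mul_eq_mul_div, ← add_div, div_eq_iff hd]; ring,
      by rw [div_mul_eq_mul_div, div_mul_eq_mul_div, ← add_div, div_eq_iff hd]; ring⟩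
  obtain ⟨s', t', h3⟩ := PQa.universal hA hd (-D.π (y * (D.ρ s v * D.ρ t w)⁻¹))
  have h4 := (D.π_eq_zero (D.ρ s' v * D.ρ t' w * (y * (D.ρ s v * D.ρ t w)⁻¹))).1 (by
    rw [D.π_mul, D.π_two, D.f_mul_left, D.f_ρ_left, D.f_ρ_left, D.f_mul_right, D.f_mul_right,
      D.f_inv_right, D.f_inv_right, k1, k2, h1, h2, hσ, hσ]
    linear_combination h3)
  refine ⟨(s - s', t - t'), D.ext_f hσ hf fun z => ?_⟩
  have h5 := congrArg (D.f z) h4
  simp only [D.f_mul_right, D.f_inv_right, D.f_ρ_right, D.f_one_right] at h5 ⊢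
  linear_combination -h5

theorem card_orth {v : Y} (hv : v ≠ 1) :
    (Nat.card Y = Nat.card F ∧ (2 : F) ≠ 0 ∧ ∀ y, ∃ s, y = D.ρ s v) ∨
      (Nat.card Y = Nat.card F ^ 2 ∧ ∃ w, ∀ s, w ≠ D.ρ s v) := by
  by_cases h : ∀ y, ∃ s, y = D.ρ s v
  · have h2 : D.f v v ≠ 0 := fun e => by
      obtain ⟨y, z, hz⟩ := hf
      obtain ⟨s, rfl⟩ := h y
      obtain ⟨t, rfl⟩ := h z
      exact hz (by rw [D.f_ρ_left, D.f_ρ_right, e, mul_zero, mul_zero])
    refine Or.inl ⟨(Nat.card_eq_of_bijective (fun s => D.ρ s v) ⟨fun s t e => mul_right_cancel₀ h2 ?_,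
      fun y => (h y).imp fun _ => Eq.symm⟩).symm, fun e => h2 (by rw [D.f_self' hσ hf, e, zero_mul]), h⟩
    rw [← D.f_ρ_right, ← D.f_ρ_right]; exact congrArg _ e
  · push Not at h
    obtain ⟨w, hw⟩ := h
    exact Or.inr ⟨by rw [← Nat.card_eq_of_bijective _ (D.bij_two hσ hf hv hw), Nat.card_prod, pow_two], w, hw⟩

end Orth

omit [Finite F] [Finite Y] in
theorem π_injective' (h : ∀ y z, D.f y z = 0) : Function.Injective D.π :=
  fun _ _ e => D.sep (by rw [h, h]) e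

omit [Finite Y] in
theorem card_zero (h : ∀ y z, D.f y z = 0) : Nat.card Y = Nat.card {x : F // D.σ x = x} := by
  have k : ∀ y, D.π y = D.ε * D.σ (D.π y) := fun y => sub_eq_zero.1 ((D.f_self y).symm.trans (h y y))
  obtain ⟨y, hy⟩ := D.exists_π_ne
  rw [← D.card_lam hy (k y)]
  exact Nat.card_eq_of_bijective (fun y => ⟨D.π y, k y⟩) ⟨fun _ _ e => D.π_injective' h (Subtype.mk.inj e),
    fun l => (D.exists_π h l.2).imp fun _ => Subtype.ext⟩

omit [Finite Y] in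
theorem card_A (h1 : ∃ t, D.σ t ≠ t) (h : ∀ y z, D.f y z = 0) : Nat.card Y ^ 2 = Nat.card F := by
  obtain ⟨q, h2, h3, -⟩ := PQa.invol D.σσ h1
  rw [D.card_zero h, h2, h3]

omit [Finite Y] in
theorem card_C (hσ : ∀ t, D.σ t = t) (h : ∀ y z, D.f y z = 0) : Nat.card Y = Nat.card F := by
  rw [D.card_zero h]
  exact Nat.card_congr (Equiv.subtypeUnivEquiv hσ)

omit [Finite Y] in
theorem card_B (h1 : ∃ t, D.σ t ≠ t) (hf : ∃ y z, D.f y z ≠ 0) : Nat.card Y ^ 2 = Nat.card F ^ 3 := by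
  obtain ⟨q, h2, h3, -⟩ := PQa.invol D.σσ h1
  obtain ⟨v, hv⟩ := D.exists_self h1 hf
  obtain ⟨t, ht⟩ : ∃ t, t + D.ε * D.σ t ≠ 0 := by
    by_contra h
    push Not at h
    obtain ⟨t, ht⟩ := h1
    have e := h 1
    rw [map_one] at e
    exact ht (by linear_combination D.σ t * e - h t)
  have h4 := D.card_lam ht (by rw [map_add, map_mul, D.σσ]; linear_combination -t * D.ε_mul)
  have k : ∀ y, D.π y - D.π (D.ρ (D.f v y / D.f v v) v) =
      D.ε * D.σ (D.π y - D.π (D.ρ (D.f v y / D.f v v) v)) := fun y => by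
    have e1 := D.f_self (D.ρ (D.f v y / D.f v v) v)
    have e2 := D.f_self y
    rw [D.f_ρ_left, D.f_ρ_right] at e1
    rw [D.coordU h1 hv y y] at e2
    rw [map_sub]; linear_combination e1 - e2
  have h5 := Nat.card_eq_of_bijective (fun y => ((D.f v y / D.f v v, ⟨_, k y⟩) :
      F × {x : F // x = D.ε * D.σ x})) ⟨fun y y' e => by
    have e1 : D.f v y / D.f v v = D.f v y' / D.f v v := congrArg Prod.fst e
    have e2 : D.π y - D.π (D.ρ (D.f v y / D.f v v) v) =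
        D.π y' - D.π (D.ρ (D.f v y' / D.f v v) v) := congrArg (fun p => p.2.1) e
    rw [e1, sub_left_inj] at e2
    exact D.sep (by rw [D.coordU h1 hv y y, D.coordU h1 hv y' y, e1]) e2, fun ⟨a, l, hl⟩ => by
    obtain ⟨y, e1, e2⟩ := D.existsU h1 v (a := a) (l := l + D.π (D.ρ a v)) (by
      have := D.f_self (D.ρ a v)
      rw [D.f_ρ_left, D.f_ρ_right] at this
      rw [map_add]; linear_combination hl - this)
    have e3 : D.f v y / D.f v v = a := by rw [e1, mul_div_cancel_right₀ _ hv]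
    exact ⟨y, Prod.ext e3 (Subtype.ext (by simp only [e3, e2, add_sub_cancel_right]))⟩⟩
  rw [h5, Nat.card_prod, h4, h3, h2]; ring

theorem card_cases (D : PQD F Y) : Nat.card Y = Nat.card F ∨ Nat.card Y = Nat.card F ^ 2 ∨
    Nat.card Y ^ 2 = Nat.card F ∨ Nat.card Y ^ 2 = Nat.card F ^ 3 := by
  by_cases h1 : ∃ t, D.σ t ≠ t <;> by_cases hf : ∃ y z, D.f y z ≠ 0
  · exact Or.inr (Or.inr (Or.inr (D.card_B h1 hf)))
  · exact Or.inr (Or.inr (Or.inl (D.card_A h1 (by simpa using hf))))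
  · obtain ⟨v, hv⟩ := D.ne
    exact (D.card_orth (by simpa using h1) hf hv).imp (·.1) fun h => Or.inl h.1
  · exact Or.inl (D.card_C (by simpa using h1) (by simpa using hf))

theorem f_eq_zero_of_lt (h : Nat.card Y < Nat.card F) (y z : Y) : D.f y z = 0 := by
  by_contra e
  exact absurd (Nat.card_le_card_of_injective (fun s => D.ρ s z) fun s t e1 => mul_right_cancel₀ e (by
    rw [← D.f_ρ_right, ← D.f_ρ_right]; exact congrArg _ e1)) (not_le.2 h)

theorem card_le_of_f_eq_zero (h : ∀ y z, D.f y z = 0) : Nat.card Y ≤ Nat.card F :=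
  Nat.card_le_card_of_injective _ (D.π_injective' h)

theorem f_eq_zero_of_even (h : Nat.card Y = Nat.card F) (h2 : Even (Nat.card F)) (y z : Y) : D.f y z = 0 := by
  by_contra e
  have h3 : 1 < Nat.card F := Finite.one_lt_card
  by_cases h1 : ∃ t, D.σ t ≠ t
  · have := D.card_B h1 ⟨y, z, e⟩
    rw [h] at this
    exact absurd (Nat.pow_right_injective h3 this) (by norm_num)
  · obtain ⟨v, hv⟩ := D.ne
    rcases D.card_orth (by simpa using h1) ⟨y, z, e⟩ hv with h4 | h4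
    · exact h4.2.1 (PQa.two_eq_zero_iff.2 h2)
    · have := h4.1
      rw [h] at this
      exact absurd (Nat.pow_right_injective h3 ((pow_one _).trans this)) (by norm_num)

theorem card_of_ne (hf : ∃ y z, D.f y z ≠ 0) (hg : ∃ s t, D.g s t ≠ 1) : Nat.card Y ^ 2 = Nat.card F ^ 3 := by
  refine D.card_B (by_contra fun h1 => ?_) hf
  obtain ⟨s, t, h⟩ := hg
  exact h (D.rad_one (by simpa using h1) hf (D.f_g_right s t))

theorem π_injective (h : ∀ y z, D.f y z = 0) : Function.Injective D.π := D.π_injective' h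

omit [Finite F] [Finite F'] [Finite Y] in
theorem iso_of_map (hY : Nat.card Y = Nat.card Y') (ψ : F ≃+* F') (hσ : ∀ t, D'.σ (ψ t) = ψ (D.σ t))
    {c : F'} (hc : c ≠ 0) (θ : Y → Y') (h1 : ∀ y, D'.π (θ y) = c * ψ (D.π y))
    (h2 : ∀ y z, D'.f (θ y) (θ z) = c * ψ (D.f y z)) :
    ∃ (ψ : F ≃+* F') (θ : Y ≃* Y') (c : F'), c ≠ 0 ∧ (∀ y, D'.π (θ y) = c * ψ (D.π y)) ∧
      (∀ y z, D'.f (θ y) (θ z) = c * ψ (D.f y z)) ∧ (∀ s y, θ (D.ρ s y) = D'.ρ (ψ s) (θ y)) ∧
      ∀ s t, θ (D.g s t) = D'.g (ψ s) (c * ψ t) := by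
  have inj : Function.Injective θ := fun y z e => D.sep
    (ψ.injective (mul_left_cancel₀ hc (by rw [← h2, ← h2, e])))
    (ψ.injective (mul_left_cancel₀ hc (by rw [← h1, ← h1, e])))
  have hm : ∀ y z, θ (y * z) = θ y * θ z := fun y z => D'.sep
    (by rw [D'.f_mul_right, h2, h2, h2, D.f_mul_right, map_add, mul_add])
    (by rw [D'.π_mul, h1, h1, h1, h2, D.π_mul, map_add, map_add]; ring)
  let e := MulEquiv.ofBijective (MonoidHom.mk' θ hm) (inj.bijective_of_nat_card_le hY.ge)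
  refine ⟨ψ, e, c, hc, h1, h2, fun s y => D'.sep (y := θ _) (y₁ := D'.ρ _ (θ y)) ?_ ?_,
    fun s t => D'.sep (y := θ _) ?_ ?_⟩
  · rw [D'.f_ρ_right, h2, h2, D.f_ρ_right, map_mul]; ring
  · rw [D'.π_ρ, h1, h1, D.π_ρ, map_mul, map_mul, hσ]; ring
  · rw [h2, D.f_g_right, D'.f_g_right, map_zero, mul_zero]
  · obtain ⟨y, hy⟩ := D.exists_π_ne
    have h3 := h1 y⁻¹
    rw [show θ y⁻¹ = (θ y)⁻¹ from map_inv e y, D'.π_inv, D.π_inv, h1, map_mul, hσ, map_neg, map_mul] at h3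
    have h4 : D'.ε * D'.σ c = c * ψ D.ε :=
      mul_right_cancel₀ (b := ψ (D.σ (D.π y))) (by simpa using hy) (by linear_combination -h3)
    rw [h1, D'.π_g, D.π_g, map_add, map_mul, map_mul, map_mul, map_mul, hσ, hσ]
    linear_combination -(ψ s * ψ (D.σ t)) * h4

theorem card_sq_ne (h1 : ∃ t, D.σ t ≠ t) : Nat.card Y ≠ Nat.card F ∧ Nat.card Y ≠ Nat.card F ^ 2 := by
  have h3 : 1 < Nat.card F := Finite.one_lt_card
  have : Nat.card Y ^ 2 = Nat.card F ^ 1 ∨ Nat.card Y ^ 2 = Nat.card F ^ 3 := by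
    by_cases hf : ∃ y z, D.f y z ≠ 0
    · exact Or.inr (D.card_B h1 hf)
    · exact Or.inl ((D.card_A h1 (by simpa using hf)).trans (pow_one _).symm)
  constructor <;> intro e <;> rw [e] at this <;> rcases this with h | h
  · exact absurd (Nat.pow_right_injective h3 h) (by norm_num)
  · exact absurd (Nat.pow_right_injective h3 h) (by norm_num)
  · exact absurd (Nat.pow_right_injective h3 ((pow_mul _ 2 2).trans h)) (by norm_num)
  · exact absurd (Nat.pow_right_injective h3 ((pow_mul _ 2 2).trans h)) (by norm_num)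

omit [Finite Y] in
theorem card_id (hσ : ∀ t, D.σ t = t) : Nat.card Y = Nat.card F ∨ Nat.card Y = Nat.card F ^ 2 := by
  by_cases hf : ∃ y z, D.f y z ≠ 0
  · obtain ⟨v, hv⟩ := D.ne
    exact (D.card_orth hσ hf hv).imp (·.1) (·.1)
  · exact Or.inl (D.card_C hσ (by simpa using hf))

theorem exists_iso (hF : Nat.card F = Nat.card F') (hY : Nat.card Y = Nat.card Y')
    (hf : (∀ y z, D.f y z = 0) ↔ ∀ y z, D'.f y z = 0) :
    ∃ (ψ : F ≃+* F') (θ : Y ≃* Y') (c : F'), c ≠ 0 ∧ (∀ y, D'.π (θ y) = c * ψ (D.π y)) ∧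
      (∀ y z, D'.f (θ y) (θ z) = c * ψ (D.f y z)) ∧ (∀ s y, θ (D.ρ s y) = D'.ρ (ψ s) (θ y)) ∧
      ∀ s t, θ (D.g s t) = D'.g (ψ s) (c * ψ t) := by
  haveI := Fintype.ofFinite F
  haveI := Fintype.ofFinite F'
  let ψ : F ≃+* F' := FiniteField.ringEquivOfCardEq
    (by rwa [← Nat.card_eq_fintype_card, ← Nat.card_eq_fintype_card])
  have hs : (∃ t, D.σ t ≠ t) ↔ ∃ t, D'.σ t ≠ t := by
    constructor <;> intro h <;> by_contra h1 <;> push Not at h1
    · have := D.card_sq_ne h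
      rw [hF, hY] at this
      exact (D'.card_id h1).elim this.1 this.2
    · have := D'.card_sq_ne h
      rw [← hF, ← hY] at this
      exact (D.card_id h1).elim this.1 this.2
  have hσ : ∀ t, D'.σ (ψ t) = ψ (D.σ t) := fun t => by
    by_cases h : ∃ t, D.σ t ≠ t
    · obtain ⟨q, h1, -, h2, -⟩ := PQa.invol D.σσ h
      obtain ⟨q', h1', -, h2', -⟩ := PQa.invol D'.σσ (hs.1 h)
      rw [h2, h2', map_pow, Nat.pow_left_injective two_ne_zero (h1.symm.trans (hF.trans h1'))]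
    · have h' := mt hs.2 h
      push Not at h h'
      rw [h, h']
  have ψ0 : ∀ {x : F}, x ≠ 0 → ψ x ≠ 0 := fun h => by simpa using h
  by_cases h0 : ∀ y z, D.f y z = 0
  · have h0' := hf.1 h0
    obtain ⟨y₀, hy⟩ := D.exists_π_ne
    obtain ⟨y₁, hy'⟩ := D'.exists_π_ne
    have k : ∀ y, D.π y = D.ε * D.σ (D.π y) := fun y => sub_eq_zero.1 ((D.f_self y).symm.trans (h0 y y))
    have k' := sub_eq_zero.1 ((D'.f_self y₁).symm.trans (h0' y₁ y₁))
    choose θ hθ using fun y => D'.exists_π h0' (l := D'.π y₁ / ψ (D.π y₀) * ψ (D.π y)) (by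
      have h1 : D.σ (D.π y / D.π y₀) = D.π y / D.π y₀ := by
        rw [map_div₀, div_eq_div_iff (by simpa using hy) hy]
        linear_combination D.σ (D.π y) * k y₀ - D.σ (D.π y₀) * k y
      rw [div_mul_eq_mul_div, mul_div_assoc, ← map_div₀, map_mul, hσ, h1, ← mul_assoc, ← k'])
    exact D.iso_of_map D' hY ψ hσ (div_ne_zero hy' (ψ0 hy)) θ hθ fun y z => by rw [h0, h0', map_zero, mul_zero]
  have h0' := mt hf.2 h0
  push Not at h0 h0'
  by_cases h : ∃ t, D.σ t ≠ t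
  · have h' := hs.1 h
    obtain ⟨v, hv⟩ := D.exists_self h h0
    obtain ⟨v', hv'⟩ := D'.exists_self h' h0'
    have e1 := congrArg ψ (D.f_symm v v)
    have e2 := D'.f_symm v' v'
    rw [map_neg, map_mul, ← hσ] at e1
    have h1 := ψ0 hv
    have h2 : D'.σ (ψ (D.f v v)) ≠ 0 := by simpa using hv
    choose θ hθ1 hθ2 using fun y => D'.existsU h' v' (a := ψ (D.f v y / D.f v v))
      (l := D'.f v' v' / ψ (D.f v v) * ψ (D.π y)) (by
        have e3 := congrArg ψ ((D.coordU h hv y y).symm.trans (D.f_self y))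
        rw [map_mul, map_mul, map_sub, map_mul, ← hσ, ← hσ] at e3
        rw [map_mul, map_div₀ D'.σ]
        generalize ψ (D.f v y / D.f v v) = a at e3 ⊢
        field_simp
        linear_combination (-D'.f v' v' * D'.σ (ψ (D.f v v))) * e3 +
          D'.σ (ψ (D.π y)) * D'.f v' v' * e1 - D'.σ (ψ (D.π y)) * ψ (D.f v v) * e2)
    refine D.iso_of_map D' hY ψ hσ (div_ne_zero hv' h1) θ hθ2 fun y z => ?_
    rw [D'.coordU h' hv', D.coordU h hv z y, hθ1, hθ1, mul_div_cancel_right₀ _ hv',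
      mul_div_cancel_right₀ _ hv', map_mul, map_mul, hσ]
    field_simp
  have h' := mt hs.2 h
  push Not at h h'
  obtain ⟨v, hv⟩ := D.ne
  obtain ⟨v', hv'⟩ := D'.ne
  have hA := ψ0 (mt (D.π_eq_zero v).1 hv)
  have hA' := mt (D'.π_eq_zero v').1 hv'
  have hc := div_ne_zero hA' hA
  rcases D.card_orth h h0 hv with ⟨-, -, h1⟩ | ⟨h1, w, hw⟩
  · choose s hs using h1
    refine D.iso_of_map D' hY ψ hσ hc (fun y => D'.ρ (ψ (s y)) v') (fun y => ?_) fun y z => ?_
    · rw [D'.π_ρ, h', congrArg D.π (hs y), D.π_ρ, h, map_mul, map_mul]; field_simp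
    · rw [D'.f_ρ_left, D'.f_ρ_right, h', congrArg₂ D.f (hs y) (hs z), D.f_ρ_left, D.f_ρ_right, h,
        D.f_self' h h0, D'.f_self' h' h0', map_mul, map_mul, map_mul, map_ofNat]
      field_simp
  obtain ⟨w₀, hw₀⟩ : ∃ w, ∀ s, w ≠ D'.ρ s v' := by
    refine ((D'.card_orth h' h0' hv').resolve_left fun e => ?_).2
    rw [hY, e.1, ← hF] at h1
    exact absurd (Nat.pow_right_injective Finite.one_lt_card ((pow_one _).trans h1)) (by norm_num)
  obtain ⟨s₀, t₀, e1, e2⟩ := PQa.quad hA' (B := D'.π v' / ψ (D.π v) * ψ (D.f v w))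
    (E := D'.π v' / ψ (D.π v) * ψ (D.π w)) (fun x e => by
      obtain ⟨x, rfl⟩ := ψ.surjective x
      refine ψ0 (D.aniso h h0 hw x) (mul_left_cancel₀ hA' ?_)
      rw [map_add, map_add, map_mul, map_mul, map_mul]
      field_simp at e
      linear_combination e) (D'.aniso h' h0' hw₀)
  have e3 : D'.f v' (D'.ρ s₀ v' * D'.ρ t₀ w₀) = D'.π v' / ψ (D.π v) * ψ (D.f v w) := by
    rw [D'.f_mul_right, D'.f_ρ_right, D'.f_ρ_right, D'.f_self' h' h0', ← e1]; ring
  have e4 : D'.π (D'.ρ s₀ v' * D'.ρ t₀ w₀) = D'.π v' / ψ (D.π v) * ψ (D.π w) := by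
    rw [D'.π_two, h', h', e2]
  generalize D'.ρ s₀ v' * D'.ρ t₀ w₀ = w' at e3 e4
  choose p hp using (D.bij_two h h0 hv hw).2
  refine D.iso_of_map D' hY ψ hσ hc (fun y => D'.ρ (ψ (p y).1) v' * D'.ρ (ψ (p y).2) w') (fun y => ?_)
    fun y z => ?_
  · rw [D'.π_two, ← congrArg D.π (hp y), D.π_two, e3, e4]
    simp only [h, h', map_add, map_mul]
    field_simp
  · rw [D'.f_two h' h0', ← congrArg₂ D.f (hp y) (hp z), D.f_two h h0, e3, e4]
    simp only [map_add, map_mul, map_ofNat]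
    field_simp

end PQD

end CfsgLib.Tits
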