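import Cfsg.Agent.Lib.Tits.RGB
import Cfsg.Agent.Lib.Perm.GeomAZ

/-!
# Package A2F: the field of a simple edge (see `plans/TITS.md`)
-/

set_option autoImplicit false

namespace CfsgLib.Tits
open Cfsg CfsgLib.BN
open scoped commutatorElement

universe u

/-- the left inverse property implies the left alternative law (Hua's identity) -/
theorem left_alt_of_lip {F : Type*} [NonAssocRing F] [Finite F] (h : ∀ a : F, a ≠ 0 → ∃ b, ∀ c, a * (b * c) = c)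
    (a c : F) : a * a * c = a * (a * c) := by
  have key : ∀ {a b : F}, (∀ c, a * (b * c) = c) → ∀ c, b * (a * c) = c := fun {a b} e c =>
    (Finite.injective_iff_surjective (f := fun c => a * c)).2 (fun c => ⟨_, e c⟩) (e _)
  by_cases h0 : a = 0
  · simp [h0]
  by_cases h1 : a + 1 = 0
  · simp [eq_neg_of_add_eq_zero_left h1]
  obtain ⟨b, hb⟩ := h a h0
  obtain ⟨b', hb'⟩ := h _ h1
  have e : ∀ c, a * ((b - b') * c) + a * (a * ((b - b') * c)) = c := fun c => by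
    have := hb' c
    rw [add_mul, one_mul] at this
    have h2 : a * (b' * c) = c - b' * c := eq_sub_of_add_eq this
    simp only [sub_mul, mul_sub, hb, h2]
    abel
  have hy : b - b' ≠ 0 := fun e' => h0 (by have := e a; simpa [e'] using this.symm)
  obtain ⟨y, h3⟩ := h _ hy
  have h4 : ∀ c, a * c + a * (a * c) = y * c := fun c => by simpa only [h3] using e (y * c)
  have h5 : a + a * a = y := by simpa using h4 1
  have := h4 c
  rw [← h5, add_mul] at this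
  exact (add_left_cancel this).symm

variable {B W : Type*} [Group W] [Finite W] {E : ExchSys B W} {A : Type u} [Group A]

/-- coordinates over a non-associative ring -/
structure Pre (R : RG E A) (i j : B) (F : Type*) [NonAssocRing F] where
  x₁ : F → A
  x₂ : F → A
  x₃ : F → A
  add₁ : ∀ a b, x₁ (a + b) = x₁ a * x₁ b
  add₂ : ∀ a b, x₂ (a + b) = x₂ a * x₂ b
  add₃ : ∀ a b, x₃ (a + b) = x₃ a * x₃ b
  inj₁ : Function.Injective x₁
  inj₂ : Function.Injective x₂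
  inj₃ : Function.Injective x₃
  mem₁ : ∀ u, u ∈ R.S i ↔ ∃ t, u = x₁ t
  mem₂ : ∀ u, u ∈ R.U (rt E (E.s i) j) ↔ ∃ t, u = x₂ t
  mem₃ : ∀ u, u ∈ R.S j ↔ ∃ t, u = x₃ t
  comm : ∀ a b, ⁅x₁ a, x₃ b⁆ = x₂ (a * b)

theorem map_zero_of_add {F : Type*} [AddGroup F] {x : F → A} (h : ∀ a b, x (a + b) = x a * x b) : x 0 = 1 := by
  simpa using (h 0 0).symm

theorem map_neg_of_add {F : Type*} [AddGroup F] {x : F → A} (h : ∀ a b, x (a + b) = x a * x b) (a : F) :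
    x (-a) = (x a)⁻¹ := eq_inv_of_mul_eq_one_left (by rw [← h, neg_add_cancel, map_zero_of_add h])

omit [Finite W] in
theorem rt_three_one {i j : B} (hm : E.mat i j = 3) : rt E (E.s i) j = rt E (E.s j) i := by
  simpa using rt_three E hm 1

variable {R : RG E A} {i j : B}

theorem RG.commute32 (hm : E.mat i j = 3) {u v : A} (hu : u ∈ R.S j) (hv : v ∈ R.U (rt E (E.s i) j)) :
    Commute u v := RG.commute12 (ne_of_mat E (by omega)).symm hu (rt_three_one hm ▸ hv)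

namespace Pre
variable {F : Type*} [NonAssocRing F] (c : Pre R i j F)

/-- the reversed edge -/
def symm (hm : E.mat i j = 3) : Pre R j i Fᵐᵒᵖ where
  x₁ t := c.x₃ t.unop
  x₂ t := c.x₂ (-t.unop)
  x₃ t := c.x₁ t.unop
  add₁ _ _ := c.add₃ _ _
  add₂ _ _ := by rw [← c.add₂, MulOpposite.unop_add, neg_add]
  add₃ _ _ := c.add₁ _ _
  inj₁ := c.inj₃.comp MulOpposite.unop_injective
  inj₂ := c.inj₂.comp (neg_injective.comp MulOpposite.unop_injective)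
  inj₃ := c.inj₁.comp MulOpposite.unop_injective
  mem₁ u := (c.mem₃ u).trans ⟨fun ⟨t, h⟩ => ⟨.op t, h⟩, fun ⟨_, h⟩ => ⟨_, h⟩⟩
  mem₂ u := by
    rw [← rt_three_one hm]
    exact (c.mem₂ u).trans ⟨fun ⟨t, h⟩ => ⟨.op (-t), by simpa using h⟩, fun ⟨_, h⟩ => ⟨_, h⟩⟩
  mem₃ u := (c.mem₁ u).trans ⟨fun ⟨t, h⟩ => ⟨.op t, h⟩, fun ⟨_, h⟩ => ⟨_, h⟩⟩
  comm a b := by rw [← commutatorElement_inv, c.comm, map_neg_of_add c.add₂, MulOpposite.unop_mul]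

include c in
theorem lip (hm : E.mat i j = 3) (a : F) (ha : a ≠ 0) : ∃ b, ∀ t, a * (b * t) = t := by
  have hij : i ≠ j := ne_of_mat E (by omega)
  have m1 : ∀ t, c.x₁ t ∈ R.S i := fun t => (c.mem₁ _).2 ⟨t, rfl⟩
  have m2 : ∀ t, c.x₂ t ∈ R.U (rt E (E.s i) j) := fun t => (c.mem₂ _).2 ⟨t, rfl⟩
  have m3 : ∀ t, c.x₃ t ∈ R.S j := fun t => (c.mem₃ _).2 ⟨t, rfl⟩
  have ne : ∀ {t}, t ≠ 0 → c.x₁ t ≠ 1 := fun h e => h (c.inj₁ (e.trans (map_zero_of_add c.add₁).symm))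
  have h1 : (1 : F) ≠ 0 := fun e => ha (by rw [← mul_one a, e, mul_zero])
  obtain ⟨n, hn⟩ := RG.exists_isMu (m1 1) (ne h1)
  obtain ⟨m, hm'⟩ := RG.exists_isMu (m1 a) (ne ha)
  have n3 : ∀ t, n * c.x₃ t * n⁻¹ = c.x₂ t := fun t => by rw [hn.conj_three hm (m1 _) (m3 _), c.comm, one_mul]
  have n2 : ∀ t, n * c.x₂ t * n⁻¹ = c.x₃ (-t) := fun t => by
    have := hn.inv.conj_three hm (inv_mem (m1 _)) (m3 (-t))
    rw [← map_neg_of_add c.add₁, c.comm, neg_mul_neg, one_mul] at this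
    rw [← this]; group
  have c12 : ∀ s t, c.x₁ s * c.x₂ t * (c.x₁ s)⁻¹ = c.x₂ t := fun s t => by
    rw [(RG.commute12 hij (m1 s) (m2 t)).eq]; group
  have c13 : ∀ s t, c.x₁ s * c.x₃ t * (c.x₁ s)⁻¹ = c.x₂ (s * t) * c.x₃ t := fun s t => by
    rw [← c.comm, commutatorElement_def]; group
  have c23 : ∀ s t, c.x₃ s * c.x₂ t = c.x₂ t * c.x₃ s := fun s t => (RG.commute32 hm (m3 s) (m2 t)).eq
  have neg : ∀ q ∈ R.U (rt E (1 * E.s i) i), (∀ t, q * c.x₃ t * q⁻¹ = c.x₃ t) ∧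
      ∃ b, ∀ t, q * c.x₂ t * q⁻¹ = c.x₂ t * c.x₃ (-(b * t)) := fun q hq => by
    refine ⟨fun t => ?_, ?_⟩
    · rw [(R.comm_adj _ i j hij q hq _ (by simpa [E.sq] using m3 t)).eq]; group
    obtain ⟨b, hb⟩ := (c.mem₁ (n⁻¹ * q * n⁻¹⁻¹)).1 (by simpa [E.sq] using R.conj hn.inv.act_one _ _ q hq)
    refine ⟨b, fun t => ?_⟩
    calc q * c.x₂ t * q⁻¹ = n * (c.x₁ b * c.x₃ t * (c.x₁ b)⁻¹) * n⁻¹ := by rw [← hb, ← n3]; group
      _ = (n * c.x₂ (b * t) * n⁻¹) * (n * c.x₃ t * n⁻¹) := by rw [c13]; group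
      _ = _ := by rw [n2, n3, c23]
  obtain ⟨p, hp, q, hq, e, hact⟩ := hm'
  obtain ⟨p3, b', p2⟩ := neg p hp
  obtain ⟨-, b, q2⟩ := neg q hq
  refine ⟨b, fun t => ?_⟩
  have h3 : m * c.x₂ t * m⁻¹ ∈ R.S j := by simpa [E.sq] using R.conj hact _ _ _ (m2 t)
  have h4 : m * c.x₂ t * m⁻¹ = c.x₂ (t - a * (b * t)) * (c.x₃ (-(b' * (t - a * (b * t)))) * c.x₃ (-(b * t))) := by
    calc m * c.x₂ t * m⁻¹ = p * (c.x₁ a * (q * c.x₂ t * q⁻¹) * (c.x₁ a)⁻¹) * p⁻¹ := by rw [e]; group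
      _ = p * ((c.x₁ a * c.x₂ t * (c.x₁ a)⁻¹) * (c.x₁ a * c.x₃ (-(b * t)) * (c.x₁ a)⁻¹)) * p⁻¹ := by rw [q2]; group
      _ = (p * c.x₂ (t - a * (b * t)) * p⁻¹) * (p * c.x₃ (-(b * t)) * p⁻¹) := by
        rw [c12, c13, sub_eq_add_neg, c.add₂, mul_neg]; group
      _ = _ := by rw [p2, p3, mul_assoc]
  have h5 := (RG.uniq3 hm (one_mem _) (m2 (t - a * (b * t))) (mul_mem (mul_mem (m3 (-(b' * (t - a * (b * t)))))
    (m3 (-(b * t)))) (inv_mem h3)) (by rw [h4]; group)).2.1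
  exact (sub_eq_zero.1 (c.inj₂ (h5.trans (map_zero_of_add c.add₂).symm))).symm

end Pre

theorem RG.exists_comm_eq (hm : E.mat i j = 3) {u : A} (hu : u ∈ R.S i) (h1 : u ≠ 1) :
    (∀ y ∈ R.U (rt E (E.s i) j), ∃ v ∈ R.S j, ⁅u, v⁆ = y) ∧ ∀ v ∈ R.S j, ∀ v' ∈ R.S j, ⁅u, v⁆ = ⁅u, v'⁆ → v = v' := by
  obtain ⟨m, h⟩ := RG.exists_isMu hu h1
  refine ⟨fun y hy => ?_, fun v hv v' hv' e => ?_⟩
  · have : m⁻¹ * y * m⁻¹⁻¹ ∈ R.S j := by simpa [E.sq] using R.conj h.inv.act_one _ _ y hy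
    exact ⟨_, this, by rw [← h.conj_three hm hu this]; group⟩
  · rw [← h.conj_three hm hu hv, ← h.conj_three hm hu hv'] at e
    simpa using e

theorem RG.exists_pre (R : RG E A) (hm : E.mat i j = 3) :
    ∃ _ : NonAssocRing (Additive (R.U (rt E (E.s i) j))), Nonempty (Pre R i j (Additive (R.U (rt E (E.s i) j)))) := by
  have hij : i ≠ j := ne_of_mat E (by omega)
  obtain ⟨e₁, he₁, n₁⟩ := R.nontriv 1 i
  obtain ⟨e₃, he₃, n₃⟩ := R.nontriv 1 j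
  obtain ⟨s₃, i₃⟩ := RG.exists_comm_eq hm he₁ n₁
  obtain ⟨s₁, i₁⟩ := RG.exists_comm_eq ((mat_comm E _ _).trans hm) he₃ n₃
  rw [← rt_three_one hm] at s₁
  have cm : ∀ u ∈ R.S i, ∀ v ∈ R.S j, ⁅u, v⁆ ∈ R.U (rt E (E.s i) j) := fun u hu v hv => by
    simpa using R.comm3 1 i j hm u hu v hv
  have ab : ∀ y ∈ R.U (rt E (E.s i) j), ∀ z ∈ R.U (rt E (E.s i) j), y * z = z * y := fun y hy z hz => by
    obtain ⟨v, hv, rfl⟩ := s₃ y hy
    have h1 := RG.commute12 hij he₁ hz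
    have h2 := RG.commute32 hm hv hz
    exact (((h1.mul_left h2).mul_left h1.inv_left).mul_left h2.inv_left).eq
  have bl : ∀ u ∈ R.S i, ∀ u' ∈ R.S i, ∀ v ∈ R.S j, ⁅u * u', v⁆ = ⁅u, v⁆ * ⁅u', v⁆ := fun u hu u' hu' v hv => by
    rw [ab _ (cm u hu v hv) _ (cm u' hu' v hv)]
    calc ⁅u * u', v⁆ = (u * ⁅u', v⁆) * u⁻¹ * ⁅u, v⁆ := by simp only [commutatorElement_def]; group
      _ = _ := by rw [(RG.commute12 hij hu (cm u' hu' v hv)).eq]; group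
  have br : ∀ u ∈ R.S i, ∀ v ∈ R.S j, ∀ v' ∈ R.S j, ⁅u, v * v'⁆ = ⁅u, v⁆ * ⁅u, v'⁆ := fun u hu v hv v' hv' => by
    calc ⁅u, v * v'⁆ = ⁅u, v⁆ * ((v * ⁅u, v'⁆) * v⁻¹) := by simp only [commutatorElement_def]; group
      _ = _ := by rw [(RG.commute32 hm hv (cm u hu v' hv')).eq]; group
  have s₁' : ∀ y : Additive (R.U (rt E (E.s i) j)), ∃ u ∈ R.S i, ⁅u, e₃⁆ = y.toMul := fun y => by
    obtain ⟨u, hu, e⟩ := s₁ _ (inv_mem y.toMul.2)
    exact ⟨u, hu, by rw [← commutatorElement_inv, e, inv_inv]⟩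
  have i₁' : ∀ u ∈ R.S i, ∀ u' ∈ R.S i, ⁅u, e₃⁆ = ⁅u', e₃⁆ → u = u' := fun u hu u' hu' e =>
    i₁ u hu u' hu' (by rw [← commutatorElement_inv, e, commutatorElement_inv])
  choose x₁ m₁ hx₁ using s₁'
  choose x₃ m₃ hx₃ using fun y : Additive (R.U (rt E (E.s i) j)) => s₃ _ y.toMul.2
  have a₁ : ∀ a b, x₁ (a + b) = x₁ a * x₁ b := fun a b => i₁' _ (m₁ _) _ (mul_mem (m₁ _) (m₁ _))
    (by rw [bl _ (m₁ _) _ (m₁ _) _ he₃, hx₁, hx₁, hx₁]; rfl)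
  have a₃ : ∀ a b, x₃ (a + b) = x₃ a * x₃ b := fun a b => i₃ _ (m₃ _) _ (mul_mem (m₃ _) (m₃ _))
    (by rw [br _ he₁ _ (m₃ _) _ (m₃ _), hx₃, hx₃, hx₃]; rfl)
  let o : Additive (R.U (rt E (E.s i) j)) := .ofMul ⟨_, cm _ he₁ _ he₃⟩
  have o₁ : x₁ o = e₁ := i₁' _ (m₁ _) _ he₁ (hx₁ _)
  have o₃ : x₃ o = e₃ := i₃ _ (m₃ _) _ he₃ (hx₃ _)
  let ring : NonAssocRing (Additive (R.U (rt E (E.s i) j))) :=
    { (inferInstance : AddGroup (Additive (R.U (rt E (E.s i) j)))) with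
      add_comm := fun a b => Subtype.ext (ab _ a.toMul.2 _ b.toMul.2)
      mul := fun a b => .ofMul ⟨_, cm _ (m₁ a) _ (m₃ b)⟩
      one := o
      left_distrib := fun a b c => Subtype.ext ((congrArg _ (a₃ b c)).trans (br _ (m₁ _) _ (m₃ _) _ (m₃ _)))
      right_distrib := fun a b c => Subtype.ext ((congrArg (⁅·, _⁆) (a₁ a b)).trans (bl _ (m₁ _) _ (m₁ _) _ (m₃ _)))
      zero_mul := fun a => Subtype.ext ((congrArg (⁅·, _⁆) (map_zero_of_add a₁)).trans (commutatorElement_one_left _))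
      mul_zero := fun a => Subtype.ext ((congrArg _ (map_zero_of_add a₃)).trans (commutatorElement_one_right _))
      one_mul := fun a => Subtype.ext ((congrArg (⁅·, _⁆) o₁).trans (hx₃ a))
      mul_one := fun a => Subtype.ext ((congrArg _ o₃).trans (hx₁ a)) }
  exact ⟨ring, ⟨{
    x₁ := x₁, x₂ := fun t => t.toMul, x₃ := x₃, add₁ := a₁, add₂ := fun _ _ => rfl, add₃ := a₃
    inj₁ := fun a b e => Subtype.ext (by have := hx₁ a; rw [e, hx₁] at this; exact this.symm)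
    inj₂ := fun _ _ e => Subtype.ext e
    inj₃ := fun a b e => Subtype.ext (by have := hx₃ a; rw [e, hx₃] at this; exact this.symm)
    mem₁ := fun u => ⟨fun hu => ⟨.ofMul ⟨_, cm _ hu _ he₃⟩, i₁' _ hu _ (m₁ _) (hx₁ (.ofMul ⟨_, cm _ hu _ he₃⟩)).symm⟩, by rintro ⟨t, rfl⟩; exact m₁ t⟩
    mem₂ := fun u => ⟨fun hu => ⟨.ofMul ⟨u, hu⟩, rfl⟩, by rintro ⟨t, rfl⟩; exact t.toMul.2⟩
    mem₃ := fun u => ⟨fun hu => ⟨.ofMul ⟨_, cm _ he₁ _ hu⟩, i₃ _ hu _ (m₃ _) (hx₃ (.ofMul ⟨_, cm _ he₁ _ hu⟩)).symm⟩, by rintro ⟨t, rfl⟩; exact m₃ t⟩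
    comm := fun _ _ => rfl }⟩⟩

theorem Pre.exists_field {F : Type*} [NonAssocRing F] [Finite F] (c : Pre R i j F) (hm : E.mat i j = 3) :
    ∃ _ : Field F, Nonempty (A2C R i j F) := by
  have hl := c.lip hm
  have hr := (c.symm hm).lip ((mat_comm E _ _).trans hm)
  have : NoZeroDivisors F := ⟨fun {a b} e => by
    by_contra! h
    obtain ⟨d, hd⟩ := hl a h.1
    exact h.2 ((Finite.injective_iff_surjective (f := fun c => a * c)).2 (fun c => ⟨_, hd c⟩) (e.trans (mul_zero a).symm))⟩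
  have : Finite Fᵐᵒᵖ := Finite.of_equiv F MulOpposite.opEquiv
  have az : Perm.AzAlt F := ⟨left_alt_of_lip hl, fun x y =>
    (congrArg MulOpposite.unop (left_alt_of_lip hr (.op x) (.op y))).symm⟩
  let ring : Ring F := { ‹NonAssocRing F› with
    mul_assoc := az.mul_assoc, npow := npowRec, npow_zero := fun _ => rfl, npow_succ := fun _ _ => rfl }
  have : Nontrivial F := by
    obtain ⟨u, hu, h1⟩ := R.nontriv 1 i
    obtain ⟨t, rfl⟩ := (c.mem₁ u).1 hu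
    exact ⟨t, 0, fun e => h1 (e ▸ map_zero_of_add c.add₁)⟩
  have : IsDomain F := NoZeroDivisors.to_isDomain F
  letI := (Finite.isDomain_to_isField F).toField
  exact ⟨this, ⟨⟨c.x₁, c.x₂, c.x₃, c.add₁, c.add₂, c.add₃, c.inj₁, c.inj₂, c.inj₃,
    c.mem₁, c.mem₂, c.mem₃, c.comm⟩⟩⟩

theorem RG.exists_A2C {B W : Type*} [Group W] [Finite W] {E : ExchSys B W} {A : Type u} [Group A] [Finite A]
    (R : RG E A) {i j : B} (hm : E.mat i j = 3) :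
    ∃ (F : Type u) (_ : Field F) (_ : Finite F), Nonempty (A2C R i j F) := by
  obtain ⟨_, ⟨c⟩⟩ := R.exists_pre hm
  obtain ⟨_, h⟩ := c.exists_field hm
  exact ⟨_, _, inferInstance, h⟩

end CfsgLib.Tits
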