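import Cfsg.Agent.Lib.Tits.A2F

/-!
# Package A2S: scalars and semilinear maps on a simple edge (see `plans/TITS.md`)
-/

set_option autoImplicit false

namespace CfsgLib.Tits
open Cfsg CfsgLib.BN
open scoped commutatorElement

theorem card_of_coord {A F : Type*} [Group A] {H : Subgroup A} {x : F → A} (inj : Function.Injective x)
    (mem : ∀ u, u ∈ H ↔ ∃ t, u = x t) : Nat.card H = Nat.card F :=
  (Nat.card_congr (Equiv.ofBijective (fun t => (⟨x t, (mem _).2 ⟨t, rfl⟩⟩ : H))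
    ⟨fun _ _ e => inj (congrArg Subtype.val e), fun u => ((mem u).1 u.2).imp fun _ e => Subtype.ext e.symm⟩)).symm

/-- the graph of an isomorphism given by coordinates -/
theorem exists_graph {A A' F : Type*} [Group A] [Group A'] [AddGroup F] {H : Subgroup A} {H' : Subgroup A'}
    {x : F → A} {x' : F → A'} (add : ∀ a b, x (a + b) = x a * x b) (add' : ∀ a b, x' (a + b) = x' a * x' b)
    (inj : Function.Injective x) (inj' : Function.Injective x') (mem : ∀ u, u ∈ H ↔ ∃ t, u = x t)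
    (mem' : ∀ u, u ∈ H' ↔ ∃ t, u = x' t) : ∃ Γ, Gr H H' Γ ∧ ∀ p, p ∈ Γ ↔ ∃ t, p = (x t, x' t) := by
  let Γ : Subgroup (A × A') :=
    { carrier := {p | ∃ t, p = (x t, x' t)}
      mul_mem' := by
        rintro _ _ ⟨a, rfl⟩ ⟨b, rfl⟩
        exact ⟨a + b, by rw [add, add']; rfl⟩
      one_mem' := ⟨0, by rw [map_zero_of_add add, map_zero_of_add add']; rfl⟩
      inv_mem' := by
        rintro _ ⟨a, rfl⟩
        exact ⟨-a, by rw [map_neg_of_add add, map_neg_of_add add']; rfl⟩ }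
  refine ⟨Γ, ⟨?_, fun u hu => ?_, fun u hu => ?_, ?_, ?_⟩, fun _ => Iff.rfl⟩
  · rintro _ ⟨t, rfl⟩
    exact ⟨(mem _).2 ⟨t, rfl⟩, (mem' _).2 ⟨t, rfl⟩⟩
  · obtain ⟨t, rfl⟩ := (mem u).1 hu
    exact ⟨_, t, rfl⟩
  · obtain ⟨t, rfl⟩ := (mem' u).1 hu
    exact ⟨_, t, rfl⟩
  · rintro u ⟨t, e⟩
    obtain ⟨e1, rfl⟩ := Prod.mk.inj e
    rw [inj (e1.symm.trans (map_zero_of_add add).symm), map_zero_of_add add']
  · rintro u ⟨t, e⟩
    obtain ⟨rfl, e1⟩ := Prod.mk.inj e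
    rw [inj' (e1.symm.trans (map_zero_of_add add').symm), map_zero_of_add add]

namespace A2C
variable {B W : Type*} [Group W] [Finite W] {E : ExchSys B W} {A : Type*} [Group A] {R : RG E A} {i j : B}
  {F : Type*} [Field F] (c : A2C R i j F)

omit [Finite W] in
theorem x₁_zero : c.x₁ 0 = 1 := map_zero_of_add c.add₁
omit [Finite W] in
theorem x₂_zero : c.x₂ 0 = 1 := map_zero_of_add c.add₂
omit [Finite W] in
theorem x₃_zero : c.x₃ 0 = 1 := map_zero_of_add c.add₃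
omit [Finite W] in
theorem x₁_neg (a : F) : c.x₁ (-a) = (c.x₁ a)⁻¹ := map_neg_of_add c.add₁ a
omit [Finite W] in
theorem x₂_neg (a : F) : c.x₂ (-a) = (c.x₂ a)⁻¹ := map_neg_of_add c.add₂ a
omit [Finite W] in
theorem x₃_neg (a : F) : c.x₃ (-a) = (c.x₃ a)⁻¹ := map_neg_of_add c.add₃ a
omit [Finite W] in
include c in
theorem card₁ : Nat.card (R.S i) = Nat.card F := card_of_coord c.inj₁ c.mem₁
omit [Finite W] in
include c in
theorem card₃ : Nat.card (R.S j) = Nat.card F := card_of_coord c.inj₃ c.mem₃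
omit [Finite W] in
theorem x₁_mem (a : F) : c.x₁ a ∈ R.S i := (c.mem₁ _).2 ⟨a, rfl⟩
omit [Finite W] in
theorem x₂_mem (a : F) : c.x₂ a ∈ R.U (rt E (E.s i) j) := (c.mem₂ _).2 ⟨a, rfl⟩
omit [Finite W] in
theorem x₃_mem (a : F) : c.x₃ a ∈ R.S j := (c.mem₃ _).2 ⟨a, rfl⟩
omit [Finite W] in
theorem x₁_ne {a : F} : c.x₁ a ≠ 1 ↔ a ≠ 0 := by rw [← c.x₁_zero, c.inj₁.ne_iff]
omit [Finite W] in
theorem x₃_ne {a : F} : c.x₃ a ≠ 1 ↔ a ≠ 0 := by rw [← c.x₃_zero, c.inj₃.ne_iff]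

omit [Finite W] in
/-- the coordinates for the reversed edge -/
theorem exists_symm (hm : E.mat i j = 3) : ∃ c' : A2C R j i F, c'.x₁ = c.x₃ ∧ c'.x₃ = c.x₁ ∧ ∀ t, c'.x₂ t = c.x₂ (-t) :=
  ⟨{ x₁ := c.x₃, x₂ := fun t => c.x₂ (-t), x₃ := c.x₁, add₁ := c.add₃, add₃ := c.add₁
     add₂ := fun _ _ => by rw [← c.add₂, neg_add]
     inj₁ := c.inj₃, inj₂ := c.inj₂.comp neg_injective, inj₃ := c.inj₁, mem₁ := c.mem₃, mem₃ := c.mem₁
     mem₂ := fun u => by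
       rw [← rt_three_one hm]
       exact (c.mem₂ u).trans ⟨fun ⟨t, h⟩ => ⟨-t, by simpa using h⟩, fun ⟨_, h⟩ => ⟨_, h⟩⟩
     comm := fun a b => by rw [← commutatorElement_inv, c.comm, c.x₂_neg, mul_comm] }, rfl, rfl, fun _ => rfl⟩

variable (hm : E.mat i j = 3)
include hm

theorem mu₁_x₃ {a : F} {m : A} (h : R.IsMu 1 i (c.x₁ a) m) (b : F) : m * c.x₃ b * m⁻¹ = c.x₂ (a * b) := by
  rw [h.conj_three hm (c.x₁_mem a) (c.x₃_mem b), c.comm]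

theorem mu₁_x₂ {a : F} (ha : a ≠ 0) {m : A} (h : R.IsMu 1 i (c.x₁ a) m) (t : F) :
    m * c.x₂ t * m⁻¹ = c.x₃ (-(t / a)) := by
  have := c.mu₁_x₃ hm (c.x₁_neg a ▸ h.inv) (-(t / a))
  rw [neg_mul_neg, mul_div_cancel₀ _ ha] at this
  rw [← this]; group

theorem mu₃_x₁ {b : F} {n : A} (h : R.IsMu 1 j (c.x₃ b) n) (a : F) : n * c.x₁ a * n⁻¹ = c.x₂ (-(a * b)) := by
  obtain ⟨c', e₁, e₃, e₂⟩ := c.exists_symm hm
  rw [← e₃, c'.mu₁_x₃ ((mat_comm E _ _).trans hm) (e₁ ▸ h), e₂, mul_comm]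

theorem mu₃_x₂ {b : F} (hb : b ≠ 0) {n : A} (h : R.IsMu 1 j (c.x₃ b) n) (t : F) :
    n * c.x₂ t * n⁻¹ = c.x₁ (t / b) := by
  obtain ⟨c', e₁, e₃, e₂⟩ := c.exists_symm hm
  have := c'.mu₁_x₂ ((mat_comm E _ _).trans hm) hb (e₁ ▸ h) (-t)
  rwa [e₂, e₃, neg_neg, neg_div, neg_neg] at this

/-- the action of `μ(x₁ a)⁻¹ μ(x₁ a')` on the three root groups -/
theorem tor_x {a a' : F} (ha : a ≠ 0) (ha' : a' ≠ 0) {m m' : A} (h : R.IsMu 1 i (c.x₁ a) m)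
    (h' : R.IsMu 1 i (c.x₁ a') m') (t : F) :
    m⁻¹ * m' * c.x₃ t * (m⁻¹ * m')⁻¹ = c.x₃ (a' / a * t) ∧ m⁻¹ * m' * c.x₂ t * (m⁻¹ * m')⁻¹ = c.x₂ (a / a' * t) ∧
      m⁻¹ * m' * c.x₁ t * (m⁻¹ * m')⁻¹ = c.x₁ ((a / a') ^ 2 * t) := by
  have h3 : ∀ t, m⁻¹ * m' * c.x₃ t * (m⁻¹ * m')⁻¹ = c.x₃ (a' / a * t) := fun t => by
    have e : a * (a' / a * t) = a' * t := by field_simp
    calc _ = m⁻¹ * (m' * c.x₃ t * m'⁻¹) * m := by group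
      _ = _ := by rw [c.mu₁_x₃ hm h', ← e, ← c.mu₁_x₃ hm h]; group
  have h2 : ∀ t, m⁻¹ * m' * c.x₂ t * (m⁻¹ * m')⁻¹ = c.x₂ (a / a' * t) := fun t => by
    have e : a / a' * t / a = t / a' := by field_simp
    calc _ = m⁻¹ * (m' * c.x₂ t * m'⁻¹) * m := by group
      _ = _ := by rw [c.mu₁_x₂ hm ha' h', ← e, ← c.mu₁_x₂ hm ha h]; group
  refine ⟨h3 t, h2 t, ?_⟩
  have act : R.Act (m⁻¹ * m') 1 := RG.Tor.act ⟨_, c.x₁_mem a, _, c.x₁_mem a', m, m', c.x₁_ne.2 ha, c.x₁_ne.2 ha', h, h', rfl⟩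
  obtain ⟨s, hs⟩ := (c.mem₁ _).1 (by simpa only [mul_one] using R.conj act 1 i _ (c.x₁_mem t))
  have e : c.x₂ (s * (a' / a * 1)) = c.x₂ (a / a' * (t * 1)) := by
    rw [← h2, ← c.comm, ← c.comm, ← hs, ← h3, conjugate_commutatorElement]
  rw [hs]
  congr 1
  have := c.inj₂ e
  field_simp at this ⊢
  exact this

theorem tor_scalar {h : A} (hh : R.Tor i h) : ∃ s, s ≠ 0 ∧ ∀ t, h * c.x₃ t * h⁻¹ = c.x₃ (s * t) := by
  obtain ⟨u, hu, v, hv, m, n, u1, v1, h1, h2, rfl⟩ := hh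
  obtain ⟨a, rfl⟩ := (c.mem₁ u).1 hu
  obtain ⟨b, rfl⟩ := (c.mem₁ v).1 hv
  rw [c.x₁_ne] at u1 v1
  exact ⟨b / a, div_ne_zero v1 u1, fun t => (c.tor_x hm u1 v1 h1 h2 t).1⟩

theorem exists_tor {s : F} (hs : s ≠ 0) : ∃ h, R.Tor i h ∧ ∀ t, h * c.x₃ t * h⁻¹ = c.x₃ (s * t) := by
  obtain ⟨m, h1⟩ := RG.exists_isMu (c.x₁_mem 1) (c.x₁_ne.2 one_ne_zero)
  obtain ⟨n, h2⟩ := RG.exists_isMu (c.x₁_mem s) (c.x₁_ne.2 hs)
  exact ⟨_, ⟨_, c.x₁_mem 1, _, c.x₁_mem s, m, n, c.x₁_ne.2 one_ne_zero, c.x₁_ne.2 hs, h1, h2, rfl⟩,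
    fun t => by simpa only [div_one] using (c.tor_x hm one_ne_zero hs h1 h2 t).1⟩

theorem semi_graph {A' F' : Type*} [Group A'] [Field F'] {R' : RG E A'} (c' : A2C R' i j F') (ψ : F ≃+* F')
    {Γ : Subgroup (A × A')} (hΓ : ∀ p, p ∈ Γ ↔ ∃ t, p = (c.x₃ t, c'.x₃ (ψ t))) : R.Semi R' i Γ := by
  intro h hh
  obtain ⟨s, hs, e⟩ := c.tor_scalar hm hh
  obtain ⟨h', hh', e'⟩ := c'.exists_tor hm ((map_ne_zero ψ).2 hs)
  refine ⟨h', hh', fun u u' hu => ?_⟩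
  obtain ⟨t, e1⟩ := (hΓ _).1 hu
  obtain ⟨rfl, rfl⟩ := Prod.mk.inj e1
  exact (hΓ _).2 ⟨s * t, by rw [e, e', map_mul]⟩

end A2C

namespace RG
variable {B W : Type*} [Group W] [Finite W] {E : ExchSys B W} {A A' : Type*} [Group A] [Group A'] [Finite A] [Finite A']
  {R : RG E A} {R' : RG E A'}

theorem card_eq_of_three (R : RG E A) {i j : B} (hm : E.mat i j = 3) : Nat.card (R.S i) = Nat.card (R.S j) := by
  obtain ⟨F, _, _, ⟨c⟩⟩ := R.exists_A2C hm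
  rw [c.card₁, c.card₃]

theorem isPrimePow_card (R : RG E A) {i j : B} (hm : E.mat i j = 3) : IsPrimePow (Nat.card (R.S i)) := by
  obtain ⟨F, _, _, ⟨c⟩⟩ := R.exists_A2C hm
  have := Fintype.ofFinite F
  rw [c.card₁, Nat.card_eq_fintype_card]
  exact FiniteField.isPrimePow_card F

theorem tor_trans {k j : B} (hm : E.mat k j = 3) {u v : A} (hu : u ∈ R.S j) (hv : v ∈ R.S j) (hu1 : u ≠ 1)
    (hv1 : v ≠ 1) : ∃ h, R.Tor k h ∧ h * u * h⁻¹ = v := by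
  obtain ⟨F, _, _, ⟨c⟩⟩ := R.exists_A2C hm
  obtain ⟨a, rfl⟩ := (c.mem₃ u).1 hu
  obtain ⟨b, rfl⟩ := (c.mem₃ v).1 hv
  rw [c.x₃_ne] at hu1 hv1
  obtain ⟨h, hh, e⟩ := c.exists_tor hm (div_ne_zero hv1 hu1)
  exact ⟨h, hh, by rw [e, div_mul_cancel₀ _ hu1]⟩

/-- two commuting neighbours induce the same scalars -/
theorem tor_indep {i j k : B} (hj : E.mat j i = 3) (hk : E.mat k i = 3) (hjk : E.mat j k = 2) {h : A}
    (hh : R.Tor k h) : ∃ h', R.Tor j h' ∧ ∀ u ∈ R.S i, h * u * h⁻¹ = h' * u * h'⁻¹ := by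
  have _ := hk
  obtain ⟨F, _, _, ⟨c⟩⟩ := R.exists_A2C hj
  obtain ⟨s, hs⟩ := (c.mem₃ _).1 (by simpa only [mul_one] using R.conj hh.act 1 i _ (c.x₃_mem 1))
  have s0 : s ≠ 0 := c.x₃_ne.1 fun e => c.x₃_ne.2 one_ne_zero (by rw [← hs] at e; simpa using e)
  obtain ⟨h', hh', e⟩ := c.exists_tor hj s0
  refine ⟨h', hh', fun u hu => ?_⟩
  obtain ⟨t, rfl⟩ := (c.mem₃ u).1 hu
  by_cases t0 : t = 0
  · simp [t0, c.x₃_zero]
  obtain ⟨g, hg, e'⟩ := c.exists_tor hj t0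
  calc h * c.x₃ t * h⁻¹ = (h * g) * c.x₃ 1 * (h * g)⁻¹ := by rw [← mul_one t, ← e']; group
    _ = g * (h * c.x₃ 1 * h⁻¹) * g⁻¹ := by rw [← (hg.commute_tor hjk hh).eq]; group
    _ = _ := by rw [hs, e', e, mul_comm]

theorem semi_indep {i j k : B} (hj : E.mat j i = 3) (hk : E.mat k i = 3) (hjk : E.mat j k = 2)
    {Γ : Subgroup (A × A')} (hΓ : Gr (R.S i) (R'.S i) Γ) (h : R.Semi R' j Γ) : R.Semi R' k Γ := by
  intro g hg
  obtain ⟨g1, hg1, e1⟩ := tor_indep hj hk hjk hg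
  obtain ⟨g2, hg2, e2⟩ := h g1 hg1
  obtain ⟨g3, hg3, e3⟩ := tor_indep hk hj ((mat_comm E _ _).trans hjk) hg2
  refine ⟨g3, hg3, fun u u' hu => ?_⟩
  rw [e1 u (hΓ.le hu).1, ← e3 u' (hΓ.le hu).2]
  exact e2 u u' hu

theorem a2_start {i j : B} (hm : E.mat j i = 3) (hc : Nat.card (R.S i) = Nat.card (R'.S i)) :
    ∃ Γ, Gr (R.S i) (R'.S i) Γ ∧ R.Semi R' j Γ := by
  obtain ⟨F, _, _, ⟨c⟩⟩ := R.exists_A2C hm
  obtain ⟨F', _, _, ⟨c'⟩⟩ := R'.exists_A2C hm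
  have := Fintype.ofFinite F
  have := Fintype.ofFinite F'
  rw [c.card₃, c'.card₃, Nat.card_eq_fintype_card, Nat.card_eq_fintype_card] at hc
  let ψ := FiniteField.ringEquivOfCardEq hc
  obtain ⟨Γ, h1, h2⟩ := exists_graph (x' := fun t => c'.x₃ (ψ t)) c.add₃ (fun a b => by rw [map_add, c'.add₃])
    c.inj₃ (c'.inj₃.comp ψ.injective) c.mem₃ fun u => (c'.mem₃ u).trans ψ.surjective.exists
  exact ⟨Γ, h1, c.semi_graph hm c' ψ h2⟩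

theorem a2_ext {i j : B} (hm : E.mat j i = 3) {Γ : Subgroup (A × A')} (hΓ : Gr (R.S i) (R'.S i) Γ)
    (h : R.Semi R' j Γ) : ∃ Λ, Gr (R.S j) (R'.S j) Λ ∧ R.Semi R' i Λ ∧ R.Edge R' j i Λ Γ := by
  obtain ⟨F, _, _, ⟨c⟩⟩ := R.exists_A2C hm
  obtain ⟨F', _, _, ⟨c'⟩⟩ := R'.exists_A2C hm
  have ex : ∀ t, ∃ t', (c.x₃ t, c'.x₃ t') ∈ Γ := fun t => by
    obtain ⟨u, hu⟩ := hΓ.left _ (c.x₃_mem t)
    obtain ⟨t', rfl⟩ := (c'.mem₃ u).1 (hΓ.le hu).2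
    exact ⟨t', hu⟩
  choose θ hθ using ex
  have uq : ∀ {t t'}, (c.x₃ t, c'.x₃ t') ∈ Γ → θ t = t' := fun {t t'} e =>
    c'.inj₃ (inv_mul_eq_one.1 (hΓ.inj_left _ (by simpa using mul_mem (inv_mem (hθ t)) e)))
  have add : ∀ a b, θ (a + b) = θ a + θ b := fun a b => uq (by rw [c.add₃, c'.add₃]; exact mul_mem (hθ a) (hθ b))
  have inj : Function.Injective θ := fun a b e =>
    c.inj₃ (inv_mul_eq_one.1 (hΓ.inj_right _ (by simpa [e] using mul_mem (inv_mem (hθ a)) (hθ b))))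
  have all : ∀ q ∈ Γ, ∃ t, q = (c.x₃ t, c'.x₃ (θ t)) := fun ⟨u, u'⟩ hq => by
    obtain ⟨t, rfl⟩ := (c.mem₃ u).1 (hΓ.le hq).1
    obtain ⟨t', rfl⟩ := (c'.mem₃ u').1 (hΓ.le hq).2
    exact ⟨t, by rw [uq hq]⟩
  have sur : Function.Surjective θ := fun t' => by
    obtain ⟨u, hu⟩ := hΓ.right _ (c'.x₃_mem t')
    obtain ⟨t, e⟩ := all _ hu
    exact ⟨t, (c'.inj₃ (Prod.mk.inj e).2).symm⟩
  have z : θ 0 = 0 := by simpa using add 0 0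
  have l0 : θ 1 ≠ 0 := fun e => one_ne_zero (inj (e.trans z.symm))
  have mul : ∀ s t, θ (s * t) * θ 1 = θ s * θ t := fun s t => by
    by_cases s0 : s = 0
    · simp [s0, z]
    obtain ⟨g, hg, e⟩ := c.exists_tor hm s0
    obtain ⟨g', hg', e1⟩ := h g hg
    obtain ⟨s', -, e'⟩ := c'.tor_scalar hm hg'
    have k : ∀ t, θ (s * t) = s' * θ t := fun t => uq (by rw [← e, ← e']; exact e1 _ _ (hθ t))
    rw [k, ← mul_one s, k]; ring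
  let φ : F →+* F' :=
    { toFun := fun t => θ t / θ 1, map_one' := div_self l0, map_zero' := by simp [z]
      map_mul' := fun s t => by field_simp; exact mul s t
      map_add' := fun s t => by rw [add, add_div] }
  let ψ : F ≃+* F' := RingEquiv.ofBijective φ ⟨φ.injective, fun t => (sur (t * θ 1)).imp fun s e => by
    simp [φ, e, l0]⟩
  have hψ : ∀ t, θ 1 * ψ t = θ t := fun t => mul_div_cancel₀ _ l0
  obtain ⟨Λ, h1, h2⟩ := exists_graph (x' := fun t => c'.x₁ (ψ t)) c.add₁ (fun a b => by rw [map_add, c'.add₁])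
    c.inj₁ (c'.inj₁.comp ψ.injective) c.mem₁ fun u => (c'.mem₁ u).trans ψ.surjective.exists
  obtain ⟨Δ, h3, h4⟩ := exists_graph (x' := fun t => c'.x₂ (θ t)) c.add₂ (fun a b => by rw [add, c'.add₂])
    c.inj₂ (c'.inj₂.comp inj) c.mem₂ fun u => (c'.mem₂ u).trans sur.exists
  obtain ⟨d, -, e, -⟩ := c.exists_symm hm
  obtain ⟨d', -, e', -⟩ := c'.exists_symm hm
  refine ⟨Λ, h1, d.semi_graph ((mat_comm E _ _).trans hm) d' ψ (by rwa [e, e']), glue3 hm h1 h3 hΓ fun p hp q hq => ?_⟩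
  obtain ⟨a, rfl⟩ := (h2 p).1 hp
  obtain ⟨t, rfl⟩ := all q hq
  refine (h4 _).2 ⟨a * t, Prod.ext (c.comm a t) ((c'.comm _ _).trans ?_)⟩
  rw [← hψ, ← hψ (a * t), map_mul, mul_left_comm]

end RG

end CfsgLib.Tits
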