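import Cfsg.Agent.Lib.Tits.A2S

/-!
# Package C3: coordinates for a double edge (see `plans/TITS.md`)
-/

set_option autoImplicit false

namespace CfsgLib.Tits
open Cfsg CfsgLib.BN
open scoped commutatorElement

namespace C3a
variable {B W : Type*} [Group W] [Finite W] {E : ExchSys B W} {A : Type*} [Group A] {R : RG E A}
  {h i j : B} {F : Type*} [Field F] (c : A2C R h i F)

theorem tor_z (h1 : E.mat h i = 3) (h3 : E.mat h j = 2) {a a' : F} (ha : a ≠ 0) (ha' : a' ≠ 0) {M M' y n : A}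
    (hM : R.IsMu 1 h (c.x₁ a) M) (hM' : R.IsMu 1 h (c.x₁ a') M') (hy : y ∈ R.S j) (hn : R.IsMu 1 j y n) (t : F) :
    M⁻¹ * M' * (n * c.x₃ t * n⁻¹) * (M⁻¹ * M')⁻¹ = n * c.x₃ (a' / a * t) * n⁻¹ := by
  have e := ((hM.commute_mu h3 (c.x₁_mem a) hy hn).inv_left.mul_left (hM'.commute_mu h3 (c.x₁_mem a') hy hn)).eq
  rw [← (c.tor_x h1 ha ha' hM hM' t).1]
  calc _ = M⁻¹ * M' * n * c.x₃ t * (M⁻¹ * M' * n)⁻¹ := by group
    _ = _ := by rw [e]; group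

theorem exists_H (h1 : E.mat h i = 3) {s : F} (hs : s ≠ 0) : ∃ H, R.Tor h H ∧
    (∀ t, H * c.x₃ t * H⁻¹ = c.x₃ (s * t)) ∧ (∀ t, H * c.x₂ t * H⁻¹ = c.x₂ (t / s)) ∧
      ∀ t, H * c.x₁ t * H⁻¹ = c.x₁ (t / s ^ 2) := by
  obtain ⟨m, e1⟩ := RG.exists_isMu (c.x₁_mem 1) (c.x₁_ne.2 one_ne_zero)
  obtain ⟨n, e2⟩ := RG.exists_isMu (c.x₁_mem s) (c.x₁_ne.2 hs)
  have k := c.tor_x h1 one_ne_zero hs e1 e2
  exact ⟨_, ⟨_, c.x₁_mem 1, _, c.x₁_mem s, m, n, c.x₁_ne.2 one_ne_zero, c.x₁_ne.2 hs, e1, e2, rfl⟩,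
    fun t => by rw [(k t).1, div_one], fun t => by rw [(k t).2.1]; congr 1; ring,
    fun t => by rw [(k t).2.2]; congr 1; ring⟩

/-- an element that acts as a scalar on the root group of `h` acts linearly on the third root group -/
theorem lin (h1 : E.mat h i = 3) (h3 : E.mat h j = 2) {y n k : A} (hy : y ∈ R.S j) (hn : R.IsMu 1 j y n)
    (hk : R.Act k 1) {l : F} (hl : l ≠ 0) (e : ∀ a, k * c.x₁ a * k⁻¹ = c.x₁ (l * a)) {t t' : F}
    (e' : k * (n * c.x₃ t * n⁻¹) * k⁻¹ = n * c.x₃ t' * n⁻¹) (r : F) :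
    k * (n * c.x₃ (r * t) * n⁻¹) * k⁻¹ = n * c.x₃ (r * t') * n⁻¹ := by
  by_cases hr : r = 0
  · simp [hr, c.x₃_zero]
  obtain ⟨M, e1⟩ := RG.exists_isMu (c.x₁_mem 1) (c.x₁_ne.2 one_ne_zero)
  obtain ⟨M', e2⟩ := RG.exists_isMu (c.x₁_mem r) (c.x₁_ne.2 hr)
  have e3 := e1.conj hk
  have e4 := e2.conj hk
  rw [mul_one, e] at e3 e4
  have e5 := tor_z c h1 h3 (mul_ne_zero hl one_ne_zero) (mul_ne_zero hl hr) e3 e4 hy hn t'
  have e6 := tor_z c h1 h3 one_ne_zero hr e1 e2 hy hn t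
  rw [div_one] at e6
  rw [mul_div_mul_left _ _ hl, div_one] at e5
  rw [← e6, ← e5, ← e']; group

/-- the group theoretic data of a double edge -/
structure Dat (c : A2C R h i F) (j : B) where
  y₀ : R.S j
  n : A
  m : A
  π : R.S j → F
  ρ : F → R.S j → R.S j
  f : R.S j → R.S j → F
  g : F → F → R.S j
  τ : F → F
  τ' : F → F
  ne : y₀ ≠ 1
  hn : R.IsMu 1 j y₀ n
  hm : R.IsMu 1 i (c.x₃ 1) m
  π_eq : ∀ y, π y = 0 → y = 1
  r14 : ∀ s (y : R.S j), ⁅c.x₃ s, (y : A)⁆ = m * ρ s y * m⁻¹ * (n * c.x₃ (-(s * π y)) * n⁻¹)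
  r24 : ∀ a b : R.S j, ⁅m * a * m⁻¹, (b : A)⁆ = n * c.x₃ (f b a) * n⁻¹
  r13 : ∀ s t, ⁅c.x₃ s, n * c.x₃ (-t) * n⁻¹⁆ = m * g s t * m⁻¹
  hτ : ∀ t, m * (n * c.x₃ t * n⁻¹) * m⁻¹ = n * c.x₃ (τ t) * n⁻¹
  hτ' : ∀ t, m⁻¹ * (n * c.x₃ t * n⁻¹) * m = n * c.x₃ (τ' t) * n⁻¹

omit [Finite W] in
theorem mem_z {n : A} (hn : R.Act n (E.s j)) (u : A) :
    u ∈ R.U (rt E (E.s j) i) ↔ ∃ t, u = n * c.x₃ t * n⁻¹ := by
  refine ⟨fun hu => ?_, ?_⟩
  · obtain ⟨t, e⟩ := (c.mem₃ (n⁻¹ * u * n)).1 (by simpa [E.sq] using R.conj (R.act_inv hn) _ _ u hu)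
    exact ⟨t, by rw [← e]; group⟩
  · rintro ⟨t, rfl⟩
    simpa using R.conj hn 1 i _ (c.x₃_mem t)

omit [Finite W] in
theorem mem_ι {m : A} (hm : R.Act m (E.s i)) (u : A) :
    u ∈ R.U (rt E (E.s i) j) ↔ ∃ y : R.S j, u = m * y * m⁻¹ := by
  refine ⟨fun hu => ⟨⟨m⁻¹ * u * m, by simpa [E.sq] using R.conj (R.act_inv hm) _ _ u hu⟩, by group⟩, ?_⟩
  rintro ⟨y, rfl⟩
  simpa using R.conj hm 1 j _ y.2

theorem mu_x (h2 : E.mat i j = 4) {y n u v : A} (hy : y ∈ R.S j) (hn : R.IsMu 1 j y n) {t : F}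
    (hu : u ∈ R.U (rt E (E.s i) j)) (hv : v ∈ R.U (rt E (E.s j) i)) (e : ⁅c.x₃ t, y⁆ = u * v) :
    n * c.x₃ t * n⁻¹ = v⁻¹ :=
  hn.conj_four ((mat_comm E _ _).trans h2) hy (c.x₃_mem t) (inv_mem hv) (inv_mem hu)
    (by rw [← commutatorElement_inv, e, mul_inv_rev])

theorem exists_dat (h1 : E.mat h i = 3) (h2 : E.mat i j = 4) (h3 : E.mat h j = 2) : Nonempty (Dat c j) := by
  obtain ⟨y₀, hy₀, n₀⟩ := R.nontriv 1 j
  obtain ⟨n, hn⟩ := RG.exists_isMu hy₀ n₀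
  obtain ⟨m, hm⟩ := RG.exists_isMu (c.x₃_mem 1) (c.x₃_ne.2 one_ne_zero)
  have mz := mem_z c hn.act_one
  have mι := mem_ι (j := j) hm.act_one
  have e14 : ∀ y : R.S j, ∃ p, (p = 0 → y = 1) ∧ ∀ s, ∃ y' : R.S j,
      ⁅c.x₃ s, (y : A)⁆ = m * y' * m⁻¹ * (n * c.x₃ (-(s * p)) * n⁻¹) := fun y => by
    by_cases hy : y = 1
    · exact ⟨0, fun _ => hy, fun s => ⟨1, by simp [hy, c.x₃_zero]⟩⟩
    obtain ⟨k, hk⟩ := RG.exists_isMu y.2 fun e => hy (Subtype.ext e)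
    obtain ⟨p, hp⟩ := (mz _).1 ((mem_z c hk.act_one _).2 ⟨1, rfl⟩)
    refine ⟨p, fun e => absurd (c.x₃_ne.2 (one_ne_zero (α := F))) (by simpa [e, c.x₃_zero] using hp), fun s => ?_⟩
    obtain ⟨u, hu, v, hv, e⟩ := R.comm14 1 i j h2 _ (c.x₃_mem s) _ y.2
    rw [one_mul] at hu hv
    obtain ⟨y', rfl⟩ := (mι u).1 hu
    refine ⟨y', ?_⟩
    have e1 := mu_x c h2 y.2 hk hu hv e
    rw [e, ← inv_inv v, ← e1, c.x₃_neg]
    congr 1
    by_cases hs : s = 0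
    · simp [hs, c.x₃_zero]
    obtain ⟨M, e1⟩ := RG.exists_isMu (c.x₁_mem 1) (c.x₁_ne.2 one_ne_zero)
    obtain ⟨M', e2⟩ := RG.exists_isMu (c.x₁_mem s) (c.x₁_ne.2 hs)
    have e3 := tor_z c h1 h3 one_ne_zero hs e1 e2 y.2 hk 1
    rw [hp, tor_z c h1 h3 one_ne_zero hs e1 e2 hy₀ hn, div_one, mul_one] at e3
    rw [← e3]; group
  choose π π_eq ρ r14 using e14
  choose f r24 using fun b a : R.S j => (mz _).1 (RG.comm24 h2 ((mι _).2 ⟨a, rfl⟩) b.2)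
  choose g r13 using fun s t : F => (mι _).1 (by
    simpa only [one_mul] using R.comm13 1 i j h2 _ (c.x₃_mem s) _ (by rw [one_mul]; exact (mz _).2 ⟨-t, rfl⟩))
  choose τ hτ using fun t : F => (mz _).1
    (RG.rt_four_one h2 ▸ R.conj hm.act_one _ _ _ ((mz _).2 ⟨t, rfl⟩))
  choose τ' hτ' using fun t : F => (mz (m⁻¹ * (n * c.x₃ t * n⁻¹) * m)).1
    (by simpa only [inv_inv, E.s_inv, RG.rt_four_one h2] using
      R.conj (R.act_inv hm.act_one) _ _ _ ((mz _).2 ⟨t, rfl⟩))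
  exact ⟨⟨⟨y₀, hy₀⟩, n, m, π, fun s y => ρ y s, f, g, τ, τ', fun e => n₀ (congrArg Subtype.val e), hn, hm, π_eq,
    fun s y => r14 y s, fun a b => r24 b a, r13, hτ, hτ'⟩⟩

namespace Dat
variable {c} (d : Dat c j)

/-- the coordinate of the third root group -/
def z (t : F) : A := d.n * c.x₃ t * d.n⁻¹

/-- the coordinate of the second root group -/
def ι : R.S j →* A := (MulAut.conj d.m).toMonoidHom.comp (R.S j).subtype

omit [Finite W]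

theorem ι_apply (y : R.S j) : d.ι y = d.m * y * d.m⁻¹ := rfl

theorem z_add (a b : F) : d.z (a + b) = d.z a * d.z b := by
  simp only [z, c.add₃]; group

theorem z_inj : Function.Injective d.z := fun _ _ e => c.inj₃ (by simpa [z] using e)

theorem z_zero : d.z 0 = 1 := map_zero_of_add d.z_add

theorem z_neg (t : F) : d.z (-t) = (d.z t)⁻¹ := map_neg_of_add d.z_add t

theorem z_mem (t : F) : d.z t ∈ R.U (rt E (E.s j) i) := (mem_z c d.hn.act_one _).2 ⟨t, rfl⟩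

theorem ι_mem (y : R.S j) : d.ι y ∈ R.U (rt E (E.s i) j) := (mem_ι d.hm.act_one _).2 ⟨y, rfl⟩

theorem ι_inj : Function.Injective d.ι := fun _ _ e => Subtype.ext (by simpa [ι_apply] using e)

theorem c14 (s : F) (y : R.S j) : ⁅c.x₃ s, (y : A)⁆ = d.ι (d.ρ s y) * d.z (-(s * d.π y)) := d.r14 s y

theorem c24 (a b : R.S j) : ⁅d.ι a, (b : A)⁆ = d.z (d.f b a) := d.r24 a b

theorem c13 (s t : F) : ⁅c.x₃ s, d.z (-t)⁆ = d.ι (d.g s t) := d.r13 s t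

theorem m_z (t : F) : d.m * d.z t * d.m⁻¹ = d.z (d.τ t) := d.hτ t

theorem m_z' (t : F) : d.m⁻¹ * d.z t * d.m = d.z (d.τ' t) := d.hτ' t

theorem τ_τ' (t : F) : d.τ (d.τ' t) = t := d.z_inj (by rw [← d.m_z, ← d.m_z']; group)

theorem τ'_τ (t : F) : d.τ' (d.τ t) = t := d.z_inj (by rw [← d.m_z', ← d.m_z]; group)

theorem τ'_add (s t : F) : d.τ' (s + t) = d.τ' s + d.τ' t :=
  d.z_inj (by rw [d.z_add, ← d.m_z', ← d.m_z', ← d.m_z', d.z_add]; group)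

theorem τ'_zero : d.τ' 0 = 0 := by simpa using d.τ'_add 0 0

theorem ρ_zero (y : R.S j) : d.ρ 0 y = 1 := d.ι_inj (by simpa [c.x₃_zero, d.z_zero] using (d.c14 0 y).symm)

variable [Finite W] (h1 : E.mat h i = 3) (h2 : E.mat i j = 4) (h3 : E.mat h j = 2)

section
include h2

theorem uniq {a b : R.S j} {s t : F} (e : d.ι a * d.z s = d.ι b * d.z t) : a = b ∧ s = t := by
  obtain ⟨-, e1, e2, -⟩ := RG.uniq4 h2 (one_mem _) (d.ι_mem (b⁻¹ * a)) (d.z_mem (s + -t)) (one_mem _) (by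
    rw [map_mul, map_inv, d.z_add, d.z_neg]
    calc _ = (d.ι b)⁻¹ * (d.ι a * d.z s) * (d.z t)⁻¹ := by group
      _ = 1 := by rw [e]; group)
  exact ⟨(inv_mul_eq_one.1 (d.ι_inj (e1.trans (map_one _).symm))).symm,
    add_neg_eq_zero.1 (d.z_inj (e2.trans d.z_zero.symm))⟩

theorem cz (y : R.S j) (t : F) : Commute (d.ι y) (d.z t) := RG.commute23 h2 (d.ι_mem y) (d.z_mem t)

theorem cz' (y : R.S j) (t : F) : Commute (y : A) (d.z t) :=
  RG.commute12 (ne_of_mat E (by omega)).symm y.2 (d.z_mem t)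

theorem cx (s : F) (y : R.S j) : Commute (c.x₃ s) (d.ι y) :=
  RG.commute12 (ne_of_mat E (by omega)) (c.x₃_mem s) (d.ι_mem y)

theorem ρ_one (y : R.S j) : d.ρ 1 y = y :=
  d.ι_inj (d.hm.conj_four h2 (c.x₃_mem 1) y.2 (d.ι_mem _) (d.z_mem _) (d.c14 1 y)).symm

theorem c14_one (y : R.S j) : ⁅c.x₃ 1, (y : A)⁆ = d.ι y * d.z (-d.π y) := by
  rw [d.c14, d.ρ_one h2, one_mul]

theorem π_y₀ : d.π d.y₀ = 1 := d.z_inj (by
  have := mu_x c h2 d.y₀.2 d.hn (d.ι_mem _) (d.z_mem _) (d.c14_one h2 d.y₀)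
  rw [d.z_neg, inv_inv] at this
  exact this.symm)

theorem π_one : d.π 1 = 0 := by
  have := d.c14_one h2 1
  simp only [OneMemClass.coe_one, commutatorElement_one_right, map_one, one_mul] at this
  exact neg_eq_zero.1 (d.z_inj (this.symm.trans d.z_zero.symm))

theorem f_mul_left (y y' a : R.S j) : d.f (y * y') a = d.f y a + d.f y' a := d.z_inj (by
  rw [← d.c24, d.z_add]
  calc _ = ⁅d.ι a, (y : A)⁆ * (y * ⁅d.ι a, (y' : A)⁆) * (y : A)⁻¹ := by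
        simp only [commutatorElement_def, Subgroup.coe_mul]; group
    _ = _ := by rw [d.c24, d.c24, (d.cz' h2 y _).eq]; group)

theorem f_mul_right (y a a' : R.S j) : d.f y (a * a') = d.f y a + d.f y a' := d.z_inj (by
  rw [← d.c24, add_comm, d.z_add, map_mul]
  calc _ = d.ι a * ⁅d.ι a', (y : A)⁆ * (d.ι a)⁻¹ * ⁅d.ι a, (y : A)⁆ := by
        simp only [commutatorElement_def]; group
    _ = _ := by rw [d.c24, d.c24, (d.cz h2 a _).eq]; group)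

theorem f_one_left (a : R.S j) : d.f 1 a = 0 := by simpa using d.f_mul_left h2 1 1 a

theorem f_one_right (a : R.S j) : d.f a 1 = 0 := by simpa using d.f_mul_right h2 a 1 1

theorem π_mul (y y' : R.S j) : d.π (y * y') = d.π y + d.π y' + d.f y y' := by
  refine neg_injective (d.uniq h2 (a := y * y') (b := y * y') ?_).2
  rw [← d.c14_one h2]
  calc _ = ⁅c.x₃ 1, (y : A)⁆ * (y * ⁅c.x₃ 1, (y' : A)⁆) * (y : A)⁻¹ := by
        simp only [commutatorElement_def, Subgroup.coe_mul]; group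
    _ = d.ι y * (d.z (-d.π y) * ⁅d.ι y', (y : A)⁆⁻¹ * d.ι y') * (y * d.z (-d.π y')) * (y : A)⁻¹ := by
        rw [d.c14_one h2, d.c14_one h2, commutatorElement_def]; group
    _ = _ := by
        rw [d.c24, ← d.z_neg, ← d.z_add, ← (d.cz h2 y' _).eq, (d.cz' h2 y _).eq, map_mul,
          show -(d.π y + d.π y' + d.f y y') = -d.π y + -d.f y y' + -d.π y' by ring, d.z_add _ (-d.π y')]
        group

theorem ρ_add (s t : F) (y : R.S j) : d.ρ (s + t) y = d.ρ t y * d.g s (t * d.π y) * d.ρ s y := by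
  refine (d.uniq h2 (s := -((s + t) * d.π y)) (t := -(t * d.π y) + -(s * d.π y)) ?_).1
  rw [← d.c14, c.add₃]
  calc _ = c.x₃ s * ⁅c.x₃ t, (y : A)⁆ * (c.x₃ s)⁻¹ * ⁅c.x₃ s, (y : A)⁆ := by
        simp only [commutatorElement_def]; group
    _ = c.x₃ s * d.ι (d.ρ t y) * (c.x₃ s)⁻¹ * ⁅c.x₃ s, d.z (-(t * d.π y))⁆ *
        (d.z (-(t * d.π y)) * d.ι (d.ρ s y)) * d.z (-(s * d.π y)) := by
        rw [d.c14, d.c14, commutatorElement_def]; group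
    _ = _ := by rw [d.c13, (d.cx h2 s _).eq, ← (d.cz h2 _ _).eq, map_mul, map_mul, d.z_add]; group

end

include h3 in
omit [Finite W] in
theorem H_z {H : A} (hH : R.Tor h H) {s : F} (e : ∀ t, H * c.x₃ t * H⁻¹ = c.x₃ (s * t)) (t : F) :
    H * d.z t * H⁻¹ = d.z (s * t) := by
  rw [z, z, ← e]
  calc _ = H * d.n * c.x₃ t * (H * d.n)⁻¹ := by group
    _ = _ := by rw [(hH.commute_mu h3 d.y₀.2 d.hn).eq]; group

include h2 h3 in
theorem H_ι {H : A} (hH : R.Tor h H) {s : F} (e : ∀ t, H * c.x₃ t * H⁻¹ = c.x₃ (s * t)) (y : R.S j) :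
    H * d.ι y * H⁻¹ = d.ι (d.ρ s y) := by
  have e1 := congrArg (fun g => H * g * H⁻¹) (d.c14_one h2 y)
  simp only [conjugate_commutatorElement] at e1
  rw [e, mul_one, (hH.commute h3 (Or.inl y.2)).eq, mul_inv_cancel_right, d.c14, ← mul_neg, ← d.H_z h3 hH e] at e1
  refine mul_right_cancel (b := H * d.z (-d.π y) * H⁻¹) ?_
  rw [e1]; group

include h1 h2 h3

theorem f_ρ_right (s : F) (y a : R.S j) : d.f y (d.ρ s a) = s * d.f y a := by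
  by_cases hs : s = 0
  · rw [hs, d.ρ_zero, d.f_one_right h2, zero_mul]
  obtain ⟨H, hH, e, -⟩ := exists_H c h1 hs
  refine d.z_inj ?_
  rw [← d.c24, ← d.H_z h3 hH e, ← d.c24, conjugate_commutatorElement, d.H_ι h2 h3 hH e,
    (hH.commute h3 (Or.inl y.2)).eq, mul_inv_cancel_right]

/-- the element `m⁻¹ H(s) m` -/
theorem exists_k {s : F} (hs : s ≠ 0) : ∃ k : A, (∀ t, k * c.x₃ t * k⁻¹ = c.x₃ (t / s)) ∧
    (∀ y : R.S j, k * d.ι y * k⁻¹ = d.ι y) ∧ (∀ y : R.S j, k * y * k⁻¹ = d.ρ s y) ∧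
    (∀ t, k * d.z t * k⁻¹ = d.z (d.τ' (s * d.τ t))) ∧ ∀ t, d.τ' (s * d.τ t) = d.τ' (s * d.τ 1) * t := by
  obtain ⟨H, hH, e3, e2, e1⟩ := exists_H c h1 hs
  have m1 := c.mu₃_x₁ h1 d.hm
  have m2 := c.mu₃_x₂ h1 one_ne_zero d.hm
  simp only [mul_one, div_one] at m1 m2
  have act : R.Act (d.m⁻¹ * H * d.m) 1 := by
    simpa [E.sq] using R.act_mul (R.act_mul (R.act_inv d.hm.act_one) hH.act) d.hm.act_one
  have k1 : ∀ a, d.m⁻¹ * H * d.m * c.x₁ a * (d.m⁻¹ * H * d.m)⁻¹ = c.x₁ (s⁻¹ * a) := fun a => by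
    calc _ = d.m⁻¹ * (H * (d.m * c.x₁ a * d.m⁻¹) * H⁻¹) * d.m := by group
      _ = _ := by rw [m1, e2, neg_div, ← m1, div_eq_inv_mul]; group
  have k2 : ∀ a, d.m⁻¹ * H * d.m * c.x₂ a * (d.m⁻¹ * H * d.m)⁻¹ = c.x₂ (a / s ^ 2) := fun a => by
    calc _ = d.m⁻¹ * (H * (d.m * c.x₂ a * d.m⁻¹) * H⁻¹) * d.m := by group
      _ = _ := by rw [m2, e1, ← m2]; group
  have kz : ∀ t, d.m⁻¹ * H * d.m * d.z t * (d.m⁻¹ * H * d.m)⁻¹ = d.z (d.τ' (s * d.τ t)) := fun t => by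
    rw [← d.m_z', ← d.H_z h3 hH e3, ← d.m_z]; group
  refine ⟨d.m⁻¹ * H * d.m, fun t => ?_, fun y => ?_, fun y => ?_, kz, fun t => d.z_inj ?_⟩
  · obtain ⟨t', ht⟩ := (c.mem₃ _).1 (by simpa only [mul_one] using R.conj act 1 i _ (c.x₃_mem t))
    have e := k2 (1 * t)
    rw [← c.comm, conjugate_commutatorElement, k1, ht, c.comm] at e
    have e' := c.inj₂ e
    rw [ht]
    congr 1
    field_simp at e' ⊢
    exact e'
  · have hv : d.m * d.ι y * d.m⁻¹ ∈ R.S j := by simpa [E.sq] using R.conj d.hm.act_one _ _ _ (d.ι_mem y)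
    calc _ = d.m⁻¹ * (H * (d.m * d.ι y * d.m⁻¹)) * H⁻¹ * d.m := by group
      _ = _ := by rw [(hH.commute h3 (Or.inl hv)).eq]; group
  · calc _ = d.m⁻¹ * (H * d.ι y * H⁻¹) * d.m := by rw [ι_apply]; group
      _ = _ := by rw [d.H_ι h2 h3 hH e3, ι_apply]; group
  · have := lin c h1 h3 d.y₀.2 d.hn act (inv_ne_zero hs) k1 (kz 1) t
    rw [mul_one, mul_comm t] at this
    exact (kz t).symm.trans this

theorem τ'_mul (s t : F) : d.τ' (s * d.τ t) = d.τ' (s * d.τ 1) * t := by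
  by_cases hs : s = 0
  · simp [hs, d.τ'_zero]
  obtain ⟨k, -, -, -, -, e⟩ := d.exists_k h1 h2 h3 hs
  exact e t

/-- the involution of the field -/
def σ : F →+* F where
  toFun s := d.τ' (s * d.τ 1)
  map_one' := by rw [one_mul, d.τ'_τ]
  map_mul' s t := by rw [← d.τ'_mul h1 h2 h3, d.τ_τ', mul_assoc]
  map_zero' := by rw [zero_mul, d.τ'_zero]
  map_add' s t := by rw [add_mul, d.τ'_add]

theorem τ_σ (s t : F) : d.τ (d.σ h1 h2 h3 s * t) = s * d.τ t := by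
  rw [← d.τ_τ' (s * d.τ t), d.τ'_mul h1 h2 h3]; rfl

theorem σσ (s : F) : d.σ h1 h2 h3 (d.σ h1 h2 h3 s) = s := by
  have m1 := c.mu₃_x₁ h1 d.hm
  have m2 := c.mu₃_x₂ h1 one_ne_zero d.hm
  simp only [mul_one, div_one] at m1 m2
  have kz : ∀ t, d.m * d.m * d.z t * (d.m * d.m)⁻¹ = d.z (d.τ (d.τ t)) := fun t => by
    rw [← d.m_z, ← d.m_z]; group
  have e := lin c h1 h3 d.y₀.2 d.hn (k := d.m * d.m) (by simpa [E.sq] using R.act_mul d.hm.act_one d.hm.act_one)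
    (neg_ne_zero.2 one_ne_zero) (fun a => by rw [neg_one_mul, ← m2 (-a), ← m1]; group) (kz 1) s
  have e1 := d.z_inj ((kz _).symm.trans e)
  rw [← d.τ_σ h1 h2 h3, ← d.τ_σ h1 h2 h3] at e1
  simpa only [d.τ'_τ, mul_one] using (congrArg (fun t => d.τ' (d.τ' t)) e1).symm

theorem f_ρ_left (s : F) (y a : R.S j) : d.f (d.ρ s y) a = d.σ h1 h2 h3 s * d.f y a := by
  by_cases hs : s = 0
  · rw [hs, d.ρ_zero, d.f_one_left h2, map_zero, zero_mul]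
  obtain ⟨k, -, e2, e4, e3, e⟩ := d.exists_k h1 h2 h3 hs
  refine d.z_inj ?_
  rw [← d.c24, ← e4, ← e2, ← conjugate_commutatorElement, d.c24, e3, e]; rfl

theorem π_ρ (s : F) (y : R.S j) : d.π (d.ρ s y) = s * d.σ h1 h2 h3 s * d.π y := by
  by_cases hs : s = 0
  · rw [hs, d.ρ_zero, d.π_one h2, zero_mul, zero_mul]
  obtain ⟨k, e1, e2, e4, e3, e⟩ := d.exists_k h1 h2 h3 hs
  have e5 : d.ι (d.ρ (1 / s) (d.ρ s y)) * d.z (-(1 / s * d.π (d.ρ s y))) =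
      d.ι y * d.z (d.σ h1 h2 h3 s * -d.π y) := by
    rw [← d.c14, ← e4, ← e1, ← conjugate_commutatorElement, d.c14_one h2]
    calc _ = k * d.ι y * k⁻¹ * (k * d.z (-d.π y) * k⁻¹) := by group
      _ = _ := by rw [e2, e3, e]; rfl
  have e6 := (d.uniq h2 e5).2
  field_simp at e6
  linear_combination -e6

theorem f_g_right (s t : F) (y : R.S j) : d.f y (d.g s t) = 0 := by
  have e := congrArg (d.f y) (d.ρ_add h2 s t d.y₀)
  simp only [d.f_mul_right h2, d.f_ρ_right h1 h2 h3, d.π_y₀ h2, mul_one] at e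
  linear_combination -e

theorem f_g_left (s t : F) (y : R.S j) : d.f (d.g s t) y = 0 := by
  have hv : d.m * d.ι y * d.m⁻¹ ∈ R.S j := by simpa [E.sq] using R.conj d.hm.act_one _ _ _ (d.ι_mem y)
  have e := d.c24 (d.g s t) ⟨_, hv⟩
  rw [d.f_g_right h1 h2 h3, d.z_zero, ι_apply, ← conjugate_commutatorElement] at e
  refine d.z_inj ?_
  rw [← d.c24, d.z_zero, ← commutatorElement_inv, inv_eq_one]
  simpa using e

theorem π_g (s t : F) (y : R.S j) : d.π (d.g s (t * d.π y)) =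
    (s * d.σ h1 h2 h3 t + t * d.σ h1 h2 h3 s) * d.π y - d.σ h1 h2 h3 t * s * d.f y y := by
  have e := congrArg d.π (d.ρ_add h2 s t y)
  simp only [d.π_mul h2, d.f_mul_left h2, d.f_ρ_right h1 h2 h3, d.f_ρ_left h1 h2 h3, d.π_ρ h1 h2 h3,
    d.f_g_left h1 h2 h3, d.f_g_right h1 h2 h3, map_add] at e
  linear_combination -e

theorem π_g' (s t : F) : d.π (d.g s t) = d.σ h1 h2 h3 s * t + (1 - d.f d.y₀ d.y₀) * s * d.σ h1 h2 h3 t := by
  have e := d.π_g h1 h2 h3 s t d.y₀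
  rw [d.π_y₀ h2, mul_one] at e
  linear_combination e

/-- the pseudo-quadratic space -/
def pqd : PQD F (R.S j) where
  σ := d.σ h1 h2 h3
  ε := 1 - d.f d.y₀ d.y₀
  π := d.π
  f := d.f
  ρ := d.ρ
  g := d.g
  σσ := d.σσ h1 h2 h3
  π_mul := d.π_mul h2
  f_mul_left := d.f_mul_left h2
  f_mul_right := d.f_mul_right h2
  π_eq_zero y := ⟨d.π_eq y, fun e => e ▸ d.π_one h2⟩
  f_ρ_left := d.f_ρ_left h1 h2 h3
  f_ρ_right := d.f_ρ_right h1 h2 h3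
  π_ρ := d.π_ρ h1 h2 h3
  f_self y := by
    have e := d.π_g h1 h2 h3 1 1 y
    rw [d.π_g' h1 h2 h3, one_mul, map_one] at e
    linear_combination e
  f_g_left := d.f_g_left h1 h2 h3
  f_g_right := d.f_g_right h1 h2 h3
  π_g := d.π_g' h1 h2 h3
  ne := ⟨d.y₀, d.ne⟩

theorem tor {k : B} (hi : E.mat k i = 2) (hh : E.mat k h = 2) {T : A} (hT : R.Tor k T) :
    ∃ ν, ∀ y y' : R.S j, (y' : A) = T * y * T⁻¹ → d.π y' = ν * d.π y := by
  obtain ⟨ν, hν⟩ := (mem_z c d.hn.act_one _).1 (by simpa only [one_mul] using R.conj hT.act _ _ _ (d.z_mem 1))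
  have e := lin c h1 h3 d.y₀.2 d.hn hT.act one_ne_zero (fun a => by
    rw [(hT.commute hh (Or.inl (c.x₁_mem a))).eq, one_mul, mul_inv_cancel_right]) hν
  refine ⟨ν, fun y y' hy => ?_⟩
  have e1 : d.ι y' * d.z (-d.π y') = d.ι y' * d.z (-d.π y * ν) := by
    have e2 : T * d.z (-d.π y * 1) * T⁻¹ = d.z (-d.π y * ν) := e _
    have e3 : T * c.x₃ 1 * T⁻¹ = c.x₃ 1 := by
      rw [(hT.commute hi (Or.inl (c.x₃_mem 1))).eq, mul_inv_cancel_right]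
    rw [← d.c14_one h2, hy, ← e3, ← conjugate_commutatorElement, d.c14_one h2, ← e2, mul_one, ι_apply, ι_apply, hy]
    calc _ = T * d.m * y * (T * d.m)⁻¹ * (T * d.z (-d.π y) * T⁻¹) := by group
      _ = _ := by rw [(hT.commute_mu hi (c.x₃_mem 1) d.hm).eq]; group
  linear_combination -(d.uniq h2 e1).2

end Dat

end C3a

theorem A2C.exists_C3C {B W : Type*} [Group W] [Finite W] {E : ExchSys B W} {A : Type*} [Group A] {R : RG E A}
    {h i j : B} (h1 : E.mat h i = 3) (h2 : E.mat i j = 4) (h3 : E.mat h j = 2) {F : Type*} [Field F]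
    (c : A2C R h i F) : ∃ d : C3C R h i j F, d.c = c := by
  obtain ⟨d⟩ := C3a.exists_dat c h1 h2 h3
  exact ⟨⟨c, d.pqd h1 h2 h3, d.z, d.ι, d.z_add, d.z_inj, C3a.mem_z c d.hn.act_one, d.ι_inj,
    C3a.mem_ι d.hm.act_one, d.c13, d.c24, d.c14, fun _ _ hi hh _ hT => d.tor h1 h2 h3 hi hh hT⟩, rfl⟩

end CfsgLib.Tits
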