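import Mathlib
import Cfsg.Agent.Lib.Tits.Defs

/-!
# Package COX2, first part: forbidden subdiagrams of a positive definite diagram (see `plans/TITS.md`)
-/

set_option autoImplicit false

namespace CfsgLib.Tits.Cx
open Finset

/-- minus the Gram matrix: negative definite on `A`, nonnegative outside the diagonal -/
structure PS {α : Type*} (A : Set α) (C : α → α → ℝ) : Prop where
  symm : ∀ i j, C i j = C j i
  diag : ∀ i, C i i = -2
  nn : ∀ i ∈ A, ∀ j ∈ A, i ≠ j → 0 ≤ C i j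
  pd : ∀ T : Finset α, (∀ i ∈ T, i ∈ A) → ∀ x : α → ℝ, (∃ i ∈ T, x i ≠ 0) →
    ∑ i ∈ T, ∑ j ∈ T, x i * x j * C i j < 0

theorem PS.comp {α β : Type*} {A : Set α} {C : α → α → ℝ} (h : PS A C) {A' : Set β} (e : β → α)
    (h1 : ∀ i ∈ A', e i ∈ A) (h2 : ∀ i ∈ A', ∀ j ∈ A', e i = e j → i = j) : PS A' fun i j => C (e i) (e j) := by
  classical
  refine ⟨fun i j => h.symm _ _, fun i => h.diag _, fun i hi j hj n => h.nn _ (h1 i hi) _ (h1 j hj)
    fun k => n (h2 i hi j hj k), fun T hT x ⟨i0, hi0, hx⟩ => ?_⟩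
  have inj : ∀ i ∈ T, ∀ j ∈ T, e i = e j → i = j := fun i hi j hj => h2 i (hT i hi) j (hT j hj)
  have k : ∀ i ∈ T, ∑ a ∈ T, (if e a = e i then x a else 0) = x i := fun i hi => by
    rw [sum_eq_single_of_mem i hi fun j hj n => if_neg fun k => n (inj j hj i hi k), if_pos rfl]
  have := h.pd (T.image e) (fun i hi => by
    obtain ⟨a, ha, rfl⟩ := mem_image.1 hi
    exact h1 a (hT a ha)) (fun y => ∑ a ∈ T, if e a = y then x a else 0)
    ⟨e i0, mem_image_of_mem e hi0, by rwa [k i0 hi0]⟩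
  rw [sum_image inj] at this
  refine lt_of_eq_of_lt (sum_congr rfl fun i hi => ?_) this
  rw [sum_image inj]
  exact sum_congr rfl fun j hj => by rw [k i hi, k j hj]

variable {N : ℕ} {C : ℕ → ℕ → ℝ}

theorem PS.fixR (h : PS (Set.Iio N) C) (x : ℕ → ℝ) (hx : ∀ i, 0 ≤ x i) (G : ℕ → ℕ → ℝ)
    (hG : ∀ i < N, ∀ j < N, G i j ≤ C i j) (h0 : 0 < N) (x0 : x 0 ≠ 0)
    (k : 0 ≤ ∑ i ∈ range N, ∑ j ∈ range N, x i * x j * G i j) : False :=
  (h.pd (range N) (fun _ hi => mem_range.1 hi) x ⟨0, mem_range.2 h0, x0⟩).not_ge (k.trans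
    (sum_le_sum fun i hi => sum_le_sum fun j hj =>
      mul_le_mul_of_nonneg_left (hG i (mem_range.1 hi) j (mem_range.1 hj)) (mul_nonneg (hx i) (hx j))))

/-- the matrix of a simply laced diagram with the edges `E` -/
def G0 (E : List (ℕ × ℕ)) (i j : ℕ) : ℤ := if i = j then -2 else if (i, j) ∈ E ∨ (j, i) ∈ E then 1 else 0

theorem PS.fix (h : PS (Set.Iio N) C) (E : List (ℕ × ℕ)) (w : List ℕ) (hE : ∀ p ∈ E, 1 ≤ C p.1 p.2) (h0 : 0 < N)
    (x0 : w.getD 0 0 ≠ 0)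
    (k : 0 ≤ ∑ i ∈ range N, ∑ j ∈ range N, (w.getD i 0 : ℤ) * (w.getD j 0 : ℤ) * G0 E i j) : False := by
  refine h.fixR (fun i => (w.getD i 0 : ℝ)) (fun i => Nat.cast_nonneg _) (fun i j => (G0 E i j : ℝ))
    (fun i hi j hj => ?_) h0 (Nat.cast_ne_zero.2 x0) (by exact_mod_cast k)
  unfold G0
  split_ifs with a b
  · rw [a, h.diag]; norm_num
  · rcases b with b | b
    · exact_mod_cast hE _ b
    · rw [h.symm]; exact_mod_cast hE _ b
  · exact_mod_cast h.nn i hi j hj a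

/-- the contraction lemma -/
theorem PS.one {α : Type*} {A : Set α} {C : α → α → ℝ} (h : PS A C) {S X : Finset α} (hS : ∀ i ∈ S, i ∈ A)
    (hX : ∀ i ∈ X, i ∈ A) (hd : Disjoint S X) (hne : S.Nonempty) (k : -2 ≤ ∑ i ∈ S, ∑ j ∈ S, C i j) :
    ∑ x ∈ X, (∑ s ∈ S, C s x) ^ 2 < 4 := by
  classical
  obtain ⟨s0, hs0⟩ := hne
  let t : α → ℝ := fun x => ∑ s ∈ S, C s x
  let v : α → ℝ := fun i => if i ∈ S then 2 else t i
  have v1 : ∀ i ∈ S, v i = 2 := fun i hi => if_pos hi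
  have v2 : ∀ i ∈ X, v i = t i := fun i hi => if_neg (disjoint_right.1 hd hi)
  have t0 : ∀ x ∈ X, 0 ≤ t x := fun x hx => sum_nonneg fun s hs =>
    h.nn s (hS s hs) x (hX x hx) fun e => disjoint_left.1 hd hs (e ▸ hx)
  have p := h.pd (S ∪ X) (fun i hi => (mem_union.1 hi).elim (hS i) (hX i)) v
    ⟨s0, mem_union_left _ hs0, by rw [v1 s0 hs0]; norm_num⟩
  simp only [sum_union hd, sum_add_distrib] at p
  have e1 : ∑ i ∈ S, ∑ j ∈ S, v i * v j * C i j = 4 * ∑ i ∈ S, ∑ j ∈ S, C i j := by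
    rw [mul_sum]
    refine sum_congr rfl fun i hi => ?_
    rw [mul_sum]
    exact sum_congr rfl fun j hj => by rw [v1 i hi, v1 j hj]; ring
  have e2 : ∑ i ∈ X, ∑ j ∈ S, v i * v j * C i j = 2 * ∑ x ∈ X, t x ^ 2 := by
    rw [mul_sum]
    refine sum_congr rfl fun i hi => ?_
    rw [show 2 * t i ^ 2 = t i * 2 * t i by ring]
    conv_rhs => rw [show t i * 2 * t i = t i * 2 * ∑ s ∈ S, C s i from rfl, mul_sum]
    exact sum_congr rfl fun j hj => by rw [v2 i hi, v1 j hj, h.symm]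
  have e3 : ∑ i ∈ S, ∑ j ∈ X, v i * v j * C i j = 2 * ∑ x ∈ X, t x ^ 2 := by
    rw [← e2, sum_comm]
    exact sum_congr rfl fun i _ => sum_congr rfl fun j _ => by rw [h.symm]; ring
  have e4 : -2 * ∑ x ∈ X, t x ^ 2 ≤ ∑ i ∈ X, ∑ j ∈ X, v i * v j * C i j := by
    rw [mul_sum]
    refine sum_le_sum fun i hi => ?_
    rw [← add_sum_erase _ _ hi, h.diag, v2 i hi]
    have : 0 ≤ ∑ j ∈ X.erase i, t i * v j * C i j := sum_nonneg fun j hj => by
      rw [v2 j (mem_of_mem_erase hj)]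
      exact mul_nonneg (mul_nonneg (t0 i hi) (t0 j (mem_of_mem_erase hj)))
        (h.nn i (hX i hi) j (hX j (mem_of_mem_erase hj)) (ne_of_mem_erase hj).symm)
    nlinarith
  show ∑ x ∈ X, t x ^ 2 < 4
  linarith

theorem PS.norm (h : PS (Set.Iio N) C) {a b : ℕ} (hab : a ≤ b) (hb : b < N)
    (hp : ∀ i, a ≤ i → i < b → 1 ≤ C i (i + 1)) : -2 ≤ ∑ i ∈ Icc a b, ∑ j ∈ Icc a b, C i j := by
  induction b, hab using Nat.le_induction with
  | base => simp [h.diag]
  | succ b hab ih =>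
    have k := ih (by omega) fun i h1 h2 => hp i h1 (by omega)
    have k1 : C b (b + 1) ≤ ∑ i ∈ Icc a b, C i (b + 1) :=
      single_le_sum (f := fun i => C i (b + 1)) (fun i hi => h.nn i (by
        have := mem_Icc.1 hi; show i < N; omega) _ hb (by have := mem_Icc.1 hi; omega)) (mem_Icc.2 ⟨hab, le_rfl⟩)
    have k2 : ∑ i ∈ Icc a b, C (b + 1) i = ∑ i ∈ Icc a b, C i (b + 1) := sum_congr rfl fun i _ => h.symm _ _
    have k3 := hp b hab (by omega)
    simp only [← insert_Icc_right_eq_Icc_add_one (show a ≤ b + 1 by omega), sum_insert (show b + 1 ∉ Icc a b by simp),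
      sum_add_distrib, h.diag]
    linarith

/-- the contraction lemma for an interval -/
theorem PS.seg (h : PS (Set.Iio N) C) {a b : ℕ} (hab : a ≤ b) (hb : b < N)
    (hp : ∀ i, a ≤ i → i < b → 1 ≤ C i (i + 1)) (X : Finset ℕ) (hX : ∀ x ∈ X, x < N ∧ (x < a ∨ b < x)) (t : ℕ → ℝ)
    (ht : ∀ x ∈ X, t x ≤ C a x ^ 2 ∨ t x ≤ C b x ^ 2) : ∑ x ∈ X, t x < 4 := by
  refine lt_of_le_of_lt (sum_le_sum fun x hx => ?_) (h.one (S := Icc a b) (X := X) (fun i hi => by
    have := mem_Icc.1 hi; show i < N; omega) (fun x hx => (hX x hx).1) (disjoint_left.2 fun i hi hx => by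
    have := mem_Icc.1 hi; have := hX i hx; omega) ⟨a, mem_Icc.2 ⟨le_rfl, hab⟩⟩ (h.norm hab hb hp))
  have n : ∀ i ∈ Icc a b, 0 ≤ C i x := fun i hi => h.nn i (by have := mem_Icc.1 hi; show i < N; omega) x (hX x hx).1
    (by have := mem_Icc.1 hi; have := hX x hx; omega)
  have k : ∀ i ∈ Icc a b, C i x ^ 2 ≤ (∑ s ∈ Icc a b, C s x) ^ 2 := fun i hi =>
    pow_le_pow_left₀ (n i hi) (single_le_sum (f := fun i => C i x) n hi) 2
  exact (ht x hx).elim (fun e => e.trans (k a (mem_Icc.2 ⟨le_rfl, hab⟩))) fun e => e.trans (k b (mem_Icc.2 ⟨hab, le_rfl⟩))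

theorem PS.cyc (h : PS (Set.Iio N) C) {a b x : ℕ} (hab : a < b) (hb : b < x) (hx : x < N)
    (hp : ∀ i, a ≤ i → i < b → 1 ≤ C i (i + 1)) (h1 : 1 ≤ C a x) (h2 : 1 ≤ C b x) : False := by
  have k := h.one (S := Icc a b) (X := {x}) (fun i hi => by
    have := mem_Icc.1 hi; show i < N; omega) (fun y hy => mem_singleton.1 hy ▸ hx) (disjoint_singleton_right.2 fun hi => by
    have := mem_Icc.1 hi; omega) ⟨a, mem_Icc.2 ⟨le_rfl, hab.le⟩⟩ (h.norm hab.le (by omega) hp)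
  have k1 : ∑ s ∈ {a, b}, C s x ≤ ∑ s ∈ Icc a b, C s x := sum_le_sum_of_subset_of_nonneg
    (by intro i hi; simp only [mem_insert, mem_singleton] at hi; rw [mem_Icc]; omega)
    fun i hi _ => h.nn i (by have := mem_Icc.1 hi; show i < N; omega) x hx (by have := mem_Icc.1 hi; omega)
  rw [sum_pair hab.ne] at k1
  rw [sum_singleton] at k
  nlinarith

theorem PS.two (h : PS (Set.Iio N) C) {a b x y : ℕ} (hab : a ≤ b) (hp : ∀ i, a ≤ i → i < b → 1 ≤ C i (i + 1))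
    (hx : x < a) (hy : b < y) (hN : y < N) (k : 4 ≤ C a x ^ 2 + C b y ^ 2) : False := by
  have := h.seg hab (by omega) hp {x, y} (by simp only [mem_insert, mem_singleton]; omega)
    (fun i => if i = x then C a x ^ 2 else C b y ^ 2) (by
      simp only [mem_insert, mem_singleton]
      rintro i (rfl | rfl)
      · exact Or.inl (if_pos rfl).le
      · exact Or.inr (if_neg (by omega)).le)
  rw [sum_pair (by omega), if_pos rfl, if_neg (by omega)] at this
  exact this.not_ge k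

theorem PS.three (h : PS (Set.Iio N) C) {a b x y z : ℕ} (hab : a ≤ b) (hp : ∀ i, a ≤ i → i < b → 1 ≤ C i (i + 1))
    (hx : x < a) (hy : b < y) (hz : y < z) (hN : z < N) (k : 4 ≤ C a x ^ 2 + C b y ^ 2 + C a z ^ 2) : False := by
  have := h.seg hab (by omega) hp {x, y, z} (by simp only [mem_insert, mem_singleton]; omega)
    (fun i => if i = y then C b y ^ 2 else C a i ^ 2) (by
      intro i _
      by_cases e : i = y
      · exact Or.inr (e ▸ (if_pos rfl).le)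
      · exact Or.inl (if_neg e).le)
  rw [sum_insert (by simp only [mem_insert, mem_singleton]; omega), sum_pair (by omega), if_pos rfl,
    if_neg (by omega), if_neg (by omega)] at this
  linarith

theorem PS.four (h : PS (Set.Iio N) C) {a b x y z u : ℕ} (hab : a ≤ b) (hp : ∀ i, a ≤ i → i < b → 1 ≤ C i (i + 1))
    (hx : x < a) (hy : b < y) (hz : y < z) (hu : z < u) (hN : u < N) (k1 : 1 ≤ C a x) (k2 : 1 ≤ C b y)
    (k3 : 1 ≤ C a z ∧ 1 ≤ C b u ∨ 1 ≤ C b z ∧ 1 ≤ C a u) : False := by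
  have := h.seg hab (by omega) hp {x, y, z, u} (by simp only [mem_insert, mem_singleton]; omega) (fun _ => 1) (by
    simp only [mem_insert, mem_singleton]
    rintro i (rfl | rfl | rfl | rfl)
    exacts [Or.inl (one_le_pow₀ k1), Or.inr (one_le_pow₀ k2),
      k3.imp (fun k => one_le_pow₀ k.1) fun k => one_le_pow₀ k.1,
      k3.symm.imp (fun k => one_le_pow₀ k.2) fun k => one_le_pow₀ k.2])
  rw [sum_insert (by simp only [mem_insert, mem_singleton]; omega),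
    sum_insert (by simp only [mem_insert, mem_singleton]; omega), sum_pair (by omega)] at this
  linarith

theorem PS.e6 (h : PS (Set.Iio N) C) {b n : ℕ} (hp : ∀ i, i + 1 < n → 1 ≤ C i (i + 1)) (hb : b + 4 < n)
    (hN : n + 1 < N) (k1 : 1 ≤ C (b + 2) n) (k2 : 1 ≤ C n (n + 1)) : False := by
  refine (h.comp (A' := Set.Iio 7) (fun i => if i < 5 then b + i else n + (i - 5))
    (fun i hi => by simp only [Set.mem_Iio] at *; split_ifs <;> omega)
    (fun i hi j hj => by simp only [Set.mem_Iio] at *; split_ifs <;> omega)).fix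
    [(0, 1), (1, 2), (2, 3), (3, 4), (2, 5), (5, 6)] [1, 2, 3, 2, 1, 2, 1] ?_ (by decide) (by decide) (by decide)
  simp only [List.mem_cons, List.not_mem_nil, or_false]
  rintro p (rfl | rfl | rfl | rfl | rfl | rfl)
  exacts [hp b (by omega), hp (b + 1) (by omega), hp (b + 2) (by omega), hp (b + 3) (by omega), k1, k2]

theorem PS.e7 (h : PS (Set.Iio N) C) {b n : ℕ} (hp : ∀ i, i + 1 < n → 1 ≤ C i (i + 1)) (hb : b + 6 < n)
    (hN : n < N) (k1 : 1 ≤ C (b + 3) n) : False := by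
  refine (h.comp (A' := Set.Iio 8) (fun i => if i < 7 then b + i else n)
    (fun i hi => by simp only [Set.mem_Iio] at *; split_ifs <;> omega)
    (fun i hi j hj => by simp only [Set.mem_Iio] at *; split_ifs <;> omega)).fix
    [(0, 1), (1, 2), (2, 3), (3, 4), (4, 5), (5, 6), (3, 7)] [1, 2, 3, 4, 3, 2, 1, 2] ?_ (by decide) (by decide)
    (by decide)
  simp only [List.mem_cons, List.not_mem_nil, or_false]
  rintro p (rfl | rfl | rfl | rfl | rfl | rfl | rfl)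
  exacts [hp b (by omega), hp (b + 1) (by omega), hp (b + 2) (by omega), hp (b + 3) (by omega), hp (b + 4) (by omega),
    hp (b + 5) (by omega), k1]

theorem PS.e8 (h : PS (Set.Iio N) C) {n : ℕ} (hp : ∀ i, i + 1 < n → 1 ≤ C i (i + 1)) (hb : 7 < n)
    (hN : n < N) (k1 : 1 ≤ C 2 n) : False := by
  refine (h.comp (A' := Set.Iio 9) (fun i => if i < 8 then i else n)
    (fun i hi => by simp only [Set.mem_Iio] at *; split_ifs <;> omega)
    (fun i hi j hj => by simp only [Set.mem_Iio] at *; split_ifs <;> omega)).fix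
    [(0, 1), (1, 2), (2, 3), (3, 4), (4, 5), (5, 6), (6, 7), (2, 8)] [2, 4, 6, 5, 4, 3, 2, 1, 3] ?_ (by decide)
    (by decide) (by decide)
  simp only [List.mem_cons, List.not_mem_nil, or_false]
  rintro p (rfl | rfl | rfl | rfl | rfl | rfl | rfl | rfl)
  exacts [hp 0 (by omega), hp 1 (by omega), hp 2 (by omega), hp 3 (by omega), hp 4 (by omega), hp 5 (by omega),
    hp 6 (by omega), k1]

theorem PS.f4' (h : PS (Set.Iio 5) C) (k1 : 1 ≤ C 0 1) (k2 : 1 ≤ C 1 2) (k3 : √2 ≤ C 2 3) (k4 : 1 ≤ C 3 4) :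
    False := by
  have s0 : 0 ≤ √2 := Real.sqrt_nonneg 2
  have s2 : √2 * √2 = 2 := Real.mul_self_sqrt zero_le_two
  generalize √2 = s at *
  refine h.fixR (fun i => if i < 3 then i + 1 else if i = 3 then 2 * s else s) (fun i => by split_ifs <;> positivity)
    (fun i j => if i = j then -2 else if i + j = 5 ∧ (i = 2 ∨ j = 2) then s else if i + 1 = j ∨ j + 1 = i then 1 else 0)
    (fun i hi j hj => ?_) (by decide) (by simp) ?_
  · split_ifs with a b c
    · rw [a, h.diag]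
    · obtain ⟨rfl, rfl⟩ | ⟨rfl, rfl⟩ : i = 2 ∧ j = 3 ∨ i = 3 ∧ j = 2 := by omega
      exacts [k3, h.symm 2 3 ▸ k3]
    · obtain ⟨rfl, rfl⟩ | ⟨rfl, rfl⟩ | ⟨rfl, rfl⟩ | ⟨rfl, rfl⟩ | ⟨rfl, rfl⟩ | ⟨rfl, rfl⟩ : i = 0 ∧ j = 1 ∨ i = 1 ∧ j = 0 ∨
        i = 1 ∧ j = 2 ∨ i = 2 ∧ j = 1 ∨ i = 3 ∧ j = 4 ∨ i = 4 ∧ j = 3 := by omega
      exacts [k1, h.symm 0 1 ▸ k1, k2, h.symm 1 2 ▸ k2, k4, h.symm 3 4 ▸ k4]
    · exact h.nn i hi j hj a
  · simp [sum_range_succ]
    nlinarith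

theorem PS.f4 (h : PS (Set.Iio N) C) {b : ℕ} (hp : ∀ i, i + 1 < N → 1 ≤ C i (i + 1)) (hb : b + 4 < N)
    (k : √2 ≤ C (b + 2) (b + 3)) : False :=
  (h.comp (A' := Set.Iio 5) (fun i => b + i) (fun i hi => by simp only [Set.mem_Iio] at *; omega)
    fun i _ j _ => by omega).f4' (hp b (by omega)) (hp (b + 1) (by omega)) k (hp (b + 3) (by omega))

/-- `2 cos (π / r)` -/
noncomputable def cc (r : ℕ) : ℝ := 2 * Real.cos (Real.pi / r)

theorem cc_one : cc 1 = -2 := by simp [cc]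

theorem cc_two : cc 2 = 0 := by simp [cc]

theorem cc_three : cc 3 = 1 := by rw [cc, Nat.cast_ofNat, Real.cos_pi_div_three]; norm_num

theorem cc_four : cc 4 = √2 := by rw [cc, Nat.cast_ofNat, Real.cos_pi_div_four]; ring

theorem cc_six : cc 6 = √3 := by rw [cc, Nat.cast_ofNat, Real.cos_pi_div_six]; ring

theorem cc_eight : cc 8 = √(2 + √2) := by rw [cc, Nat.cast_ofNat, Real.cos_pi_div_eight]; ring

theorem cc_cases {r : ℕ} (h : r ∈ ({2, 3, 4, 6, 8} : Set ℕ)) : 0 ≤ cc r ∧ (r ≠ 2 → 1 ≤ cc r) ∧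
    (r ≠ 2 → r ≠ 3 → 2 ≤ cc r ^ 2) ∧ (r ≠ 2 → r ≠ 3 → r ≠ 4 → 3 ≤ cc r ^ 2) := by
  have s1 : 1 ≤ √2 := Real.one_le_sqrt.2 (by norm_num)
  rcases h with rfl | rfl | rfl | rfl | rfl
  · simp [cc_two]
  · simp [cc_three]
  · simp [cc_four]
  · rw [cc_six, Real.sq_sqrt (by norm_num)]
    simp; norm_num
  · rw [cc_eight, Real.sq_sqrt (by positivity)]
    exact ⟨Real.sqrt_nonneg _, fun _ => Real.one_le_sqrt.2 (by linarith), fun _ _ => by linarith,
      fun _ _ _ => by linarith⟩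

theorem ps_of_pd {B : Type*} [Fintype B] {m : B → B → ℕ} (hs : ∀ i j, m i j = m j i) (h1 : ∀ i, m i i = 1)
    (h : ∀ i j, i ≠ j → m i j ∈ ({2, 3, 4, 6, 8} : Set ℕ)) (hp : PD m) : PS Set.univ fun i j => cc (m i j) := by
  classical
  refine ⟨fun i j => by rw [hs], fun i => by rw [h1, cc_one], fun i _ j _ n => (cc_cases (h i j n)).1,
    fun T _ x ⟨i0, hi0, hx⟩ => ?_⟩
  have := hp (fun i => if i ∈ T then x i else 0) fun e => hx (by simpa [hi0] using congrFun e i0)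
  simp only [ite_mul, zero_mul, mul_ite, mul_zero, sum_ite_mem, univ_inter, sum_ite_irrel, sum_const_zero] at this
  rw [← neg_pos, ← sum_neg_distrib]
  refine this.trans_eq (sum_congr rfl fun i _ => ?_)
  rw [← sum_neg_distrib]
  exact sum_congr rfl fun j _ => by rw [cc]; ring

end CfsgLib.Tits.Cx
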