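import Mathlib
import Cfsg.Agent.Lib.Tits.Cox
import Cfsg.Agent.Lib.Tits.Cox2A

/-!
# Package COX1: the Gram matrix of a finite Coxeter group is positive definite (see `plans/TITS.md`)
-/

set_option autoImplicit false

namespace CfsgLib.Tits
open Cfsg CfsgLib.BN
open scoped commutatorElement

namespace Cy
open Cx

variable {B : Type*} [Fintype B] [DecidableEq B] (C : B → B → ℝ)

/-- the linear form of the node `i` -/
def lf (i : B) : (B → ℝ) →ₗ[ℝ] ℝ := dotProductBilin ℝ ℝ (C i)

theorem lf_single (i j : B) : lf C i (Pi.single j 1) = C i j := by simp [lf]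

/-- the reflection of the node `i` -/
def sg (i : B) : Module.End ℝ (B → ℝ) := 1 + (lf C i).smulRight (Pi.single i 1)

theorem sg_apply (i : B) (v : B → ℝ) : sg C i v = v + lf C i v • Pi.single i 1 := rfl

/-- the action on the coefficients -/
def st (c a b : ℝ) (p : ℝ × ℝ) : ℝ × ℝ := (c * (c * p.1 - p.2 + b) - p.1 + a, c * p.1 - p.2 + b)

variable {C}

theorem sg_sg (hd : ∀ i, C i i = -2) (i : B) : sg C i * sg C i = 1 := by
  refine LinearMap.ext fun v => ?_
  rw [Module.End.mul_apply, sg_apply, sg_apply, map_add, map_smul, lf_single, hd, Module.End.one_apply, smul_eq_mul]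
  module

theorem pow_apply (hs : ∀ i j, C i j = C j i) (hd : ∀ i, C i i = -2) (i j : B) (v : B → ℝ) (n : ℕ) :
    ((sg C i * sg C j) ^ n) v = v + ((st (C i j) (lf C i v) (lf C j v))^[n] 0).1 • Pi.single i 1 +
      ((st (C i j) (lf C i v) (lf C j v))^[n] 0).2 • Pi.single j 1 := by
  induction n with
  | zero => simp
  | succ n ih =>
    rw [pow_succ', Module.End.mul_apply, ih, Function.iterate_succ_apply']
    simp only [Module.End.mul_apply, sg_apply, map_add, map_smul, lf_single, hd, hs j i, st]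
    module

theorem st_cases {r : ℕ} (h : r ∈ ({2, 3, 4, 6, 8} : Set ℕ)) (a b : ℝ) : (st (cc r) a b)^[r] 0 = 0 := by
  rcases h with rfl | rfl | rfl | rfl | rfl
  · simp [cc_two, st]
  · simp only [Function.iterate_succ, Function.iterate_zero, Function.comp, id, st, Prod.fst_zero, Prod.snd_zero,
      Prod.mk_eq_zero, cc_three]
    constructor <;> ring
  · have : cc 4 ^ 2 = 2 := by rw [cc_four, Real.sq_sqrt zero_le_two]
    simp only [Function.iterate_succ, Function.iterate_zero, Function.comp, id, st, Prod.fst_zero, Prod.snd_zero,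
      Prod.mk_eq_zero]
    constructor <;> grind
  · have : cc 6 ^ 2 = 3 := by rw [cc_six, Real.sq_sqrt (by norm_num)]
    simp only [Function.iterate_succ, Function.iterate_zero, Function.comp, id, st, Prod.fst_zero, Prod.snd_zero,
      Prod.mk_eq_zero]
    constructor <;> grind
  · have : (cc 8 ^ 2 - 2) ^ 2 = 2 := by
      rw [cc_eight, Real.sq_sqrt (by positivity), add_sub_cancel_left, Real.sq_sqrt zero_le_two]
    simp only [Function.iterate_succ, Function.iterate_zero, Function.comp, id, st, Prod.fst_zero, Prod.snd_zero,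
      Prod.mk_eq_zero]
    constructor <;> grind

theorem neg_def {G : (B → ℝ) →ₗ[ℝ] (B → ℝ) →ₗ[ℝ] ℝ} (hs : ∀ i j, C i j = C j i) (hd : ∀ i, C i i = -2)
    (h1 : ∀ u v, G u v = G v u) (h2 : ∀ u, u ≠ 0 → 0 < G u u) (h3 : ∀ i u v, G (sg C i u) (sg C i v) = G u v)
    (v : B → ℝ) (hv : v ≠ 0) : 0 < ∑ i, ∑ j, v i * v j * -C i j := by
  let N : B → ℝ := fun i => G (Pi.single i 1) (Pi.single i 1)
  have N0 : ∀ i, 0 < N i := fun i => h2 _ (by simp)
  have k : ∀ i j, 2 * G (Pi.single i 1) (Pi.single j 1) = -C i j * N i := fun i j => by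
    have := h3 i (Pi.single i 1) (Pi.single j 1)
    simp only [sg_apply, lf_single, hd, map_add, map_smul, LinearMap.add_apply, LinearMap.smul_apply,
      smul_eq_mul] at this
    simp only [N]
    linarith
  have k2 : ∀ i j, 2 * G (Pi.single i 1) (Pi.single j 1) = -C i j * (√(N i) * √(N j)) := fun i j => by
    by_cases e : C i j = 0
    · rw [k, e]; simp
    · have := (k i j).symm.trans ((congrArg _ (h1 _ _)).trans (k j i))
      rw [hs j i] at this
      rw [k, ← mul_left_cancel₀ (neg_ne_zero.2 e) this, Real.mul_self_sqrt (N0 i).le]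
  have s0 : ∀ i, √(N i) ≠ 0 := fun i => (Real.sqrt_pos.2 (N0 i)).ne'
  have p := h2 (fun i => v i / √(N i)) fun e => hv (funext fun i => by simpa [s0 i] using congrFun e i)
  rw [pi_eq_sum_univ' fun i => v i / √(N i)] at p
  simp only [map_sum, map_smul, LinearMap.sum_apply, LinearMap.smul_apply, smul_eq_mul] at p
  refine (mul_pos two_pos p).trans_eq ?_
  rw [Finset.mul_sum]
  refine Finset.sum_congr rfl fun i _ => ?_
  rw [Finset.mul_sum, Finset.mul_sum]
  refine Finset.sum_congr rfl fun j _ => ?_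
  have := k2 j i
  rw [hs j i] at this
  have e : G (Pi.single j 1) (Pi.single i 1) = -C i j * (√(N j) * √(N i)) / 2 := by rw [← this]; ring
  rw [e]
  field_simp [s0 i, s0 j]

end Cy

open Cx Cy

theorem pd_of_finite {B W : Type*} [Group W] [Finite W] [Fintype B] (E : ExchSys B W)
    (h : ∀ i j, i ≠ j → E.mat i j ∈ ({2, 3, 4, 6, 8} : Set ℕ)) : PD E.mat := by
  classical
  have := Fintype.ofFinite W
  let C : B → B → ℝ := fun i j => cc (E.mat i j)
  have hs : ∀ i j, C i j = C j i := fun i j => congrArg cc (mat_comm E i j)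
  have hd : ∀ i, C i i = -2 := fun i => (congrArg cc (mat_self E i)).trans cc_one
  obtain ⟨φ, hφ⟩ := E.exists_hom (H := (Module.End ℝ (B → ℝ))ˣ) (fun i => ⟨sg C i, sg C i, sg_sg hd i, sg_sg hd i⟩)
    fun i j => Units.ext (by
      rw [Units.val_pow_eq_pow_val, ← E.mat_apply]
      show (sg C i * sg C j) ^ _ = 1
      by_cases e : i = j
      · rw [e, mat_self, pow_one, sg_sg hd]
      · refine LinearMap.ext fun v => ?_
        rw [pow_apply hs hd, st_cases (h i j e)]
        simp)
  intro v hv
  refine (neg_def (G := ∑ w, (dotProductBilin ℝ ℝ).compl₁₂ (φ w).1 (φ w).1) hs hd (fun u v => ?_) (fun u hu => ?_)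
    (fun i u v => ?_) v hv).trans_eq (by simp only [C, cc, neg_mul])
  · simp [LinearMap.sum_apply, dotProduct_comm]
  · simp only [LinearMap.sum_apply, LinearMap.compl₁₂_apply, dotProductBilin_apply_apply]
    refine Finset.sum_pos' (fun w _ => Finset.sum_nonneg fun i _ => mul_self_nonneg _) ⟨1, Finset.mem_univ _, ?_⟩
    rw [map_one]
    exact lt_of_le_of_ne (Finset.sum_nonneg fun i _ => mul_self_nonneg _) fun e => hu (dotProduct_self_eq_zero.1 e.symm)
  · simp only [LinearMap.sum_apply, LinearMap.compl₁₂_apply, dotProductBilin_apply_apply]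
    refine Fintype.sum_equiv (Equiv.mulRight (E.s i)) _ _ fun w => ?_
    simp [hφ]

end CfsgLib.Tits
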