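import Mathlib
import Cfsg.Agent.Lib.Tits.Cox2A

/-!
# Package COX2: connected positive definite diagrams (see `plans/TITS.md`)
-/

set_option autoImplicit false

namespace CfsgLib.Tits
open Cfsg CfsgLib.BN
open scoped commutatorElement

namespace Cx

variable {B : Type*} {m : B → B → ℕ} {n a b : ℕ} {f : ℕ → B} {k k' : B}

/-- the standing hypotheses -/
structure Hy (m : B → B → ℕ) : Prop where
  hs : ∀ i j, m i j = m j i
  h1 : ∀ i, m i i = 1
  lab : ∀ i j, i ≠ j → m i j ∈ ({2, 3, 4, 6, 8} : Set ℕ)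
  ps : PS Set.univ fun i j => cc (m i j)

/-- induced paths -/
structure Pth (m : B → B → ℕ) (n : ℕ) (f : ℕ → B) : Prop where
  inj : ∀ i < n, ∀ j < n, f i = f j → i = j
  adj : ∀ i, i + 1 < n → m (f i) (f (i + 1)) ≠ 2
  far : ∀ i j, i + 1 < j → j < n → m (f i) (f j) = 2

/-- a new last node -/
def ex (f : ℕ → B) (n : ℕ) (k : B) (i : ℕ) : B := if i = n then k else f i

theorem ex_lt {i : ℕ} (h : i < n) : ex f n k i = f i := if_neg h.ne

theorem ex_self : ex f n k n = k := if_pos rfl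

theorem inj_ex (h : ∀ i < n, ∀ j < n, f i = f j → i = j) (o : ∀ i < n, f i ≠ k) :
    ∀ i < n + 1, ∀ j < n + 1, ex f n k i = ex f n k j → i = j := fun i hi j hj e => by
  rcases Nat.lt_succ_iff_lt_or_eq.1 hi with hi | rfl <;> rcases Nat.lt_succ_iff_lt_or_eq.1 hj with hj | rfl
  · exact h i hi j hj (by rwa [ex_lt hi, ex_lt hj] at e)
  · exact absurd (by rwa [ex_lt hi, ex_self] at e) (o i hi)
  · exact absurd (by rwa [ex_lt hj, ex_self, eq_comm] at e) (o j hj)
  · rfl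

theorem out_ex (o : ∀ i < n, f i ≠ k') (h : k ≠ k') : ∀ i < n + 1, ex f n k i ≠ k' := fun i hi => by
  rcases Nat.lt_succ_iff_lt_or_eq.1 hi with hi | rfl
  · rw [ex_lt hi]; exact o i hi
  · rwa [ex_self]

theorem Pth.mono (p : Pth m n f) {n' : ℕ} (h : n' ≤ n) : Pth m n' f :=
  ⟨fun i hi j hj => p.inj i (by omega) j (by omega), fun i hi => p.adj i (by omega),
    fun i j hi hj => p.far i j hi (by omega)⟩

theorem Pth.rev (H : Hy m) (p : Pth m n f) : Pth m n fun i => f (n - 1 - i) :=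
  ⟨fun i hi j hj e => by have := p.inj _ (by omega) _ (by omega) e; omega, fun i hi => by
    have := p.adj (n - 1 - (i + 1)) (by omega)
    rwa [show n - 1 - (i + 1) + 1 = n - 1 - i by omega, H.hs] at this,
    fun i j hi hj => by rw [H.hs]; exact p.far _ _ (by omega) (by omega)⟩

theorem Pth.snoc (p : Pth m n f) (o : ∀ i < n, f i ≠ k) (h1 : ∀ i, i + 1 = n → m (f i) k ≠ 2)
    (h2 : ∀ i, i + 1 < n → m (f i) k = 2) : Pth m (n + 1) (ex f n k) := by
  refine ⟨inj_ex p.inj o, fun i hi => ?_, fun i j hi hj => ?_⟩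
  · rcases Nat.lt_succ_iff_lt_or_eq.1 hi with hi | rfl
    · rw [ex_lt hi, ex_lt (by omega)]; exact p.adj i hi
    · rw [ex_self, ex_lt (by omega)]; exact h1 i rfl
  · rcases Nat.lt_succ_iff_lt_or_eq.1 hj with hj | rfl
    · rw [ex_lt hj, ex_lt (by omega)]; exact p.far i j hi hj
    · rw [ex_self, ex_lt (by omega)]; exact h2 i hi

theorem Hy.idx (H : Hy m) (h : ∀ i < n, ∀ j < n, f i = f j → i = j) :
    PS (Set.Iio n) fun i j => cc (m (f i) (f j)) := H.ps.comp f (fun _ _ => trivial) h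

theorem Hy.one_le (H : Hy m) {x y : B} (h : x ≠ y) (k : m x y ≠ 2) : 1 ≤ cc (m x y) := (cc_cases (H.lab x y h)).2.1 k

theorem Hy.sq (H : Hy m) {x y : B} (h : x ≠ y) (k : m x y ≠ 2) : 1 ≤ cc (m x y) ^ 2 := one_le_pow₀ (H.one_le h k)

theorem Pth.ne (p : Pth m n f) {i j : ℕ} (hi : i < n) (hj : j < n) (h : i ≠ j) : f i ≠ f j :=
  fun e => h (p.inj i hi j hj e)

theorem Pth.one_le (H : Hy m) (p : Pth m n f) {i : ℕ} (h : i + 1 < n) : 1 ≤ cc (m (f i) (f (i + 1))) :=
  H.one_le (p.ne (by omega) h (by omega)) (p.adj i h)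

theorem Pth.C1 (H : Hy m) (p : Pth m n f) (o : ∀ i < n, f i ≠ k) : ∃ C, PS (Set.Iio (n + 1)) C ∧
    (∀ i, i + 1 < n → 1 ≤ C i (i + 1)) ∧ (∀ i < n, ∀ j < n, C i j = cc (m (f i) (f j))) ∧
    ∀ i < n, C i n = cc (m (f i) k) :=
  ⟨_, H.idx (inj_ex p.inj o), fun i hi => by
    simp only [ex_lt hi, ex_lt (Nat.lt_of_succ_lt hi)]; exact p.one_le H hi,
    fun i hi j hj => by simp only [ex_lt hi, ex_lt hj], fun i hi => by simp only [ex_lt hi, ex_self]⟩

theorem Pth.C2 (H : Hy m) (p : Pth m n f) (o : ∀ i < n, f i ≠ k) (o' : ∀ i < n, f i ≠ k') (h : k ≠ k') :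
    ∃ C, PS (Set.Iio (n + 1 + 1)) C ∧ (∀ i, i + 1 < n → 1 ≤ C i (i + 1)) ∧ (∀ i < n, C i n = cc (m (f i) k)) ∧
      (∀ i < n, C i (n + 1) = cc (m (f i) k')) ∧ C n (n + 1) = cc (m k k') :=
  ⟨_, H.idx (inj_ex (inj_ex p.inj o) (out_ex o' h)), fun i hi => by
    simp only [ex_lt hi, ex_lt (Nat.lt_of_succ_lt hi), ex_lt (show i < n + 1 by omega),
      ex_lt (show i + 1 < n + 1 by omega)]
    exact p.one_le H hi,
    fun i hi => by simp only [ex_lt hi, ex_lt (show i < n + 1 by omega), ex_lt n.lt_succ_self, ex_self],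
    fun i hi => by simp only [ex_lt hi, ex_lt (show i < n + 1 by omega), ex_self],
    by simp only [ex_lt n.lt_succ_self, ex_self]⟩

theorem Pth.uniq (H : Hy m) (p : Pth m n f) (o : ∀ i < n, f i ≠ k) (ha : a < n) (hb : b < n) (h1 : m (f a) k ≠ 2)
    (h2 : m (f b) k ≠ 2) : a = b := by
  wlog hab : a < b generalizing a b
  · by_contra e
    exact e (this hb ha h2 h1 (by omega)).symm
  obtain ⟨C, c, c1, -, c3⟩ := p.C1 H o
  exact (c.cyc hab hb n.lt_succ_self (fun i _ _ => c1 i (by omega)) (c3 a ha ▸ H.one_le (o a ha) h1)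
    (c3 b hb ▸ H.one_le (o b hb) h2)).elim

/-- a longest path and a node joined to it -/
structure St (m : B → B → ℕ) (n : ℕ) (f : ℕ → B) (a : ℕ) (k : B) : Prop where
  H : Hy m
  p : Pth m n f
  max : ∀ g, ¬ Pth m (n + 1) g
  out : ∀ i < n, f i ≠ k
  lt : a < n
  adj : m (f a) k ≠ 2

theorem St.rev (s : St m n f a k) : St m n (fun i => f (n - 1 - i)) (n - 1 - a) k :=
  ⟨s.H, s.p.rev s.H, s.max, fun i hi => s.out _ (by omega), by have := s.lt; omega, by
    rw [show n - 1 - (n - 1 - a) = a by have := s.lt; omega]; exact s.adj⟩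

theorem St.far (s : St m n f a k) (hb : b < n) (h : b ≠ a) : m (f b) k = 2 := by
  by_contra e
  exact h (s.p.uniq s.H s.out hb s.lt e s.adj)

theorem St.lt' (s : St m n f a k) : a + 1 < n := by
  by_contra e
  have := s.lt
  exact s.max _ (s.p.snoc s.out (fun i hi => (show a = i by omega) ▸ s.adj) fun i hi => s.far (by omega) (by omega))

theorem St.pos (s : St m n f a k) : 0 < a := by
  have := s.rev.lt'
  omega

theorem St.three (s : St m n f a k) (hab : a ≤ b) (hb : b + 1 < n) :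
    cc (m (f b) (f (b + 1))) ^ 2 + cc (m (f a) k) ^ 2 < 3 := by
  by_contra! e
  obtain ⟨C, c, c1, c2, c3⟩ := s.p.C1 s.H s.out
  have h0 := s.pos
  refine c.three hab (fun i _ _ => c1 i (by omega)) (show a - 1 < a by omega) b.lt_succ_self hb n.lt_succ_self ?_
  have := c1 (a - 1) (by omega)
  rw [show a - 1 + 1 = a by omega, c.symm] at this
  rw [c2 b (by omega) _ hb, c3 a s.lt]
  nlinarith

theorem St.lab (s : St m n f a k) : m (f a) k = 3 := by
  by_contra e
  have h1 := s.three le_rfl s.lt'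
  have h2 := (cc_cases (s.H.lab _ _ (s.out a s.lt))).2.2.1 s.adj e
  have h3 := one_le_pow₀ (n := 2) (s.p.one_le s.H s.lt')
  linarith

theorem St.lab_right (s : St m n f a k) (hab : a ≤ b) (hb : b + 1 < n) : m (f b) (f (b + 1)) = 3 := by
  by_contra e
  have h1 := s.three hab hb
  have h2 := (cc_cases (s.H.lab _ _ (s.p.ne (by omega) hb (by omega)))).2.2.1 (s.p.adj b hb) e
  have h3 := s.H.sq (s.out a s.lt) s.adj
  linarith

theorem St.lab_all (s : St m n f a k) (hb : b + 1 < n) : m (f b) (f (b + 1)) = 3 := by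
  rcases le_or_gt a b with h | h
  · exact s.lab_right h hb
  · have := s.rev.lab_right (b := n - 1 - (b + 1)) (by omega) (by omega)
    rwa [show n - 1 - (n - 1 - (b + 1)) = b + 1 by omega, show n - 1 - (n - 1 - (b + 1) + 1) = b by omega,
      s.H.hs] at this

theorem St.two (s : St m n f a k) (s' : St m n f b k') : k = k' := by
  wlog hab : a ≤ b generalizing a b k k'
  · exact (this s' s (by omega)).symm
  by_contra e
  obtain ⟨C, c, c1, c2, c3, -⟩ := s.p.C2 s.H s.out s'.out e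
  have h0 := s.pos
  have h1 := s'.lt'
  refine c.four hab (fun i _ _ => c1 i (by omega)) (show a - 1 < a by omega) b.lt_succ_self h1 n.lt_succ_self
    (n + 1).lt_succ_self ?_ (c1 b h1) (Or.inl ⟨?_, ?_⟩)
  · have := c1 (a - 1) (by omega)
    rwa [show a - 1 + 1 = a by omega, c.symm] at this
  · rw [c2 a s.lt]; exact s.H.one_le (s.out a s.lt) s.adj
  · rw [c3 b s'.lt]; exact s.H.one_le (s'.out b s'.lt) s'.adj

theorem St.arm (s : St m n f a k) (o : ∀ i < n, f i ≠ k') (h : k ≠ k') (h1 : m k k' ≠ 2)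
    (h2 : ∀ i < n, m (f i) k' = 2) : a + 2 < n := by
  by_contra e
  obtain rfl : n = a + 1 + 1 := by have := s.lt'; omega
  have p := (s.p.mono (a + 1).le_succ).snoc (fun i hi => s.out i (by omega))
    (fun i hi => (show a = i by omega) ▸ s.adj) fun i hi => s.far (by omega) (by omega)
  refine s.max _ (p.snoc (out_ex (fun i hi => o i (by omega)) h) (fun i hi => ?_) fun i hi => ?_)
  · rwa [show i = a + 1 by omega, ex_self]
  · rw [ex_lt (by omega)]; exact h2 i (by omega)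

theorem St.no_arm (s : St m n f a k) (o : ∀ i < n, f i ≠ k') (h : k ≠ k') (h2 : ∀ i < n, m (f i) k' = 2) :
    m k k' = 2 := by
  by_contra h1
  have e1 := s.arm o h h1 h2
  have e2 := s.rev.arm (fun i hi => o _ (by omega)) h h1 fun i hi => h2 _ (by omega)
  obtain ⟨b, rfl⟩ : ∃ b, a = b + 2 := ⟨a - 2, by omega⟩
  obtain ⟨C, c, c1, c2, -, c4⟩ := s.p.C2 s.H s.out o h
  exact c.e6 c1 (b := b) (by omega) (n + 1).lt_succ_self (c2 _ s.lt ▸ s.H.one_le (s.out _ s.lt) s.adj)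
    (c4 ▸ s.H.one_le h h1)

theorem St.cover (s : St m n f a k) (hc : ∀ J : Set B, J.Nonempty → Jᶜ.Nonempty → ∃ i ∈ J, ∃ j ∉ J, m i j ≠ 2)
    (x : B) : x = k ∨ ∃ i < n, f i = x := by
  by_contra e
  obtain ⟨y, hy, k', hk, h⟩ := hc {x | x = k ∨ ∃ i < n, f i = x} ⟨k, Or.inl rfl⟩ ⟨x, e⟩
  have o : ∀ i < n, f i ≠ k' := fun i hi e => hk (Or.inr ⟨i, hi, e⟩)
  have h2 : ∀ i < n, m (f i) k' = 2 := fun i hi => by
    by_contra e
    exact hk (Or.inl (St.two ⟨s.H, s.p, s.max, o, hi, e⟩ s))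
  rcases hy with rfl | ⟨i, hi, rfl⟩
  · exact h (s.no_arm o (fun e => hk (Or.inl e.symm)) h2)
  · exact h (h2 i hi)

theorem Hy.isType (H : Hy m) {N : ℕ} {F : ℕ → B} {M : ℕ → ℕ → ℕ} (h1 : ∀ i < N, ∀ j < N, F i = F j → i = j)
    (h2 : ∀ x, ∃ i < N, F i = x) (h3 : ∀ i, M i i = 1) (h4 : ∀ i j, M i j = M j i)
    (h5 : ∀ i j, i < j → j < N → m (F i) (F j) = M i j) : IsType m N M := by
  let e := Equiv.ofBijective (fun i : Fin N => F i) ⟨fun i j e => Fin.ext (h1 i i.2 j j.2 e), fun x =>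
    let ⟨i, hi, e⟩ := h2 x; ⟨⟨i, hi⟩, e⟩⟩
  refine ⟨e.symm, fun x y => ?_⟩
  obtain ⟨i, rfl⟩ := e.surjective x
  obtain ⟨j, rfl⟩ := e.surjective y
  rw [e.symm_apply_apply, e.symm_apply_apply]
  show m (F i) (F j) = _
  rcases lt_trichotomy i.1 j.1 with h | h | h
  · exact h5 i j h j.2
  · rw [h, H.h1, h3]
  · rw [H.hs, h4]; exact h5 j i h i.2

theorem surj_ex (h : ∀ x, x = k ∨ ∃ i < n, f i = x) (x : B) : ∃ i < n + 1, ex f n k i = x := by
  rcases h x with rfl | ⟨i, hi, rfl⟩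
  exacts [⟨n, n.lt_succ_self, ex_self⟩, ⟨i, by omega, ex_lt hi⟩]

theorem St.path (s : St m n f a k) {i j : ℕ} (hi : i < j) (hj : j < n) :
    m (f i) (f j) = if i + 1 = j then 3 else 2 := by
  split_ifs with e
  · subst e; exact s.lab_all hj
  · exact s.p.far i j (by omega) hj

theorem St.last (s : St m n f a k) {i : ℕ} (hi : i < n) : m (f i) k = if i = a then 3 else 2 := by
  split_ifs with e
  · subst e; exact s.lab
  · exact s.far hi e

theorem St.typeD (s : St m n f a k) (h : ∀ x, x = k ∨ ∃ i < n, f i = x) (e : a + 2 = n) :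
    4 ≤ n + 1 ∧ IsType m (n + 1) (mD (n + 1)) := by
  have h0 := s.pos
  refine ⟨by omega, s.H.isType (inj_ex s.p.inj s.out) (surj_ex h) (fun i => if_pos rfl)
    (fun i j => by unfold mD; split_ifs <;> omega) fun i j hi hj => ?_⟩
  rcases Nat.lt_succ_iff_lt_or_eq.1 hj with hj | rfl
  · rw [ex_lt hj, ex_lt (hi.trans hj), s.path hi hj]
    unfold mD; split_ifs <;> omega
  · rw [ex_self, ex_lt hi, s.last hi]
    unfold mD; split_ifs <;> omega

theorem St.typeE (s : St m n f 2 k) (h : ∀ x, x = k ∨ ∃ i < n, f i = x) (e : 4 < n) :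
    IsType m 6 mE ∨ IsType m 7 mE ∨ IsType m 8 mE := by
  have h8 : n < 8 := by
    by_contra! e
    obtain ⟨C, c, c1, -, c3⟩ := s.p.C1 s.H s.out
    exact c.e8 c1 e n.lt_succ_self (c3 _ s.lt ▸ s.H.one_le (s.out _ s.lt) s.adj)
  have t : IsType m (n + 1) mE := by
    refine s.H.isType (F := fun i => ex f n k (if i = 1 then n else i - 1)) (fun i hi j hj e => ?_) (fun x => ?_)
      (fun i => if_pos rfl) (fun i j => by unfold mE; split_ifs <;> omega) fun i j hi hj => ?_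
    · have := inj_ex s.p.inj s.out _ (by split_ifs <;> omega) _ (by split_ifs <;> omega) e
      split_ifs at this <;> omega
    · obtain ⟨i, hi, rfl⟩ := surj_ex h x
      by_cases e1 : i = n
      · exact ⟨1, by omega, by simp only [if_pos, e1]⟩
      · by_cases e2 : i = 0
        · exact ⟨0, by omega, by simp [e2]⟩
        · exact ⟨i + 1, by omega, by simp [e2]⟩
    · by_cases e1 : i = 1
      · simp only [if_pos e1, if_neg (show j ≠ 1 by omega)]
        rw [ex_self, ex_lt (by omega), s.H.hs, s.last (by omega)]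
        unfold mE; split_ifs <;> omega
      · by_cases e2 : j = 1
        · simp only [if_neg e1, if_pos e2]
          rw [ex_self, ex_lt (by omega), s.last (by omega)]
          unfold mE; split_ifs <;> omega
        · simp only [if_neg e1, if_neg e2]
          rw [ex_lt (by omega), ex_lt (by omega), s.path (by omega) (by omega)]
          unfold mE; split_ifs <;> omega
  obtain rfl | rfl | rfl : n = 5 ∨ n = 6 ∨ n = 7 := by omega
  exacts [Or.inl t, Or.inr (Or.inl t), Or.inr (Or.inr t)]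

theorem St.type (s : St m n f a k) (h : ∀ x, x = k ∨ ∃ i < n, f i = x) :
    (∃ n, 4 ≤ n ∧ IsType m n (mD n)) ∨ IsType m 6 mE ∨ IsType m 7 mE ∨ IsType m 8 mE := by
  have h' : ∀ x, x = k ∨ ∃ i < n, f (n - 1 - i) = x := fun x => (h x).imp_right fun ⟨i, hi, e⟩ =>
    ⟨n - 1 - i, by omega, by rwa [show n - 1 - (n - 1 - i) = i by omega]⟩
  have h0 := s.pos
  have h1 := s.lt'
  by_cases e1 : a + 2 = n
  · exact Or.inl ⟨_, s.typeD h e1⟩
  by_cases e2 : a = 1
  · exact Or.inl ⟨_, s.rev.typeD h' (by omega)⟩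
  by_cases e3 : a = 2
  · subst e3; exact Or.inr (s.typeE h (by omega))
  by_cases e4 : a + 3 = n
  · have s' := s.rev
    rw [show n - 1 - a = 2 by omega] at s'
    exact Or.inr (s'.typeE h' (by omega))
  obtain ⟨b, rfl⟩ : ∃ b, a = b + 3 := ⟨a - 3, by omega⟩
  obtain ⟨C, c, c1, -, c3⟩ := s.p.C1 s.H s.out
  exact (c.e7 c1 (b := b) (by omega) n.lt_succ_self (c3 _ s.lt ▸ s.H.one_le (s.out _ s.lt) s.adj)).elim

theorem Pth.lab' (H : Hy m) (p : Pth m n f) (ha : a + 2 < n) :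
    m (f (a + 1)) (f (a + 2)) = 3 ∨ m (f (a + 1)) (f (a + 2)) = 4 := by
  by_contra! e
  have h1 := (cc_cases (H.lab _ _ (p.ne (by omega) ha (by omega)))).2.2.2 (p.adj _ ha) e.1 e.2
  have h2 := one_le_pow₀ (n := 2) (p.one_le H (show a + 1 < n by omega))
  refine (H.idx p.inj).two (a := a + 1) le_rfl (fun i _ _ => by omega) a.lt_succ_self (a + 1).lt_succ_self ha ?_
  rw [H.hs (f (a + 1)) (f a)]
  linarith

theorem Pth.lab (H : Hy m) (p : Pth m n f) (h3 : 3 ≤ n) (ha : a + 1 < n) :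
    m (f a) (f (a + 1)) = 3 ∨ m (f a) (f (a + 1)) = 4 := by
  rcases a with _ | a
  · have := (p.rev H).lab' H (a := n - 3) (by omega)
    rwa [show n - 1 - (n - 3 + 1) = 0 + 1 by omega, show n - 1 - (n - 3 + 2) = 0 by omega, H.hs] at this
  · exact p.lab' H ha

theorem Pth.four (H : Hy m) (p : Pth m n f) (ha : a + 1 < n) (hb : b + 1 < n) (h1 : m (f a) (f (a + 1)) = 4)
    (h2 : m (f b) (f (b + 1)) = 4) : a = b := by
  wlog hab : a < b generalizing a b
  · by_contra e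
    exact e (this hb ha h2 h1 (by omega)).symm
  refine ((H.idx p.inj).two (a := a + 1) hab (fun i _ _ => p.one_le H (by omega)) a.lt_succ_self b.lt_succ_self
    hb ?_).elim
  rw [H.hs (f (a + 1)), h1, h2, cc_four, Real.sq_sqrt zero_le_two]
  norm_num

theorem Pth.path (H : Hy m) (p : Pth m n f) (h3 : 3 ≤ n) (ha : a + 1 < n) (h1 : m (f a) (f (a + 1)) = 4) {i j : ℕ}
    (hi : i < j) (hj : j < n) : m (f i) (f j) = if i + 1 = j then if i = a then 4 else 3 else 2 := by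
  split_ifs with e e'
  · subst e e'; exact h1
  · subst e; exact (p.lab H h3 hj).resolve_right fun k => e' (p.four H hj ha k h1)
  · exact p.far i j (by omega) hj

theorem Pth.typeB (H : Hy m) (p : Pth m n f) (h : ∀ x, ∃ i < n, f i = x) (h3 : 3 ≤ n) (ha : a + 2 = n)
    (h1 : m (f a) (f (a + 1)) = 4) : IsType m n (mB n) :=
  H.isType p.inj h (fun _ => if_pos rfl) (fun i j => by unfold mB; split_ifs <;> omega) fun i j hi hj => by
    rw [p.path H h3 (by omega) h1 hi hj]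
    unfold mB; split_ifs <;> omega

theorem Pth.not_f4 (H : Hy m) (p : Pth m n f) (ha : a + 2 < n) (h1 : m (f a) (f (a + 1)) = 4) : a < 2 := by
  by_contra! e
  obtain ⟨b, rfl⟩ : ∃ b, a = b + 2 := ⟨a - 2, by omega⟩
  exact (H.idx p.inj).f4 (b := b) (fun i hi => p.one_le H hi) ha (by simp only [h1, cc_four, le_rfl])

theorem Pth.type (H : Hy m) (p : Pth m n f) (h : ∀ x, ∃ i < n, f i = x) (h3 : 3 ≤ n) :
    IsType m n mA ∨ IsType m n (mB n) ∨ IsType m 4 mF := by
  by_cases e : ∃ a, a + 1 < n ∧ m (f a) (f (a + 1)) = 4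
  · obtain ⟨a, ha, h1⟩ := e
    have h' : ∀ x, ∃ i < n, f (n - 1 - i) = x := fun x =>
      let ⟨i, hi, e⟩ := h x; ⟨n - 1 - i, by omega, by rwa [show n - 1 - (n - 1 - i) = i by omega]⟩
    have h2 : m (f (n - 1 - (n - 2 - a))) (f (n - 1 - (n - 2 - a + 1))) = 4 := by
      rwa [show n - 1 - (n - 2 - a) = a + 1 by omega, show n - 1 - (n - 2 - a + 1) = a by omega, H.hs]
    by_cases e1 : a + 2 = n
    · exact Or.inr (Or.inl (p.typeB H h h3 e1 h1))
    by_cases e2 : a = 0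
    · exact Or.inr (Or.inl ((p.rev H).typeB H h' h3 (by omega) h2))
    have k1 := p.not_f4 H (by omega) h1
    have k2 := (p.rev H).not_f4 H (by omega) h2
    obtain rfl : n = 4 := by omega
    refine Or.inr (Or.inr (H.isType p.inj h (fun _ => if_pos rfl) (fun i j => by unfold mF; split_ifs <;> omega)
      fun i j hi hj => ?_))
    rw [p.path H h3 ha h1 hi hj]
    unfold mF; split_ifs <;> omega
  · refine Or.inl (H.isType p.inj h (fun _ => if_pos rfl) (fun i j => by unfold mA; split_ifs <;> omega)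
      fun i j hi hj => ?_)
    by_cases e1 : i + 1 = j
    · subst e1
      rw [(p.lab H h3 hj).resolve_right fun k => e ⟨i, hj, k⟩]
      unfold mA; split_ifs <;> omega
    · rw [p.far i j (by omega) hj]
      unfold mA; split_ifs <;> omega

theorem exists_max [Fintype B] (m : B → B → ℕ) (x : B) : ∃ n f, 0 < n ∧ Pth m n f ∧ ∀ g, ¬ Pth m (n + 1) g := by
  by_contra! e
  have : ∀ n, ∃ f, Pth m (n + 1) f := fun n => by
    induction n with
    | zero => exact ⟨fun _ => x, fun i _ j _ _ => by omega, fun i _ => by omega, fun i j _ _ => by omega⟩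
    | succ n ih => exact let ⟨f, p⟩ := ih; e _ f n.succ_pos p
  obtain ⟨f, p⟩ := this (Fintype.card B)
  have := Fintype.card_le_of_injective (fun i : Fin (Fintype.card B + 1) => f i)
    fun i j e => Fin.ext (p.inj i i.2 j j.2 e)
  simp at this

end Cx

open Cx

theorem type_of_pd {B : Type*} [Fintype B] {m : B → B → ℕ} (hs : ∀ i j, m i j = m j i) (h1 : ∀ i, m i i = 1)
    (h : ∀ i j, i ≠ j → m i j ∈ ({2, 3, 4, 6, 8} : Set ℕ)) (hp : PD m) (h3 : 3 ≤ Fintype.card B)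
    (hc : ∀ J : Set B, J.Nonempty → Jᶜ.Nonempty → ∃ i ∈ J, ∃ j ∉ J, m i j ≠ 2) :
    (∃ n, 3 ≤ n ∧ IsType m n mA) ∨ (∃ n, 3 ≤ n ∧ IsType m n (mB n)) ∨ (∃ n, 4 ≤ n ∧ IsType m n (mD n)) ∨
      IsType m 6 mE ∨ IsType m 7 mE ∨ IsType m 8 mE ∨ IsType m 4 mF := by
  have H : Hy m := ⟨hs, h1, h, ps_of_pd hs h1 h hp⟩
  obtain ⟨x⟩ := Fintype.card_pos_iff.1 (show 0 < Fintype.card B by omega)
  obtain ⟨n, f, h0, p, mx⟩ := exists_max m x
  by_cases e : ∀ x, ∃ i < n, f i = x
  · have hn : 3 ≤ n := h3.trans ((Fintype.card_le_of_surjective (fun i : Fin n => f i) fun x =>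
      let ⟨i, hi, k⟩ := e x; ⟨⟨i, hi⟩, k⟩).trans_eq (Fintype.card_fin n))
    rcases p.type H e hn with t | t | t
    exacts [Or.inl ⟨n, hn, t⟩, Or.inr (Or.inl ⟨n, hn, t⟩), by tauto]
  · obtain ⟨y, hy⟩ := not_forall.1 e
    obtain ⟨_, ⟨a, ha, rfl⟩, k, hk, h2⟩ := hc {x | ∃ i < n, f i = x} ⟨f 0, 0, h0, rfl⟩ ⟨y, hy⟩
    have s : St m n f a k := ⟨H, p, mx, fun i hi e => hk ⟨i, hi, e⟩, ha, h2⟩
    exact Or.inr (Or.inr ((s.type (s.cover hc)).imp_right (Or.imp_right (Or.imp_right Or.inl))))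

end CfsgLib.Tits
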