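import Cfsg.Agent.Lib.Tits.Ext1

/-!
# Package EXT2: steps and the braid lemma (see `plans/TITS.md`)
-/

set_option autoImplicit false

namespace CfsgLib.Tits
open CfsgLib.BN

namespace Bld
variable {B W : Type*} [Group W] [Finite W] {E : ExchSys B W} {C C' : Type*} {D : Bld E C} {D' : Bld E C'}
  {a : W → C} {a' : W → C'}

omit [Finite W] in
theorem mem_pair_left {k : B} (l : B) {x z : C} (h : z ∈ D.R {k} x) : z ∈ D.R {k, l} x :=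
  D.R_mono (by simp) x h

omit [Finite W] in
theorem mem_R_of_δ {k : B} {x z : C} (h : D.δ z x = E.s k) : z ∈ D.R {k} x :=
  D.R_symm (D.mem_R_singleton.2 (Or.inr h))

theorem δ_w0_symm {x y : C} (h : D.δ x y = w0 E) : D.δ y x = w0 E := by rw [D.δ_symm, h, w0_inv]

theorem δ_apt (ha : D.IsApt a) {x : C} {v w : W} (hx : D.δ x (a 1) = w) (hv : E.len (v * w) = E.len v + E.len w) :
    D.δ x (a ((v * w)⁻¹ * w0 E)) = v⁻¹ * w0 E := by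
  have e : D.δ x (a 1) * D.δ (a 1) (a ((v * w)⁻¹ * w0 E)) = v⁻¹ * w0 E := by rw [hx, ha]; group
  rw [← e]
  refine D.δ_mul ?_
  have h1 := len_mul_w0 E v⁻¹
  have h2 := len_mul_w0 E (v * w)⁻¹
  rw [E.len_inv] at h1 h2
  rw [e, hx, ha, inv_one, one_mul]
  omega

theorem P_s_mul_w0 (k : B) : E.P k (E.s k * w0 E) := (P_s_mul_iff E).2 (not_P_w0 E k)

/-- a chamber of a panel is opposite some chamber of the opposite panel -/
theorem exists_opp_panel {k : B} {x x₁ y : C} (h : D.δ x y = w0 E) (hx : x₁ ∈ D.R {k} x) :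
    ∃ u ∈ D.R {op E k} y, D.δ x₁ u = w0 E := by
  rcases D.mem_R_singleton.1 (D.R_symm hx) with rfl | e
  · exact ⟨y, D.self_mem_R _ _, h⟩
  rcases D.δ_or k x₁ x y e with e' | e' <;> rw [h] at e'
  · obtain ⟨u, hu⟩ := D.exists_δ y (E.s (op E k))
    have h1 := len_w0_mul E (E.s (op E k))
    rw [s_mul_w0] at e'
    refine ⟨u, D.mem_R_singleton.2 (Or.inr hu), ?_⟩
    rw [D.δ_P_right hu (by rw [e', E.mul_s_mul_s]; rw [E.len_s] at h1; omega), e', E.mul_s_mul_s]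
  · exact ⟨y, D.self_mem_R _ _, e'⟩

theorem exists_opp_panel_two {k : B} {x x₁ x' x₁' y : C} (h : D.δ x y = w0 E) (hx : x₁ ∈ D.R {k} x)
    (h' : D.δ x' y = w0 E) (hx' : x₁' ∈ D.R {k} x') :
    ∃ u ∈ D.R {op E k} y, D.δ x₁ u = w0 E ∧ D.δ x₁' u = w0 E := by
  obtain ⟨u, hu, e⟩ := exists_opp_panel h hx
  obtain ⟨u', hu', e'⟩ := exists_opp_panel h' hx'
  obtain ⟨z, hz, e2⟩ := D.exists_opp_two e (D.R_eq hu ▸ hu') e'
  exact ⟨z, D.R_trans hu hz, e2⟩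

theorem Canon.congr {x : C} {f g : C → C'} [Nonempty B] (h : D.Canon D' a a' x f) (e : D.Eq2 x f g) :
    D.Canon D' a a' x g :=
  ⟨h.1.congr e, e (Classical.arbitrary B) (Classical.arbitrary B) x (D.self_mem_R _ _) ▸ h.2.1, h.2.2.congr e⟩

theorem step_exists (ha : D.IsApt a) (ha' : D'.IsApt a') {k : B} {x x₁ : C} {f : C → C'} (h : D.Canon D' a a' x f)
    (hx : D.δ x₁ x = E.s k) (hP : E.P k (D.δ x (a 1))) : ∃ f₁, D.Step D' a a' k x f x₁ f₁ := by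
  have : Nonempty B := ⟨k⟩
  have e1 := D.δ_P k x₁ x (a 1) hx hP
  have hx1 := mem_R_of_δ hx
  have hl : E.len (E.s k * D.δ x (a 1)) = E.len (E.s k) + E.len (D.δ x (a 1)) := by
    rw [E.len_of_P hP, E.len_s, add_comm]
  have ey : ((D.δ x (a 1))⁻¹ * w0 E)⁻¹ * ((E.s k * D.δ x (a 1))⁻¹ * w0 E) ∈ E.par {op E k} := by
    rw [show ((D.δ x (a 1))⁻¹ * w0 E)⁻¹ * ((E.s k * D.δ x (a 1))⁻¹ * w0 E) = (w0 E)⁻¹ * (E.s k)⁻¹ * w0 E by group,
      w0_inv, E.s_inv, ← s_op]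
    exact E.s_mem_par rfl
  have hy1 := ha.mem_R.2 ey
  have o1 : D.δ x₁ (a ((E.s k * D.δ x (a 1))⁻¹ * w0 E)) = w0 E := by
    simpa using δ_apt ha (v := 1) e1 (by simp)
  obtain ⟨g, gy, og⟩ := exists_op h.1 h.2.2
  obtain ⟨u, hu, u1, u2⟩ := D.exists_opp_two og.1 hy1 o1
  obtain ⟨g2, gu, og2⟩ := exists_op h.1 (og.compat_of_mem (i := k) (j := k) (mem_pair_left _ hu) u1)
  have e2 := og.symm.eq_of_mem og2.symm (mem_pair_left (op E k) hu) gu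
  obtain ⟨f1, fx, of1⟩ := exists_op og2.2.2.1 (og2.symm.compat_of_mem (i := op E k) (j := op E k)
    (by rw [op_op]; exact mem_pair_left _ hx1) (δ_w0_symm u2))
  have c1 := of1.symm.compat_of_mem (i := k) (j := k) (mem_pair_left _ (D.R_eq hu ▸ hy1)) o1
  have e3 : g (a ((E.s k * D.δ x (a 1))⁻¹ * w0 E)) = a' ((E.s k * D.δ x (a 1))⁻¹ * w0 E) := by
    have k1 : ∀ p, D'.δ (f x) p = (E.s k)⁻¹ * w0 E → ∀ j ∈ ({op E k} : Set B), E.P j (D'.δ p (f x)) := by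
      rintro p e _ rfl
      rw [D'.δ_symm, e, mul_inv_rev, w0_inv, inv_inv, ← op_op E k, ← s_mul_w0, op_op]
      exact P_s_mul_w0 _
    refine D'.gate_unique (k1 _ (δ_apt ha' h.2.1 hl)) (k1 _ ?_) (D'.R_trans (D'.R_symm (ha'.mem_R.2 ey)) ?_)
    · rw [og.2.2.2 k k x (D.self_mem_R _ _) _ (mem_pair_left _ hy1), δ_apt ha rfl hl]
    · rw [← gy, mem_R, (og.2.2.1 _ _).1 _ (D.self_mem_R _ _) _ (mem_pair_left (op E k) hy1)]
      exact hy1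
  rw [e2 _ (mem_pair_left _ hy1), e3] at c1
  refine ⟨f1, h, ⟨of1.2.2.1, ?_, e1 ▸ c1⟩, hx, hP, fun l z hz =>
    (og2.eq_of_mem of1.symm (mem_pair_left l hx1) fx z hz).symm⟩
  rw [fx, e1, ← h.2.1]
  exact D'.δ_P k _ _ _ (((h.1 k k).1 _ (mem_pair_left _ hx1) _ (D.self_mem_R _ _)).trans hx) (h.2.1 ▸ hP)

omit [Finite W] in
theorem Eq1.symm_trans {x : C} {f g h : C → C'} (h1 : D.Eq1 x f g) (h2 : D.Eq1 x f h) : D.Eq1 x g h :=
  fun i z hz => (h1 i z hz).symm.trans (h2 i z hz)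

theorem step_unique {k : B} {x x₁ : C} {f g f₁ g₁ : C → C'} (h : D.Step D' a a' k x f x₁ f₁)
    (h' : D.Step D' a a' k x g x₁ g₁) (e : D.Eq2 x f g) : D.Eq2 x₁ f₁ g₁ := by
  have : Nonempty B := ⟨k⟩
  have hx := mem_R_of_δ h.2.2.1
  exact eq2_of_compat h.2.1.1 h'.2.1.1 ((h.2.2.2.2.eq1 hx).symm_trans
    (Adj.eq1 (fun l z hz => (e k l z hz).trans (h'.2.2.2.2 l z hz)) hx)) h.2.1.2.2 h'.2.1.2.2

omit [Finite W] in
theorem walk_append {l l' : List B} {p q : C × (C → C')} :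
    D.Walk D' a a' (l ++ l') p q ↔ ∃ r, D.Walk D' a a' l p r ∧ D.Walk D' a a' l' r q := by
  induction l generalizing p with
  | nil => simp [walk_nil]
  | cons k l ih =>
    simp only [List.cons_append, walk_cons, ih]
    exact ⟨fun ⟨r, h1, s, h2, h3⟩ => ⟨s, ⟨r, h1, h2⟩, h3⟩, fun ⟨s, ⟨r, h1, h2⟩, h3⟩ => ⟨r, h1, s, h2, h3⟩⟩

omit [Finite W] in
theorem walk_concat {l : List B} {k : B} {p q : C × (C → C')} :
    D.Walk D' a a' (l ++ [k]) p q ↔ ∃ r, D.Walk D' a a' l p r ∧ D.Step D' a a' k r.1 r.2 q.1 q.2 := by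
  simp [walk_append, walk_cons, walk_nil]

omit [Finite W] in
theorem Walk.canon {l : List B} {p q : C × (C → C')} (h : D.Walk D' a a' l p q) (hp : D.Canon D' a a' p.1 p.2) :
    D.Canon D' a a' q.1 q.2 := by
  induction l generalizing p with
  | nil => exact h ▸ hp
  | cons k l ih => exact let ⟨_, h1, h2⟩ := h; ih h2 h1.2.1

omit [Finite W] in
theorem exists_pair {i j k : B} (hk : k ∈ ({i, j} : Set B)) : ∃ l, ({k, l} : Set B) = {i, j} := by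
  rcases hk with rfl | rfl
  exacts [⟨j, rfl⟩, ⟨i, Set.pair_comm _ _⟩]

variable (D D') in
/-- a pair of opposite germs and a pair of opposite types -/
structure Fr (i j i' j' : B) (x0 : C) (F : C → C') (y0 : C) (G : C → C') : Prop where
  op : D.Op D' x0 F y0 G
  hi : Tits.op E i = i'
  hj : Tits.op E j = j'

variable (D D') in
/-- germs in the residue of the frame -/
structure Good (I I' : Set B) (x0 : C) (F : C → C') (y0 : C) (G : C → C') (x : C) (f : C → C') : Prop where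
  mem : x ∈ D.R I x0
  loc : D.Loc D' x f
  eq : ∀ z ∈ D.R I x0, f z = F z
  cp : ∃ y ∈ D.R I' y0, D.Compat D' x f y (G y)

namespace Fr
variable {i j i' j' k : B} {x0 y0 x x₁ y y₁ : C} {F G f f₁ g g₁ : C → C'} (h : D.Fr D' i j i' j' x0 F y0 G)
include h

theorem symm : D.Fr D' i' j' i j y0 G x0 F := ⟨h.op.symm, h.hi ▸ op_op E i, h.hj ▸ op_op E j⟩

theorem op_mem (hk : k ∈ ({i, j} : Set B)) : Tits.op E k ∈ ({i', j'} : Set B) := by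
  rcases hk with rfl | rfl
  exacts [Or.inl h.hi, Or.inr h.hj]

theorem g0 (ho : D.Op D' x f y g) (hx : x ∈ D.R {i, j} x0) (hf : ∀ z ∈ D.R {i, j} x0, f z = F z)
    (hy : y ∈ D.R {i', j'} y0) (hg : g y ∈ D'.R {i', j'} (G y0)) : ∀ u ∈ D.R {i', j'} y0, g u = G u := by
  obtain ⟨o, rfl, rfl⟩ := h
  intro u hu
  obtain ⟨p, hp, e⟩ := D.exists_gate_opp (J := {i, j}) o.1 (by rwa [op_pair])
  have k1 : ∀ q, D'.δ (F p) q = D.δ p u → ∀ l ∈ ({Tits.op E i, Tits.op E j} : Set B), E.P l (D'.δ q (F p)) :=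
    fun q e' l hl => by
      rw [D'.δ_symm, e', e, mul_inv_rev, w0_inv, lng_inv]
      exact P_w0_mul_lng E (by rwa [op_pair])
  refine D'.gate_unique (k1 _ (o.2.2.2 i j p hp u hu))
    (k1 _ (hf p hp ▸ ho.2.2.2 i j p (D.R_eq hx ▸ hp) u (D.R_eq hy ▸ hu))) (D'.R_trans (y := G y0) ?_ (D'.R_trans hg ?_))
  · rw [mem_R, (o.2.2.1 _ _).1 u hu _ (D.self_mem_R _ _)]
    exact D.R_symm hu
  · rw [mem_R, (ho.2.2.1 _ _).1 y (D.self_mem_R _ _) u (D.R_eq hy ▸ hu)]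
    exact D.δ_mem_par hy hu

theorem map_mem (hy : y ∈ D.R {i', j'} y0) : G y ∈ D'.R {i', j'} (G y0) := by
  rw [mem_R, (h.op.2.2.1 _ _).1 _ (D.self_mem_R _ _) y hy]
  exact hy

theorem g1 (hx : D.Good D' {i, j} {i', j'} x0 F y0 G x f) (hy : y ∈ D.R {i', j'} y0) (e : D.δ x y = w0 E) :
    D.Compat D' x f y (G y) ∧ ∃ g, D.Op D' x f y g ∧ D.Good D' {i', j'} {i, j} y0 G x0 F y g := by
  have : Nonempty B := ⟨i⟩
  obtain ⟨y1, hy1, c1⟩ := hx.cp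
  obtain ⟨g1, e1, o1⟩ := exists_op hx.loc c1
  have c := o1.compat_of_mem (i := i) (j := j) (by rw [h.hi, h.hj, D.R_eq hy1]; exact hy) e
  rw [h.g0 o1 hx.mem hx.eq hy1 (e1 ▸ h.map_mem hy1) y hy] at c
  obtain ⟨g, e2, o2⟩ := exists_op hx.loc c
  exact ⟨c, g, o2, hy, o2.2.2.1, h.g0 o2 hx.mem hx.eq hy (e2 ▸ h.map_mem hy), x, hx.mem,
    hx.eq x hx.mem ▸ o2.symm.compat⟩

theorem m0 (hx : D.Good D' {i, j} {i', j'} x0 F y0 G x f) (hx₁ : D.Good D' {i, j} {i', j'} x0 F y0 G x₁ f₁)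
    (hk : x₁ ∈ D.R {k} x) (ad : D.Adj k x f f₁) (e : D.δ x₁ y = w0 E) (ho : D.Op D' x f y g)
    (hy : D.Good D' {i', j'} {i, j} y0 G x0 F y g) : D.Op D' x₁ f₁ y g := by
  have : Nonempty B := ⟨i⟩
  obtain ⟨-, f2, o2, g2⟩ := h.symm.g1 hy hx₁.mem (δ_w0_symm e)
  have ad2 : D.Adj k x f f2 := fun l z hz => (ho.eq_of_mem o2.symm (mem_pair_left l hk)
    ((g2.eq _ hx₁.mem).trans (hx.eq _ hx₁.mem).symm) z hz).symm
  exact o2.symm.congr (eq2_of_compat g2.loc hx₁.loc ((ad2.eq1 hk).symm_trans (ad.eq1 hk)) o2.symm.compat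
    (hy.eq y hy.mem ▸ (h.g1 hx₁ hy.mem e).1))

theorem m1 (hx : D.Good D' {i, j} {i', j'} x0 F y0 G x f) (hx₁ : D.Good D' {i, j} {i', j'} x0 F y0 G x₁ f₁)
    (hy : D.Good D' {i', j'} {i, j} y0 G x0 F y g) (hy₁ : D.Good D' {i', j'} {i, j} y0 G x0 F y₁ g₁)
    (kI : k ∈ ({i, j} : Set B)) (hk : x₁ ∈ D.R {k} x) (hk' : y₁ ∈ D.R {Tits.op E k} y) (ad : D.Adj k x f f₁)
    (ho : D.Op D' x f y g) (ho₁ : D.Op D' x₁ f₁ y₁ g₁) : D.Adj (Tits.op E k) y g g₁ := by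
  have : Nonempty B := ⟨i⟩
  obtain ⟨u, hu, u1, u2⟩ := D.exists_opp_two ho.1 hk' ho₁.1
  have hu' := D.R_trans hy.mem (D.R_mono (Set.singleton_subset_iff.2 (h.op_mem kI)) _ hu)
  obtain ⟨-, g2, o2, q2⟩ := h.g1 hx hu' u1
  intro l z hz
  exact (ho.symm.eq_of_mem o2.symm (mem_pair_left l hu) ((q2.eq _ hu').trans (hy.eq _ hu').symm) z hz).symm.trans
    (ho₁.symm.eq_of_mem (h.m0 hx hx₁ hk ad u2 o2 q2).symm (mem_pair_left l (D.R_eq hk' ▸ hu))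
      ((q2.eq _ hu').trans (hy₁.eq _ hu').symm) z (D.R_eq (mem_pair_left l hk') ▸ hz))

variable (ha : D.IsApt a) (ha' : D'.IsApt a') (e0 : y0 = a ((D.δ x0 (a 1))⁻¹ * w0 E))
  (e0' : G y0 = a' ((D.δ x0 (a 1))⁻¹ * w0 E))
include ha ha' e0 e0'

theorem good_of_canon (hc : D.Canon D' a a' x f) (hx : x ∈ D.R {i, j} x0) (hf : ∀ z ∈ D.R {i, j} x0, f z = F z) :
    D.Good D' {i, j} {i', j'} x0 F y0 G x f := by
  have : Nonempty B := ⟨i⟩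
  obtain ⟨v, hv, e⟩ := D.exists_δ_eq_mul hx (a 1)
  have ey : ((D.δ x0 (a 1))⁻¹ * w0 E)⁻¹ * ((D.δ x (a 1))⁻¹ * w0 E) ∈ E.par {i', j'} := by
    rw [e, show ((D.δ x0 (a 1))⁻¹ * w0 E)⁻¹ * ((v * D.δ x0 (a 1))⁻¹ * w0 E) = (w0 E)⁻¹ * v⁻¹ * w0 E by group,
      w0_inv, ← h.hi, ← h.hj, ← op_pair, mem_par_op]
    exact (lng_conj_conj E Set.univ v⁻¹).symm ▸ inv_mem hv
  obtain ⟨g, e1, o1⟩ := exists_op hc.1 hc.2.2
  have hy := e0 ▸ ha.mem_R.2 ey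
  exact ⟨hx, hc.1, hf, _, hy, h.g0 o1 hx hf hy (by rw [e1, e0']; exact ha'.mem_R.2 ey) _ hy ▸ e1 ▸ hc.2.2⟩

theorem good_step (hx : D.Good D' {i, j} {i', j'} x0 F y0 G x f) (kI : k ∈ ({i, j} : Set B))
    (hs : D.Step D' a a' k x f x₁ f₁) : D.Good D' {i, j} {i', j'} x0 F y0 G x₁ f₁ := by
  obtain ⟨l, e⟩ := exists_pair kI
  exact h.good_of_canon ha ha' e0 e0' hs.2.1 (D.R_trans hx.mem (e ▸ mem_pair_left l (mem_R_of_δ hs.2.2.1)))
    fun z hz => (hs.2.2.2.2 l z (by rw [e, D.R_eq hx.mem]; exact hz)).symm.trans (hx.eq z hz)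

theorem ch {l : List B} (hl : ∀ k ∈ l, k ∈ ({i, j} : Set B)) {p p' q q' : C × (C → C')}
    (w : D.Walk D' a a' l p q) (w' : D.Walk D' a a' l p' q') (hp : D.Good D' {i, j} {i', j'} x0 F y0 G p.1 p.2)
    (hp' : D.Good D' {i, j} {i', j'} x0 F y0 G p'.1 p'.2) (o : D.Op D' p.1 p.2 y g) (o' : D.Op D' p'.1 p'.2 y g)
    (hy : D.Good D' {i', j'} {i, j} y0 G x0 F y g) : ∃ y₁ g₁, D.Op D' q.1 q.2 y₁ g₁ ∧ D.Op D' q'.1 q'.2 y₁ g₁ ∧
      D.Good D' {i, j} {i', j'} x0 F y0 G q.1 q.2 ∧ D.Good D' {i, j} {i', j'} x0 F y0 G q'.1 q'.2 := by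
  have : Nonempty B := ⟨i⟩
  induction l generalizing p p' y g with
  | nil => exact ⟨y, g, w ▸ o, w' ▸ o', w ▸ hp, w' ▸ hp'⟩
  | cons k l ih =>
    obtain ⟨r, s, w⟩ := w
    obtain ⟨r', s', w'⟩ := w'
    have kI := hl k (by simp)
    have hr := h.good_step ha ha' e0 e0' hp kI s
    have hr' := h.good_step ha ha' e0 e0' hp' kI s'
    obtain ⟨u, hu, u1, u2⟩ := exists_opp_panel_two o.1 (mem_R_of_δ s.2.2.1) o'.1 (mem_R_of_δ s'.2.2.1)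
    have hu' := D.R_trans hy.mem (D.R_mono (Set.singleton_subset_iff.2 (h.op_mem kI)) _ hu)
    obtain ⟨-, g1, o1, q1⟩ := h.g1 hr hu' u1
    obtain ⟨-, g2, o2, q2⟩ := h.g1 hr' hu' u2
    have a1 := h.m1 hp hr hy q1 kI (mem_R_of_δ s.2.2.1) hu s.2.2.2.2 o o1
    have a2 := h.m1 hp' hr' hy q2 kI (mem_R_of_δ s'.2.2.1) hu s'.2.2.2.2 o' o2
    have e2 := eq2_of_compat q2.loc q1.loc ((a2.eq1 hu).symm_trans (a1.eq1 hu))
      (h.symm.g1 q2 hr.mem (δ_w0_symm u1)).1 (h.symm.g1 q1 hr.mem (δ_w0_symm u1)).1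
    exact ih (fun x hx => hl x (by simp [hx])) w w' hr hr' o1 (o2.symm.congr e2).symm q1

end Fr

/-- the braid lemma -/
theorem braid (ha : D.IsApt a) (ha' : D'.IsApt a') {i j : B} (hij : i ≠ j) {p q q' : C × (C → C')}
    (h : D.Walk D' a a' (alt i j (E.mat i j)) p q) (h' : D.Walk D' a a' (alt j i (E.mat i j)) p q')
    (e : q.1 = q'.1) : D.Eq2 q.1 q.2 q'.2 := by
  have : Nonempty B := ⟨i⟩
  have _ := hij
  obtain ⟨n, hn⟩ := Nat.exists_eq_succ_of_ne_zero (orderOf_pos (E.s i * E.s j)).ne'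
  rw [E.mat_apply, hn] at h h'
  rw [Nat.succ_eq_add_one, alt_succ, walk_cons] at h
  obtain ⟨r, s, w⟩ := h
  rw [Nat.succ_eq_add_one, alt_succ_right, walk_concat] at h'
  obtain ⟨r', w', s'⟩ := h'
  obtain ⟨G, e0, o0⟩ := exists_op s.1.1 s.1.2.2
  have fr : D.Fr D' i j (op E i) (op E j) _ _ _ G := ⟨o0, rfl, rfl⟩
  have hp := fr.good_of_canon ha ha' rfl e0 s.1 (D.self_mem_R _ _) fun _ _ => rfl
  have hr := fr.good_step ha ha' rfl e0 hp (Or.inl rfl) s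
  obtain ⟨u, hu, u1, u2⟩ := exists_opp_panel_two o0.1 (D.self_mem_R {i} _) o0.1 (mem_R_of_δ s.2.2.1)
  obtain ⟨-, g, o, hg⟩ := fr.g1 hp (mem_pair_left _ hu) u1
  obtain ⟨y1, g1, o1, o2, q1, q2⟩ := fr.ch ha ha' rfl e0 (fun k hk => (mem_alt hk).symm) w w' hr hp
    (fr.m0 hp hr (mem_R_of_δ s.2.2.1) s.2.2.2.2 u2 o hg) o hg
  have hq := e ▸ mem_R_of_δ s'.2.2.1
  have ad : D.Adj _ r'.1 r'.2 q.2 := fun l z hz => (o2.eq_of_mem o1 (mem_pair_left l hq)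
    ((q1.eq _ q1.mem).trans (q2.eq _ q1.mem).symm) z hz).symm
  have c := w.canon s.2.1
  have c' := e ▸ s'.2.1
  exact eq2_of_compat c.1 c'.1 ((ad.eq1 hq).symm_trans (s'.2.2.2.2.eq1 hq)) c.2.2 c'.2.2

end Bld

end CfsgLib.Tits
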