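import Cfsg.Agent.Lib.Tits.Ext2

/-!
# Package EXT3: the extension theorem (see `plans/TITS.md`)
-/

set_option autoImplicit false

namespace CfsgLib.Tits
open CfsgLib.BN

namespace Bld
variable {B W : Type*} [Group W] [Finite W] {E : ExchSys B W} {C C' : Type*} {D : Bld E C} {D' : Bld E C'}
  {a : W → C} {a' : W → C'}

omit [Finite W] in
theorem Step.δ_eq {k : B} {x x₁ : C} {f f₁ : C → C'} (h : D.Step D' a a' k x f x₁ f₁) :
    D.δ x₁ (a 1) = E.s k * D.δ x (a 1) := D.δ_P k _ _ _ h.2.2.1 h.2.2.2.1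

omit [Finite W] in
theorem Step.len_eq {k : B} {x x₁ : C} {f f₁ : C → C'} (h : D.Step D' a a' k x f x₁ f₁) :
    E.len (D.δ x₁ (a 1)) = E.len (D.δ x (a 1)) + 1 := by rw [h.δ_eq, E.len_of_P h.2.2.2.1]

theorem exists_walk (ha : D.IsApt a) (ha' : D'.IsApt a') {l : List B} {x z : C} {g : C → C'}
    (hc : D.Canon D' a a' x g) (hz : D.δ z x = (E.wp l)⁻¹)
    (hl : E.len ((E.wp l)⁻¹ * D.δ x (a 1)) = l.length + E.len (D.δ x (a 1))) :
    ∃ h, D.Walk D' a a' l (x, g) (z, h) := by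
  induction l generalizing x g with
  | nil => exact ⟨g, by rw [D.eq_of_δ z x (by simpa using hz)]; rfl⟩
  | cons k l ih =>
    rw [E.wp_cons, mul_inv_rev, E.s_inv] at hz hl
    obtain ⟨x1, e1, e2⟩ := D.exists_mid hz
    have h1 := E.len_mul_le (E.wp l)⁻¹ (E.s k * D.δ x (a 1))
    have h2 := E.len_wp_le l
    rw [mul_assoc, List.length_cons] at hl
    rw [E.len_inv] at h1
    obtain ⟨f1, s⟩ := step_exists ha ha' hc e2 (E.P_iff.2 (by omega))
    obtain ⟨h, w⟩ := ih s.2.1 e1 (by rw [s.len_eq, s.δ_eq]; omega)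
    exact ⟨h, (x1, f1), s, w⟩

variable (D D' a a') in
/-- the germ `g` at `x` is obtained from `f` along a walk -/
def Reach (f : C → C') (x : C) (g : C → C') : Prop := ∃ l, D.Walk D' a a' l (a 1, f) (x, g)

section reach

variable (ha : D.IsApt a) (ha' : D'.IsApt a') {f : C → C'} (hc : D.Canon D' a a' (a 1) f)
include ha ha' hc

theorem exists_reach (x : C) : ∃ g, D.Reach D' a a' f x g := by
  obtain ⟨l, hl, e⟩ := E.exists_red (D.δ (a 1) x)
  obtain ⟨g, w⟩ := exists_walk ha ha' (l := l) (z := x) hc (by rw [D.δ_symm, e])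
    (by rw [D.δ_self, mul_one, E.len_inv, E.len_one]; exact hl)
  exact ⟨g, l, w⟩

omit [Finite W] ha ha' hc in
theorem Reach.step {k : B} {x x₁ : C} {g g₁ : C → C'} (h : D.Reach D' a a' f x g) (s : D.Step D' a a' k x g x₁ g₁) :
    D.Reach D' a a' f x₁ g₁ := let ⟨l, w⟩ := h; ⟨l ++ [k], walk_concat.2 ⟨(x, g), w, s⟩⟩

omit [Finite W] ha ha' hc in
theorem Reach.cases {x : C} {g : C → C'} (h : D.Reach D' a a' f x g) :
    x = a 1 ∧ g = f ∨ ∃ k y h, D.Reach D' a a' f y h ∧ D.Step D' a a' k y h x g := by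
  obtain ⟨l, w⟩ := h
  rcases List.eq_nil_or_concat' l with rfl | ⟨l, k, rfl⟩
  · exact Or.inl (Prod.mk.inj (show _ = _ from w).symm)
  · obtain ⟨r, w, s⟩ := walk_concat.1 w
    exact Or.inr ⟨k, r.1, r.2, ⟨l, w⟩, s⟩

theorem Reach.unique {x : C} {g g' : C → C'} (h : D.Reach D' a a' f x g) (h' : D.Reach D' a a' f x g') :
    D.Eq2 x g g' := by
  obtain ⟨n, hn⟩ : ∃ n, E.len (D.δ x (a 1)) = n := ⟨_, rfl⟩
  induction n using Nat.strong_induction_on generalizing x g g' with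
  | h n ih =>
  have key : ∀ {k y y' h h' g g'}, D.Reach D' a a' f y h → D.Reach D' a a' f y' h' → D.Step D' a a' k y h x g →
      D.Step D' a a' k y' h' x g' → D.Eq2 x g g' := fun {k y y' h h' g g'} r r' s s' => by
    obtain rfl : y = y' := D.mid_unique (by rw [E.len_of_P s.2.2.2.1, E.len_s, add_comm]) s.2.2.1 rfl s'.2.2.1
      (mul_left_cancel (s'.δ_eq.symm.trans s.δ_eq))
    exact step_unique s s' (ih _ (by have := s.len_eq; omega) r r' rfl)
  rcases h.cases with ⟨rfl, rfl⟩ | ⟨s, y, g1, r, st⟩ <;> rcases h'.cases with ⟨e, rfl⟩ | ⟨t, y', g2, r', st'⟩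
  · exact fun _ _ _ _ => rfl
  · have := st'.len_eq
    rw [D.δ_self, E.len_one] at this
    omega
  · have := st.len_eq
    rw [e, D.δ_self, E.len_one] at this
    omega
  by_cases hst : s = t
  · subst hst
    exact key r r' st st'
  obtain ⟨v, hv, d, hd, e⟩ := exists_left_min E {s, t} (D.δ x (a 1))
  obtain rfl : v = lng E {s, t} := eq_lng E hv fun j hj hP => by
    rw [← P_mul_iff E hv hd hj, ← e] at hP
    rcases hj with rfl | rfl
    exacts [E.P_not _ _ st.2.2.2.1 (st.δ_eq ▸ hP), E.P_not _ _ st'.2.2.2.1 (st'.δ_eq ▸ hP)]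
  obtain ⟨x0, e1, e2⟩ := D.exists_mid e
  obtain ⟨f0, l0, w0⟩ := exists_reach ha ha' hc x0
  have lift : ∀ p q, p ≠ q → ({p, q} : Set B) = {s, t} → ∃ h, D.Walk D' a a' (alt p q (E.mat p q)) (x0, f0) (x, h) :=
    fun p q hn e3 => by
      have e4 : (E.wp (alt p q (E.mat p q)))⁻¹ = lng E {s, t} := by rw [← lng_pair E hn, lng_inv, e3]
      refine exists_walk ha ha' (w0.canon hc) (e1.trans e4.symm) ?_
      rw [e4, e2, len_mul_of_P E hv hd, ← e4, E.len_inv, FH.red_alt E (E.mat p q) p q le_rfl]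
  obtain ⟨h1, w1⟩ := lift s t hst rfl
  obtain ⟨h2, w2⟩ := lift t s (Ne.symm hst) (Set.pair_comm _ _)
  rw [mat_comm] at w2
  have b := braid ha ha' hst w1 w2 rfl
  obtain ⟨m, hm⟩ := Nat.exists_eq_succ_of_ne_zero (orderOf_pos (E.s s * E.s t)).ne'
  rw [E.mat_apply, hm, Nat.succ_eq_add_one, alt_succ_right, walk_concat] at w1 w2
  obtain ⟨r1, w1, s1⟩ := w1
  obtain ⟨r2, w2, s2⟩ := w2
  have q1 : D.Reach D' a a' f r1.1 r1.2 := ⟨_, walk_append.2 ⟨_, w0, w1⟩⟩
  have q2 : D.Reach D' a a' f r2.1 r2.2 := ⟨_, walk_append.2 ⟨_, w0, w2⟩⟩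
  split_ifs at s1 s2
  · exact fun i j z hz => (key r q1 st s1 i j z hz).trans ((b i j z hz).trans (key q2 r' s2 st' i j z hz))
  · exact fun i j z hz => (key r q2 st s2 i j z hz).trans ((b i j z hz).symm.trans (key q1 r' s1 st' i j z hz))

omit hc in
theorem canon_base [Nonempty B] (hf : D.Loc D' (a 1) f) (h : ∀ i j, ∀ w ∈ E.par {i, j}, f (a w) = a' w) :
    D.Canon D' a a' (a 1) f := by
  refine ⟨hf, by rw [h (Classical.arbitrary B) (Classical.arbitrary B) 1 (one_mem _), D.δ_self, D'.δ_self], ?_⟩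
  rw [D.δ_self, inv_one, one_mul]
  refine ⟨by rw [ha, inv_one, one_mul], fun i j z hz => ?_⟩
  have hp : a (lng E {i, j}) ∈ D.R {i, j} (a 1) := ha.mem_R.2 (by simpa using lng_mem E _)
  have e : D.δ (a (lng E {i, j})) (a (w0 E)) = lng E {i, j} * w0 E := by rw [ha, lng_inv]
  have e' : D'.δ (f (a (lng E {i, j}))) (a' (w0 E)) = lng E {i, j} * w0 E := by
    rw [h i j _ (lng_mem E _), ha', lng_inv]
  rw [D.δ_gate (fun k hk => e ▸ P_lng_mul_w0 E hk) (D.R_eq hp ▸ hz),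
    D'.δ_gate (fun k hk => e' ▸ P_lng_mul_w0 E hk) (z := f z)
      (by rw [mem_R, (hf i j).1 _ hp z hz]; exact D.δ_mem_par hp hz), e, e', (hf i j).1 z hz _ hp]

end reach

/-- the extension theorem of Tits -/
theorem ext [Nonempty B] (ha : D.IsApt a) (ha' : D'.IsApt a') {f : C → C'} (hf : D.Loc D' (a 1) f)
    (h : ∀ i j, ∀ w ∈ E.par {i, j}, f (a w) = a' w) :
    ∃ φ : C ≃ C', (∀ x y, D'.δ (φ x) (φ y) = D.δ x y) ∧ D.Eq2 (a 1) φ f ∧ ∀ w, φ (a w) = a' w := by
  have hc := canon_base ha ha' hf h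
  choose F hF using exists_reach ha ha' hc
  have cF : ∀ x, D.Canon D' a a' x (F x) := fun x => let ⟨_, w⟩ := hF x; w.canon hc
  have adj : ∀ k y z, D.δ z y = E.s k → E.P k (D.δ y (a 1)) → D.Adj k y (F y) (F z) := fun k y z e hP l u hu => by
    obtain ⟨f1, s⟩ := step_exists ha ha' (cF y) e hP
    exact (s.2.2.2.2 l u hu).trans (((hF y).step s).unique ha ha' hc (hF z) k l u
      (D.R_eq (mem_pair_left l (mem_R_of_δ e)) ▸ hu))
  have pan : ∀ k x, ∀ z ∈ D.R {k} x, F z z = F x z := fun k x z hz => by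
    obtain ⟨p, hp, e⟩ := D.exists_gate {k} x (a 1)
    have k1 : ∀ u ∈ D.R {k} x, F p z = F u z := fun u hu => by
      rcases D.mem_R_singleton.1 (D.R_eq hu ▸ hp) with rfl | e1
      exacts [rfl, adj k p u e1 (e k rfl) k z (mem_pair_left k (D.R_eq hp ▸ hz))]
    exact (k1 z hz).symm.trans (k1 x (D.self_mem_R _ _))
  have iso : ∀ x y, D'.δ (F x x) (F y y) = D.δ x y := fun x y => by
    obtain ⟨v, hv⟩ : ∃ v, D.δ x y = v := ⟨_, rfl⟩
    rw [hv]
    induction v using E.induction_red_left generalizing x with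
    | h1 => rw [D.eq_of_δ x y hv, D'.δ_self]
    | hs k w hP ih =>
      obtain ⟨z, e1, e2⟩ := D.exists_mid hv
      have hz := D.mem_R_singleton.2 (Or.inr e1)
      rw [← ih z e2] at hP ⊢
      exact D'.δ_P k _ _ _ (by
        rw [pan k x z hz, ((cF x).1 k k).1 _ (D.self_mem_R _ _) _ (mem_pair_left k hz), e1]) hP
  have sur : Function.Surjective fun x => F x x := fun y' => by
    obtain ⟨v, hv⟩ : ∃ v, D'.δ (F (a 1) (a 1)) y' = v := ⟨_, rfl⟩
    induction v using E.induction_right generalizing y' with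
    | h1 => exact ⟨a 1, D'.eq_of_δ _ _ hv⟩
    | hs k w ih =>
      obtain ⟨z', e1, e2⟩ := D'.exists_mid hv
      obtain ⟨x, rfl⟩ := ih z' e1
      obtain ⟨u, hu, rfl⟩ := ((cF x).1 k k).2 y' (mem_pair_left k (D'.mem_R_singleton.2 (Or.inr e2)))
      exact ⟨u, pan k x u (by rwa [Set.pair_eq_singleton] at hu)⟩
  refine ⟨Equiv.ofBijective _ ⟨fun x y e => D.eq_of_δ x y (by rw [← iso, show F x x = F y y from e, D'.δ_self]), sur⟩,
    iso, fun i j z hz => ?_, fun w => ?_⟩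
  · refine D.R_induction (p := fun z => ∀ u ∈ D.R {i, j} (a 1), F z u = f u)
      ((hF (a 1)).unique ha ha' hc ⟨[], rfl⟩ i j) (fun y hy k hk z e hl ih u hu => ?_) z hz z hz
    obtain ⟨l, e1⟩ := exists_pair hk
    have e2 : D.δ z y = E.s k := by rw [D.δ_symm, e, E.s_inv]
    rw [← E.len_inv, ← D.δ_symm, ← E.len_inv (D.δ _ z), ← D.δ_symm] at hl
    refine (adj k y z e2 ?_ l u (by rw [e1, D.R_eq hy]; exact hu)).symm.trans (ih u hu)
    rcases D.δ_or k z y (a 1) e2 with e3 | e3 <;> rw [e3] at hl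
    exacts [E.P_iff.2 hl, absurd hl (lt_irrefl _)]
  · change F (a w) (a w) = a' w
    induction w using E.induction_right with
    | h1 => exact D'.eq_of_δ _ _ ((cF _).2.1.trans (D.δ_self _))
    | hs k v ih =>
      have hz : a (v * E.s k) ∈ D.R {k} (a v) := ha.mem_R.2 (by simpa using E.s_mem_par (J := {k}) rfl)
      have c := (cF (a v)).2.2.2 k k _ (mem_pair_left k hz)
      have e : (v * E.s k)⁻¹ * ((v⁻¹ * 1)⁻¹ * w0 E) = E.s k * w0 E := by
        rw [mul_inv_rev, E.s_inv]; group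
      rw [← pan k _ _ hz, ha, ha, e] at c
      refine D'.gate_unique (J := {k}) (y := a' ((v⁻¹ * 1)⁻¹ * w0 E)) ?_ ?_ (D'.R_trans (y := a' v) ?_ ?_)
      · rintro _ rfl
        rw [ha', e]
        exact P_s_mul_w0 _
      · rintro _ rfl
        rw [c]
        exact P_s_mul_w0 _
      · exact ha'.mem_R.2 (by simpa [E.s_inv] using E.s_mem_par (J := {k}) rfl)
      · rw [← ih, mem_R, iso]
        exact hz

end Bld

end CfsgLib.Tits
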