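import Cfsg.Agent.Lib.Tits.Mou

/-!
# Package RG2: the root group datum of a building (see `plans/TITS.md`)
-/

set_option autoImplicit false

namespace CfsgLib.Tits
open Cfsg CfsgLib.BN
open scoped commutatorElement

namespace Bld
variable {B W : Type*} [Group W] [Finite W] {E : ExchSys B W} {C : Type*} {D : Bld E C} {a : W → C}

omit [Finite W] in
theorem apt_adj (ha : D.IsApt a) (w : W) (i : B) : D.δ (a w) (a (w * E.s i)) = E.s i := by
  rw [ha, inv_mul_cancel_left]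

omit [Finite W] in
theorem apt_mem_panel (ha : D.IsApt a) (w : W) (i : B) : a (w * E.s i) ∈ D.R {i} (a w) :=
  D.mem_R_singleton.2 (Or.inr (apt_adj ha w i))

omit [Finite W] in
theorem aut_stab {g : Equiv.Perm C} (hg : g ∈ D.Aut) {J : Set B} {x y z : C} (hy : y ∈ D.R J x) (h : g y = y)
    (hz : z ∈ D.R J x) : g z ∈ D.R J x := by
  rw [← D.R_eq hy, ← h, D.aut_mem_R hg, D.R_eq hy]
  exact hz

/-- a root group acts semiregularly on a panel of the wall -/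
theorem ug_semireg (hd : Dia E.mat) (ha : D.IsApt a) {w : W} {i : B} {g : Equiv.Perm C} (hg : g ∈ D.UG a (rt E w i))
    {z : C} (hz : D.δ (a w) z = E.s i) (h : g z = z) : g = 1 := by
  wlog hw : w = 1 generalizing a w
  · exact this (ha.mul w) (w := 1) (by rwa [D.UG_mul, mul_one]) (by simpa using hz) rfl
  subst hw
  obtain ⟨a1, h1, h2, h3⟩ := exists_apt ha hz
  obtain ⟨v, hv, hv'⟩ := exists_deep E hd i
  have h4 := (D.act_of_opp h1 hg.1 (v := 1) (x := E.s i) (by rw [one_mul, h2, h]) (by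
    rw [one_mul, h3 _ (P_s_mul_w0 i)]; exact hg.2.1 _ ((mem_rt_one E).2 (P_s_mul_w0 i)))).2
  refine aut_eq_one (x := a1 v) (y := a1 (v * w0 E)) hg.1 (fun k => ?_) (by rw [h4, one_mul])
    (by rw [h1, inv_mul_cancel_left]) (by rw [h4, one_mul])
  rw [h3 v hv]
  refine hg.2.2 v k ((mem_rt_one E).2 hv) ?_
  by_contra hn
  exact hv' k k (by simpa using refl_mem_par E (J := {k, k}) (E.s_mem_par (by simp)) ((mem_rt_one E).2 hv) hn)

theorem ug_move (hd : Dia E.mat) (ha : D.IsApt a) {w : W} {i : B} {u : Equiv.Perm C} (hu : u ∈ D.UG a (rt E w i))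
    (h1 : u ≠ 1) : D.δ (a (w * E.s i)) (u (a (w * E.s i))) = E.s i :=
  (D.mem_R_singleton.1 (D.R_eq (apt_mem_panel ha w i) ▸ aut_stab hu.1 (D.self_mem_R _ _)
    (hu.2.1 w (self_mem_rt E w i)) (apt_mem_panel ha w i))).resolve_left
    fun e => h1 (ug_semireg hd ha hu (apt_adj ha w i) e)

theorem ug_mu (hd : Dia E.mat) (ha : D.IsApt a) (w : W) (i : B) {u : Equiv.Perm C} (hu : u ∈ D.UG a (rt E w i))
    (h1 : u ≠ 1) : ∃ p ∈ D.UG a (rt E (w * E.s i) i), ∃ q ∈ D.UG a (rt E (w * E.s i) i),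
      D.Act a (p * u * q) (w * E.s i * w⁻¹) := by
  obtain ⟨p, hp, e1⟩ := ug_trans hd ha _ i (ug_move hd ha hu h1)
  obtain ⟨q, hq, e2⟩ := ug_trans hd ha _ i (ug_move hd ha (inv_mem hu) (inv_ne_one.2 h1))
  rw [E.mul_s_mul_s] at e1 e2
  replace hp := inv_mem hp
  have hm : p⁻¹ * u * q ∈ D.Aut := mul_mem (mul_mem hp.1 hu.1) hq.1
  have e3 : (p⁻¹ * u * q) (a (w * E.s i)) = a w := by
    rw [Equiv.Perm.mul_apply, Equiv.Perm.mul_apply, hq.2.1 _ (self_mem_rt E _ i), ← e1]; simp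
  refine ⟨_, hp, q, hq, D.act_of_opp ha hm (x := w) ?_ ?_⟩ <;> rw [inv_mul_cancel_right]
  · rw [Equiv.Perm.mul_apply, Equiv.Perm.mul_apply, e2]
    simpa using hp.2.1 _ (self_mem_rt E _ i)
  have m1 : w * w0 E ∈ rt E (w * E.s i) i := by
    rw [mul_w0_mem_rt, rt_mul_s]; exact fun h => h (self_mem_rt E w i)
  have m2 : w * E.s i * w0 E ∈ rt E w i := (mul_w0_mem_rt E).2 (mul_s_not_mem_rt E w i)
  have m3 : a (w * w0 E) ∈ D.R {op E i} (a (w * E.s i * w0 E)) := by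
    rw [mul_assoc, s_mul_w0, ← mul_assoc]
    exact D.R_symm (apt_mem_panel ha _ _)
  have k1 : ∀ p, D.δ (a w) p = E.s i * w0 E → ∀ j ∈ ({op E i} : Set B), E.P j (D.δ p (a w)) := by
    rintro p e _ rfl
    rw [D.δ_symm, e, mul_inv_rev, w0_inv, E.s_inv, ← op_op E i, ← s_mul_w0, op_op]
    exact P_s_mul_w0 _
  refine D.gate_unique (k1 _ (by rw [ha]; group)) (k1 _ ?_)
    (aut_stab hp.1 m3 (hp.2.1 _ m1) (aut_stab hu.1 (D.self_mem_R _ _) (hu.2.1 _ m2)
      (aut_stab hq.1 m3 (hq.2.1 _ m1) m3)))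
  nth_rewrite 1 [← e3]
  rw [hm, ha, mul_inv_rev, E.s_inv]
  group

omit [Finite W] in
/-- a commutator fixes the panels of a chamber in both roots -/
theorem comm_fix {w w' y : W} {i j : B} {u v : Equiv.Perm C} (hu : u ∈ D.UG a (rt E w i))
    (hv : v ∈ D.UG a (rt E w' j)) (hr : w * E.s i * w⁻¹ ≠ w' * E.s j * w'⁻¹) (h : y ∈ rt E w i) (h' : y ∈ rt E w' j)
    (k : B) : ∀ z ∈ D.R {k} (a y), ⁅u, v⁆ z = z := fun z hz => by
  have key : ∀ {u v : Equiv.Perm C} {α β}, u ∈ D.UG a α → v ∈ D.UG a β → y ∈ α → y ∈ β → y * E.s k ∈ α →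
      ⁅u, v⁆ z = z := fun {u v α β} hu hv h h' e => by
    have h1 := aut_stab (inv_mem hv).1 (D.self_mem_R _ _) ((inv_mem hv).2.1 y h') hz
    simp only [commutatorElement_def, Equiv.Perm.mul_apply]
    rw [(inv_mem hu).2.2 y k h e _ h1]
    simpa using hu.2.2 y k h e z hz
  by_cases e : y * E.s k ∈ rt E w i
  · exact key hu hv h h' e
  by_cases e' : y * E.s k ∈ rt E w' j
  · rw [← commutatorElement_inv, Equiv.Perm.inv_eq_iff_eq, key hv hu h' h e']
  · exact absurd ((refl_eq_of_wall E h e).symm.trans (refl_eq_of_wall E h' e')) hr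

variable (D a) in
/-- the automorphisms that fix the panels of the base chamber and the chamber opposite `a w_J` -/
def NP (J : Set B) : Subgroup (Equiv.Perm C) where
  carrier := {g | g ∈ D.Aut ∧ g (a (lng E J * w0 E)) = a (lng E J * w0 E) ∧ ∀ k, ∀ z ∈ D.R {k} (a 1), g z = z}
  mul_mem' {g h} hg hh := ⟨mul_mem hg.1 hh.1, by simp [hh.2.1, hg.2.1],
    fun k z hz => by simp [hh.2.2 k z hz, hg.2.2 k z hz]⟩
  one_mem' := ⟨one_mem _, rfl, fun _ _ _ => rfl⟩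
  inv_mem' {g} hg := ⟨inv_mem hg.1, Equiv.Perm.inv_eq_iff_eq.2 hg.2.1.symm,
    fun k z hz => Equiv.Perm.inv_eq_iff_eq.2 (hg.2.2 k z hz).symm⟩

theorem lng_w0_mem_rt {J : Set B} {y : W} {k : B} (hy : y ∈ E.par J) (hk : k ∈ J) (h : (1 : W) ∈ rt E y k) :
    lng E J * w0 E ∈ rt E y k := by
  rw [mul_w0_mem_rt, mem_rt, P_mul_lng E (inv_mem hy) hk, not_not]
  rwa [mem_rt, mul_one] at h

theorem comm_mem_NP {J : Set B} {w w' : W} {i j : B} {u v : Equiv.Perm C} (hu : u ∈ D.UG a (rt E w i))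
    (hv : v ∈ D.UG a (rt E w' j)) (hr : w * E.s i * w⁻¹ ≠ w' * E.s j * w'⁻¹) (h : (1 : W) ∈ rt E w i)
    (h' : (1 : W) ∈ rt E w' j) (hw : w ∈ E.par J) (hi : i ∈ J) (hw' : w' ∈ E.par J) (hj : j ∈ J) :
    ⁅u, v⁆ ∈ D.NP a J := by
  refine ⟨mul_mem (mul_mem (mul_mem hu.1 hv.1) (inv_mem hu.1)) (inv_mem hv.1), ?_, comm_fix hu hv hr h h'⟩
  have h1 := lng_w0_mem_rt hw hi h
  have h2 := lng_w0_mem_rt hw' hj h'
  simp only [commutatorElement_def, Equiv.Perm.mul_apply, hu.2.1 _ h1, hv.2.1 _ h2, (inv_mem hu).2.1 _ h1,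
    (inv_mem hv).2.1 _ h2]

theorem UG_le_NP {J : Set B} {i j : B} (h : 3 ≤ E.mat j i) (hi : i ∈ J) (hj : j ∈ J) :
    D.UG a (rt E (E.s i) j) ≤ D.NP a J := fun g hg => by
  have hn : i ≠ j := (ne_of_mat E (by omega)).symm
  refine ⟨hg.1, hg.2.1 _ (lng_w0_mem_rt (E.s_mem_par hi) hj (one_mem_rt_s E hn)),
    fun k => hg.2.2 1 k (one_mem_rt_s E hn) ?_⟩
  rw [mem_rt, one_mul, E.s_inv]
  by_cases e : j = k
  · exact e ▸ P_s_s' E h
  · exact P_of_not_mem E (J := {i, k}) (mul_mem (E.s_mem_par (by simp)) (E.s_mem_par (by simp))) (by simp [e, hn.symm])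

theorem eq_one_of_NP [Nonempty B] (ha : D.IsApt a) {J : Set B} {g : Equiv.Perm C} (hg : g ∈ D.NP a J) {x : W}
    (hx : x ∈ E.par J) (h1 : g (a x) = a x) (h2 : g (a (x * lng E J)) = a (x * lng E J)) : g = 1 := by
  have h3 := D.aut_fix_mid hg.1 (y := a (lng E J)) h1 h2 (by
    rw [ha, ha, ha, inv_mul_cancel_left, lng_inv, ← mul_assoc, len_conj_lng E hx, len_lng E hx, add_comm])
  have h4 := (D.act_of_opp ha hg.1 (v := 1) (x := lng E J) (by rwa [one_mul]) (by rw [one_mul]; exact hg.2.1)).2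
  exact aut_eq_one (x := a 1) (y := a (w0 E)) hg.1 hg.2.2 (by rw [h4, one_mul]) (by rw [ha, inv_one, one_mul])
    (by rw [h4, one_mul])

omit [Finite W] in
theorem NP_fix (ha : D.IsApt a) {J : Set B} {g : Equiv.Perm C} (hg : g ∈ D.NP a J) (k : B) :
    g (a (E.s k)) = a (E.s k) := hg.2.2 k _ (by simpa using apt_mem_panel ha 1 k)

theorem exists_correct (hd : Dia E.mat) (ha : D.IsApt a) {g : Equiv.Perm C} (hg : g ∈ D.Aut) {w : W}
    (h : g (a w) = a w) (j : B) : ∃ y ∈ D.UG a (rt E w j), (y⁻¹ * g) (a (w * E.s j)) = a (w * E.s j) := by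
  obtain ⟨y, hy, e⟩ := ug_trans hd ha w j (z := g (a (w * E.s j))) (by
    nth_rewrite 1 [← h]
    rw [hg, apt_adj ha])
  exact ⟨y, hy, by rw [Equiv.Perm.mul_apply, ← e]; simp⟩

theorem comm_adj (hd : Dia E.mat) (ha : D.IsApt a) {i j : B} (h : i ≠ j) {u v : Equiv.Perm C}
    (hu : u ∈ D.UG a (rt E 1 i)) (hv : v ∈ D.UG a (rt E (E.s i) j)) : Commute u v := by
  have : Nonempty B := ⟨i⟩
  have hr : 1 * E.s i * 1⁻¹ ≠ E.s i * E.s j * (E.s i)⁻¹ := fun e => h (E.inj (by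
    rw [one_mul, inv_one, mul_one, eq_mul_inv_iff_mul_eq, mul_right_inj] at e; exact e))
  have hg := comm_mem_NP (J := {i, j}) hu hv hr (self_mem_rt E 1 i) (one_mem_rt_s E h) (one_mem _) (by simp)
    (E.s_mem_par (by simp)) (by simp)
  obtain ⟨y, k, h1, h2, e⟩ : ∃ y k, E.P i y ∧ E.P j (E.s i * y) ∧ E.s i * lng E {i, j} = y * E.s k := by
    rcases hd.mem i j h with m | m | m
    · exact ⟨1, j, E.P_one i, by simpa using P_s E h.symm, by rw [lng_two E m, E.s_mul_s_mul, one_mul]⟩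
    · exact ⟨E.s j, i, P_s E h, P_s_s' E (mat_comm E i j ▸ m.ge), by
        simp only [lng_three E m, mul_assoc, E.s_mul_s_mul]⟩
    · exact ⟨E.s j * E.s i, j, P_s_s' E (by omega), by simpa only [mul_assoc] using P_s_s_s E (mat_comm E i j ▸ m), by
        simp only [lng_four E m, mul_assoc, E.s_mul_s_mul]⟩
  exact commutatorElement_eq_one_iff_commute.1 (eq_one_of_NP ha hg (E.s_mem_par (i := i) (by simp)) (NP_fix ha hg i)
    (e ▸ comm_fix hu hv hr ((mem_rt_one E).2 h1) (by rwa [mem_rt, E.s_inv]) k _ (apt_mem_panel ha y k)))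

theorem comm_simple {i j : B} (h : i ≠ j) {u v : Equiv.Perm C} (hu : u ∈ D.UG a (rt E 1 i))
    (hv : v ∈ D.UG a (rt E 1 j)) : ⁅u, v⁆ ∈ D.NP a {i, j} :=
  comm_mem_NP hu hv (fun e => h (E.inj (by simpa using e))) (self_mem_rt E 1 i) (self_mem_rt E 1 j) (one_mem _)
    (by simp) (one_mem _) (by simp)

theorem comm3 (hd : Dia E.mat) (ha : D.IsApt a) {i j : B} (m : E.mat i j = 3) {u v : Equiv.Perm C}
    (hu : u ∈ D.UG a (rt E 1 i)) (hv : v ∈ D.UG a (rt E 1 j)) : ⁅u, v⁆ ∈ D.UG a (rt E (E.s i) j) := by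
  have : Nonempty B := ⟨i⟩
  have hg := comm_simple (ne_of_mat E (by omega)) hu hv
  obtain ⟨y, hy, e⟩ := exists_correct hd ha hg.1 (NP_fix ha hg i) j
  have h1 := mul_mem (inv_mem (UG_le_NP (mat_comm E i j ▸ m.ge) (by simp) (by simp) hy)) hg
  exact inv_mul_eq_one.1 (eq_one_of_NP ha h1 (E.s_mem_par (i := j) (by simp)) (NP_fix ha h1 j) (by
    rwa [lng_three E m, braid3 E m, mul_assoc, E.s_mul_s_mul])) ▸ hy

theorem comm13 (hd : Dia E.mat) (ha : D.IsApt a) {i j : B} (m : E.mat i j = 4) {u v : Equiv.Perm C}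
    (hu : u ∈ D.UG a (rt E 1 i)) (hv : v ∈ D.UG a (rt E (E.s j) i)) : ⁅u, v⁆ ∈ D.UG a (rt E (E.s i) j) := by
  have : Nonempty B := ⟨i⟩
  have h : i ≠ j := ne_of_mat E (by omega)
  have hr : 1 * E.s i * 1⁻¹ ≠ E.s j * E.s i * (E.s j)⁻¹ := fun e => by
    rw [one_mul, inv_one, mul_one, eq_mul_inv_iff_mul_eq, ← mat_eq_two_iff E h] at e
    omega
  have hg := comm_mem_NP (J := {i, j}) hu hv hr (self_mem_rt E 1 i) (one_mem_rt_s E h.symm) (one_mem _) (by simp)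
    (E.s_mem_par (by simp)) (by simp)
  obtain ⟨y, hy, e⟩ := exists_correct hd ha hg.1 (NP_fix ha hg i) j
  have h1 := mul_mem (inv_mem (UG_le_NP (by rw [mat_comm]; omega) (by simp) (by simp) hy)) hg
  refine inv_mul_eq_one.1 (eq_one_of_NP ha h1 (x := E.s j * E.s i)
    (mul_mem (E.s_mem_par (by simp)) (E.s_mem_par (by simp))) ?_ ?_) ▸ hy
  · rw [Equiv.Perm.mul_apply, comm_fix hu hv hr ((mem_rt_one E).2 (P_s E h)) (self_mem_rt E _ i) i _
      (apt_mem_panel ha _ i)]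
    refine (inv_mem hy).2.1 _ ?_
    rw [mem_rt, E.s_inv, ← mul_assoc]
    exact P_s_s_s E (mat_comm E i j ▸ m)
  · simpa only [lng_four E m, mul_assoc, E.s_mul_s_mul] using e

theorem comm14 (hd : Dia E.mat) (ha : D.IsApt a) {i j : B} (m : E.mat i j = 4) {u v : Equiv.Perm C}
    (hu : u ∈ D.UG a (rt E 1 i)) (hv : v ∈ D.UG a (rt E 1 j)) :
    ∃ y ∈ D.UG a (rt E (E.s i) j), ∃ z ∈ D.UG a (rt E (E.s j) i), ⁅u, v⁆ = y * z := by
  have : Nonempty B := ⟨i⟩
  have hg := comm_simple (ne_of_mat E (by omega)) hu hv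
  obtain ⟨y, hy, e⟩ := exists_correct hd ha hg.1 (NP_fix ha hg i) j
  have h1 := mul_mem (inv_mem (UG_le_NP (by rw [mat_comm]; omega) (by simp) (by simp) hy)) hg
  obtain ⟨z, hz, e'⟩ := exists_correct hd ha h1.1 e i
  rw [← one_mul (E.s i), rt_four E m, one_mul] at hz
  have h2 := mul_mem (inv_mem (UG_le_NP (by omega) (by simp) (by simp) hz)) h1
  have h3 := eq_one_of_NP ha h2 (E.s_mem_par (i := j) (by simp)) (NP_fix ha h2 j) (by
    rw [lng_four E m, braid4 E m]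
    simpa only [mul_assoc, E.s_mul_s_mul] using e')
  exact ⟨y, hy, z, hz, by rw [inv_mul_eq_one.1 h3, mul_inv_cancel_left]⟩

/-- the root group datum -/
theorem exists_rg (hd : Dia E.mat) (ha : D.IsApt a) :
    ∃ R : RG E (Equiv.Perm C), R.U = D.UG a ∧ R.Act = D.Act a := by
  have tr : ∀ w i, D.UG a (rt E w i) = D.UG (fun x => a (w * x)) (rt E 1 i) := fun w i => by rw [D.UG_mul, mul_one]
  refine ⟨{
    U := D.UG a
    Act := D.Act a
    act_one := ⟨one_mem _, fun x => by rw [one_mul]; rfl⟩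
    act_mul := fun h h' => ⟨mul_mem h.1 h'.1, fun x => by rw [Equiv.Perm.mul_apply, h'.2, h.2, mul_assoc]⟩
    act_inv := fun h => ⟨inv_mem h.1, fun x => by rw [Equiv.Perm.inv_eq_iff_eq, h.2, mul_inv_cancel_left]⟩
    conj := fun h _ _ _ hu => h.conj hu
    nontriv := fun w i => ?_
    mu_ex := fun w i u hu h1 => ug_mu hd ha w i hu h1
    mu_uniq := fun w i u hu h1 p hp q hq p' hp' q' hq' h h' => ?_
    sep := fun w i u hu h => ug_semireg hd ha hu (apt_adj ha w i) ?_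
    comm_adj := fun w i j h u hu v hv => comm_adj hd (ha.mul w) h (tr w i ▸ hu) (D.UG_mul w _ _ ▸ hv)
    comm3 := fun w i j m u hu v hv => D.UG_mul w _ _ ▸ comm3 hd (ha.mul w) m (tr w i ▸ hu) (tr w j ▸ hv)
    comm13 := fun w i j m u hu v hv => D.UG_mul w _ _ ▸ comm13 hd (ha.mul w) m (tr w i ▸ hu) (D.UG_mul w _ _ ▸ hv)
    comm14 := fun w i j m u hu v hv => by
      simpa only [D.UG_mul] using comm14 hd (ha.mul w) m (tr w i ▸ hu) (tr w j ▸ hv) }, rfl, rfl⟩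
  · obtain ⟨z, h1, h2, h3⟩ := D.thick i (a w) (a w) (a (w * E.s i))
    obtain ⟨g, hg, e⟩ := ug_trans hd ha w i ((D.mem_R_singleton.1 h1).resolve_left h2)
    exact ⟨g, hg, by rintro rfl; exact h3 e.symm⟩
  · have m := self_mem_rt E (w * E.s i) i
    have k1 : ∀ {p q}, q ∈ D.UG a (rt E (w * E.s i) i) → D.Act a (p * u * q) (w * E.s i * w⁻¹) →
        p (u (a (w * E.s i))) = a w := fun {p q} hq h => by
      have e := h.2 (w * E.s i)
      rwa [Equiv.Perm.mul_apply, Equiv.Perm.mul_apply, hq.2.1 _ m, mul_assoc _ w⁻¹, inv_mul_cancel_left,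
        E.mul_s_mul_s] at e
    have k2 : ∀ {p q}, p ∈ D.UG a (rt E (w * E.s i) i) → D.Act a (p * u * q) (w * E.s i * w⁻¹) →
        u (q (a w)) = a (w * E.s i) := fun {p q} hp h => by
      have e := h.2 w
      rw [Equiv.Perm.mul_apply, Equiv.Perm.mul_apply, inv_mul_cancel_right] at e
      exact p.injective (e.trans (hp.2.1 _ m).symm)
    refine ⟨inv_mul_eq_one.1 (ug_semireg hd ha (mul_mem (inv_mem hp) hp') (ug_move hd ha hu h1) ?_),
      inv_mul_eq_one.1 (ug_semireg hd ha (mul_mem (inv_mem hq) hq') (z := a w) ?_ ?_)⟩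
    · rw [Equiv.Perm.mul_apply, k1 hq' h', Equiv.Perm.inv_eq_iff_eq, k1 hq h]
    · rw [D.δ_symm, apt_adj ha, E.s_inv]
    · rw [Equiv.Perm.mul_apply, Equiv.Perm.inv_eq_iff_eq]
      exact u.injective ((k2 hp' h').trans (k2 hp h).symm)
  · exact (Subgroup.closure_le (MulAction.stabilizer (Equiv.Perm C) (a (w * E.s i)))).2
      (by rintro g ⟨x, j, _, h2, hg⟩; exact hg.2.1 _ h2) h

end Bld

end CfsgLib.Tits
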