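import Mathlib
import Cfsg.Agent.Lib.Tits.RG2

/-!
# Package ISO: isomorphic foundations give isomorphic buildings (see `plans/TITS.md`)
-/

set_option autoImplicit false

namespace CfsgLib.Tits
open Cfsg CfsgLib.BN
open scoped commutatorElement

namespace Bld
variable {B W : Type*} [Group W] [Finite W] {E : ExchSys B W} {C C' : Type*} {D : Bld E C} {D' : Bld E C'}
  {a : W → C} {a' : W → C'}

namespace Ix

variable (D a) in
/-- the group generated by the root groups of the positive roots of `W_J` -/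
def UU (J : Set B) : Subgroup (Equiv.Perm C) :=
  Subgroup.closure {g | ∃ w ∈ E.par J, ∃ k ∈ J, (1 : W) ∈ rt E w k ∧ g ∈ D.UG a (rt E w k)}

variable {J : Set B}

omit [Finite W] in
theorem mem_UU {w : W} (hw : w ∈ E.par J) {k : B} (hk : k ∈ J) (h : (1 : W) ∈ rt E w k) {g : Equiv.Perm C}
    (hg : g ∈ D.UG a (rt E w k)) : g ∈ UU D a J := Subgroup.subset_closure ⟨w, hw, k, hk, h, hg⟩

omit [Finite W] in
theorem UU_aut {g : Equiv.Perm C} (hg : g ∈ UU D a J) : g ∈ D.Aut :=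
  (Subgroup.closure_le _).2 (by rintro _ ⟨_, _, _, _, _, h⟩; exact h.1) hg

omit [Finite W] in
theorem UU_fix {x : W} (h : ∀ w ∈ E.par J, ∀ k ∈ J, (1 : W) ∈ rt E w k → x ∈ rt E w k) {g : Equiv.Perm C}
    (hg : g ∈ UU D a J) : g (a x) = a x :=
  (Subgroup.closure_le (MulAction.stabilizer (Equiv.Perm C) (a x))).2
    (by rintro _ ⟨w, hw, k, hk, h1, h2⟩; exact h2.2.1 x (h w hw k hk h1)) hg

omit [Finite W] in
theorem UU_one {g : Equiv.Perm C} (hg : g ∈ UU D a J) : g (a 1) = a 1 := UU_fix (fun _ _ _ _ h => h) hg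

omit [Finite W] in
theorem δ_UU (ha : D.IsApt a) {g : Equiv.Perm C} (hg : g ∈ UU D a J) (w : W) : D.δ (a 1) (g (a w)) = w := by
  conv_lhs => rw [← UU_one hg, UU_aut hg, ha, inv_one, one_mul]

omit [Finite W] in
theorem UU_panel {g : Equiv.Perm C} (hg : g ∈ UU D a J) (r : B) :
    ∃ u ∈ D.UG a (rt E 1 r), ∀ z ∈ D.R {r} (a 1), g z = u z := by
  have k : ∀ u ∈ D.UG a (rt E 1 r), ∀ z ∈ D.R {r} (a 1), u z ∈ D.R {r} (a 1) := fun u hu z hz => by
    rwa [← hu.2.1 1 (self_mem_rt E 1 r), D.aut_mem_R hu.1]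
  induction hg using Subgroup.closure_induction with
  | mem g h =>
    obtain ⟨w, -, j, -, h1, h2⟩ := h
    by_cases e : 1 * E.s r ∈ rt E w j
    · exact ⟨1, one_mem _, h2.2.2 1 r h1 e⟩
    · exact ⟨g, (rt_eq_of_refl E (refl_eq_of_wall E h1 e) h1).symm ▸ h2, fun _ _ => rfl⟩
  | one => exact ⟨1, one_mem _, fun _ _ => rfl⟩
  | mul g h _ _ h1 h2 =>
    obtain ⟨u, hu, h1⟩ := h1
    obtain ⟨v, hv, h2⟩ := h2
    exact ⟨u * v, mul_mem hu hv, fun z hz => by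
      rw [Equiv.Perm.mul_apply, Equiv.Perm.mul_apply, h2 z hz, h1 _ (k v hv z hz)]⟩
  | inv g _ h =>
    obtain ⟨u, hu, h⟩ := h
    exact ⟨u⁻¹, inv_mem hu, fun z hz => by
      rw [Equiv.Perm.inv_eq_iff_eq, h _ (k _ (inv_mem hu) z hz)]; simp⟩

theorem eq_one (hd : Dia E.mat) (ha : D.IsApt a) {g : Equiv.Perm C} (hg : g ∈ UU D a J)
    (h : g (a (lng E J)) = a (lng E J)) : g = 1 := by
  have h1 : g (a (lng E J * w0 E)) = a (lng E J * w0 E) := UU_fix (fun w hw k hk h => by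
    rw [mul_w0_mem_rt, mem_rt, P_mul_lng E (inv_mem hw) hk, not_not]
    rwa [mem_rt, mul_one] at h) hg
  have h2 := (D.act_of_opp ha (UU_aut hg) (v := 1) (x := lng E J) (by rwa [one_mul]) (by rwa [one_mul])).2
  simp only [one_mul] at h2
  refine aut_eq_one (UU_aut hg) (fun r z hz => ?_) (h2 1) (y := a (w0 E)) (by rw [ha, inv_one, one_mul]) (h2 _)
  obtain ⟨u, hu, k⟩ := UU_panel hg r
  have e : D.δ (a 1) (a (E.s r)) = E.s r := by rw [ha, inv_one, one_mul]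
  rw [k z hz, ug_semireg hd ha hu e (by rw [← k _ (D.mem_R_singleton.2 (Or.inr e)), h2])]
  rfl

variable (D D' a a' J) in
/-- the graph of an isomorphism which preserves the root groups -/
structure Lk (Γ : Subgroup (Equiv.Perm C × Equiv.Perm C')) : Prop where
  le : ∀ p ∈ Γ, p.1 ∈ UU D a J ∧ p.2 ∈ UU D' a' J
  left : ∀ w ∈ E.par J, ∀ k ∈ J, (1 : W) ∈ rt E w k → ∀ u ∈ D.UG a (rt E w k), ∃ u' ∈ D'.UG a' (rt E w k), (u, u') ∈ Γ
  right : ∀ w ∈ E.par J, ∀ k ∈ J, (1 : W) ∈ rt E w k → ∀ u' ∈ D'.UG a' (rt E w k), ∃ u ∈ D.UG a (rt E w k), (u, u') ∈ Γ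
  inj_left : ∀ u', (1, u') ∈ Γ → u' = 1
  inj_right : ∀ u, (u, 1) ∈ Γ → u = 1

variable {Γ : Subgroup (Equiv.Perm C × Equiv.Perm C')}

omit [Finite W] in
theorem Lk.symm (h : Lk D D' a a' J Γ) : Lk D' D a' a J (Γ.comap (MulEquiv.prodComm).toMonoidHom) :=
  ⟨fun _ hp => (h.le _ hp).symm, h.right, h.left, h.inj_right, h.inj_left⟩

omit [Finite W] in
theorem Lk.onto (h : Lk D D' a a' J Γ) {g : Equiv.Perm C} (hg : g ∈ UU D a J) : ∃ g', (g, g') ∈ Γ := by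
  obtain ⟨p, hp, rfl⟩ := (Subgroup.closure_le (Γ.map (MonoidHom.fst _ _))).2
    (by rintro _ ⟨w, hw, k, hk, h1, h2⟩; exact let ⟨_, _, e⟩ := h.left w hw k hk h1 _ h2; ⟨_, e, rfl⟩) hg
  exact ⟨p.2, hp⟩

theorem Lk.stab (h : Lk D D' a a' J Γ) (hd : Dia E.mat) (ha : D.IsApt a) (ha' : D'.IsApt a') {x : W}
    (hx : x ∈ E.par J) : ∀ p ∈ Γ, p.1 (a x) = a x → p.2 (a' x) = a' x := by
  induction hn : E.len (lng E J) - E.len x using Nat.strong_induction_on generalizing x with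
  | _ n ih =>
  intro p hp e
  by_cases hk : ∃ k ∈ J, E.len x < E.len (x * E.s k)
  · obtain ⟨k, hk, hl⟩ := hk
    have hx' : x * E.s k ∈ E.par J := mul_mem hx (E.s_mem_par hk)
    have h1 := (one_mem_rt_iff E).2 hl
    obtain ⟨u, hu, e1⟩ := ug_trans hd ha x k (z := p.1 (a (x * E.s k))) (by
      conv_lhs => rw [← e, UU_aut (h.le p hp).1, ha, inv_mul_cancel_left])
    obtain ⟨u', hu', e2⟩ := h.left x hx k hk h1 u hu
    have hq := mul_mem (inv_mem e2) hp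
    have e3 := ih _ (by have := len_lng E hx'; omega) hx' rfl _ hq (Equiv.Perm.inv_eq_iff_eq.2 e1.symm)
    have e4 := D'.aut_fix_mid (UU_aut (h.le _ hq).2) (y := a' x) (UU_one (h.le _ hq).2) e3 (by
      rw [ha', ha', ha', inv_one, one_mul, one_mul, inv_mul_cancel_left, E.len_s]
      have := E.len_mul_s_le k x
      omega)
    exact (Equiv.Perm.inv_eq_iff_eq.1 e4).trans (hu'.2.1 x (self_mem_rt E x k))
  · have : x = lng E J := inv_injective ((eq_lng E (inv_mem hx) fun j hj k => hk ⟨j, hj, by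
      rwa [ExchSys.P_iff_inv, inv_inv] at k⟩).trans (lng_inv E J).symm)
    have e1 := eq_one hd ha (h.le p hp).1 (this ▸ e)
    rw [h.inj_left p.2 (e1 ▸ hp)]; rfl

variable (E a a' J Γ) in
/-- corresponding chambers -/
def Rl (z : C) (z' : C') : Prop := ∃ p ∈ Γ, ∃ w ∈ E.par J, z = p.1 (a w) ∧ z' = p.2 (a' w)

omit [Finite W] in
theorem Rl.symm {z : C} {z' : C'} (r : Rl E a a' J Γ z z') :
    Rl E a' a J (Γ.comap (MulEquiv.prodComm).toMonoidHom) z' z :=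
  let ⟨p, hp, w, hw, e, e'⟩ := r; ⟨p.swap, hp, w, hw, e', e⟩

omit [Finite W] in
theorem Lk.mem (h : Lk D D' a a' J Γ) (ha : D.IsApt a) {z : C} {z' : C'} (r : Rl E a a' J Γ z z') :
    z ∈ D.R J (a 1) := by
  obtain ⟨p, hp, w, hw, rfl, -⟩ := r
  rwa [D.mem_R, δ_UU ha (h.le p hp).1]

theorem Lk.uniq (h : Lk D D' a a' J Γ) (hd : Dia E.mat) (ha : D.IsApt a) (ha' : D'.IsApt a') {z : C} {z' y' : C'}
    (r : Rl E a a' J Γ z z') (r' : Rl E a a' J Γ z y') : z' = y' := by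
  obtain ⟨p, hp, w, hw, rfl, rfl⟩ := r
  obtain ⟨q, hq, v, -, e, rfl⟩ := r'
  obtain rfl : w = v := by rw [← δ_UU ha (h.le p hp).1 w, e, δ_UU ha (h.le q hq).1]
  exact Equiv.Perm.inv_eq_iff_eq.1 (h.stab hd ha ha' hw _ (mul_mem (inv_mem hq) hp) (Equiv.Perm.inv_eq_iff_eq.2 e))

omit [Finite W] in
theorem Lk.gate (h : Lk D D' a a' J Γ) (ha : D.IsApt a) (ha' : D'.IsApt a') {k : B} (hk : k ∈ J) {z : C} {z' : C'}
    (r : Rl E a a' J Γ z z') : ∃ y y', Rl E a a' J Γ y y' ∧ y ∈ D.R {k} z ∧ y' ∈ D'.R {k} z' ∧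
      ∀ j ∈ ({k} : Set B), E.P j (D.δ y (a 1)) := by
  obtain ⟨p, hp, w, hw, rfl, rfl⟩ := r
  obtain ⟨v, hv, d, h1, h2⟩ := exists_left_min E {k} w⁻¹
  refine ⟨_, _, ⟨p, hp, w * v, mul_mem hw (E.par_mono (Set.singleton_subset_iff.2 hk) hv), rfl, rfl⟩, ?_, ?_, ?_⟩
  · rwa [D.aut_mem_R (UU_aut (h.le p hp).1), ha.mem_R, inv_mul_cancel_left]
  · rwa [D'.aut_mem_R (UU_aut (h.le p hp).2), ha'.mem_R, inv_mul_cancel_left]
  · rwa [D.δ_symm, δ_UU ha (h.le p hp).1, mul_inv_rev, h2, inv_mul_cancel_left]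

theorem Lk.adj (h : Lk D D' a a' J Γ) (hd : Dia E.mat) (ha : D.IsApt a) (ha' : D'.IsApt a') {k : B} (hk : k ∈ J)
    {z y : C} {z' y' : C'} (r : Rl E a a' J Γ z z') (r' : Rl E a a' J Γ y y') (e : D.δ z y = E.s k) :
    D'.δ z' y' = E.s k := by
  obtain ⟨p, p', p1, p2, p3, p4⟩ := h.gate ha ha' hk r
  obtain ⟨q, q', q1, q2, q3, q4⟩ := h.gate ha ha' hk r'
  obtain rfl := D.gate_unique p4 q4 (D.R_trans (D.R_symm p2) (D.R_trans (D.mem_R_singleton.2 (Or.inr e)) q2))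
  obtain rfl := h.uniq hd ha ha' p1 q1
  refine (D'.mem_R_singleton.1 (D'.R_trans p3 (D'.R_symm q3))).resolve_left fun k => ?_
  subst k
  rw [h.symm.uniq hd ha' ha r.symm r'.symm, D.δ_self] at e
  exact E.s_ne_one _ e.symm

end Ix

open Ix

/-- every chamber of `R_J(c)` is the image of a chamber of the apartment under positive root groups of `W_J` -/
theorem exists_smul_apt (hd : Dia E.mat) (ha : D.IsApt a) {J : Set B} {z : C} (hz : z ∈ D.R J (a 1)) :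
    ∃ g ∈ Subgroup.closure {g | ∃ w ∈ E.par J, ∃ k ∈ J, (1 : W) ∈ rt E w k ∧ g ∈ D.UG a (rt E w k)},
      g (a (D.δ (a 1) z)) = z := by
  refine D.R_induction (p := fun z => ∃ g ∈ UU D a J, g (a (D.δ (a 1) z)) = z) ⟨1, one_mem _, by rw [D.δ_self]; rfl⟩
    (fun y hy j hj z e hl ⟨g, hg, k⟩ => ?_) z hz
  have e1 : D.δ (a 1) z = D.δ (a 1) y * E.s j := (D.δ_or_right e).resolve_right fun k => by rw [k] at hl; omega
  obtain ⟨u, hu, k1⟩ := ug_trans hd ha (D.δ (a 1) y) j (z := g⁻¹ z) (by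
    rw [← UU_aut hg, k, ← e]; simp)
  refine ⟨g * u, mul_mem hg (mem_UU hy hj ((one_mem_rt_iff E).2 (e1 ▸ hl)) hu), ?_⟩
  rw [e1, Equiv.Perm.mul_apply, k1]; simp

namespace Ix

variable {J : Set B} {Γ : Subgroup (Equiv.Perm C × Equiv.Perm C')}

theorem Lk.total (h : Lk D D' a a' J Γ) (hd : Dia E.mat) (ha : D.IsApt a) {z : C} (hz : z ∈ D.R J (a 1)) :
    ∃ z', Rl E a a' J Γ z z' := by
  obtain ⟨g, hg, e⟩ := exists_smul_apt hd ha hz
  obtain ⟨g', k⟩ := h.onto hg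
  exact ⟨_, _, k, _, hz, e.symm, rfl⟩

theorem Lk.δ_eq (h : Lk D D' a a' J Γ) (hd : Dia E.mat) (ha : D.IsApt a) (ha' : D'.IsApt a') {y : C} {y' : C'}
    (r' : Rl E a a' J Γ y y') (z : C) : ∀ z', Rl E a a' J Γ z z' → D'.δ z' y' = D.δ z y := by
  refine D.gal_ind y (p := fun z => ∀ z', Rl E a a' J Γ z z' → D'.δ z' y' = D.δ z y) (fun z' r => ?_)
    (fun x x₁ i e hP e1 ih x' r => ?_) z
  · rw [h.uniq hd ha ha' r r', D.δ_self, D'.δ_self]
  · have hi := (mem_of_step hP (e1 ▸ D.δ_mem_par (h.mem ha r) (h.mem ha r'))).1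
    obtain ⟨x₁', r₁⟩ := h.total hd ha (D.R_trans (h.mem ha r) (D.mem_R.2 (e ▸ E.s_mem_par hi)))
    rw [← ih _ r₁] at hP e1
    exact (D'.δ_P i _ _ _ (h.adj hd ha ha' hi r r₁ e) hP).trans e1.symm

omit [Finite W] in
theorem inter_cases {i j k l : B} {w : W} (h1 : w ∈ E.par {i, j}) (h2 : w ∈ E.par {k, l}) :
    ({i, j} : Set B) = {k, l} ∨ w = 1 ∨ ∃ t ∈ ({i, j} : Set B), t ∈ ({k, l} : Set B) ∧ w = E.s t := by
  have h3 : w ∈ E.par ({i, j} ∩ {k, l}) := E.par_inf _ _ ▸ ⟨h1, h2⟩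
  rcases Set.subsingleton_or_nontrivial (({i, j} : Set B) ∩ {k, l}) with h | ⟨x, hx, y, hy, n⟩
  · rcases h.eq_empty_or_singleton with e | ⟨t, e⟩
    · rw [e, E.par_empty] at h3
      exact Or.inr (Or.inl h3)
    · have : t ∈ ({i, j} : Set B) ∩ {k, l} := e ▸ rfl
      rw [e, E.mem_par_singleton] at h3
      exact Or.inr (h3.imp_right fun e => ⟨t, this.1, this.2, e⟩)
  · have : ∀ i j : B, x ∈ ({i, j} : Set B) → y ∈ ({i, j} : Set B) → ({i, j} : Set B) = {x, y} := by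
      rintro i j (rfl | rfl) (rfl | rfl)
      exacts [absurd rfl n, rfl, Set.pair_comm _ _, absurd rfl n]
    exact Or.inl ((this _ _ hx.1 hy.1).trans (this _ _ hx.2 hy.2).symm)

end Ix

theorem iso_of_found [Nonempty B] (hd : Dia E.mat) (ha : D.IsApt a) (ha' : D'.IsApt a') {R : RG E (Equiv.Perm C)}
    {R' : RG E (Equiv.Perm C')} (hR : R.U = D.UG a) (hR' : R'.U = D'.UG a') (h : R.Found R') :
    ∃ φ : C ≃ C', (∀ x y, D'.δ (φ x) (φ y) = D.δ x y) ∧ ∀ w, φ (a w) = a' w := by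
  classical
  obtain ⟨g, h1, h2⟩ := h
  simp only [RG.S, hR, hR'] at h1
  have ex : ∀ J : Set B, (∃ i j, J = {i, j}) → ∃ Γ, Lk D D' a a' J Γ ∧ ∀ k ∈ J, g k ≤ Γ := by
    rintro _ ⟨i, j, rfl⟩
    by_cases e : i = j
    · subst e
      rw [Set.pair_eq_singleton]
      refine ⟨g i, ⟨fun p hp => ⟨mem_UU (one_mem _) (Set.mem_singleton i) (self_mem_rt E 1 i)
        (Subgroup.mem_prod.1 ((h1 i).le hp)).1, mem_UU (one_mem _) (Set.mem_singleton i) (self_mem_rt E 1 i)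
        (Subgroup.mem_prod.1 ((h1 i).le hp)).2⟩, ?_, ?_, (h1 i).inj_left, (h1 i).inj_right⟩,
        by rintro k rfl; exact le_rfl⟩
      · rintro w hw k rfl h u hu
        obtain rfl := pos_root_one E hw h
        obtain ⟨u', e⟩ := (h1 k).left u hu
        exact ⟨u', (Subgroup.mem_prod.1 ((h1 k).le e)).2, e⟩
      · rintro w hw k rfl h u hu
        obtain rfl := pos_root_one E hw h
        obtain ⟨u', e⟩ := (h1 k).right u hu
        exact ⟨u', (Subgroup.mem_prod.1 ((h1 k).le e)).1, e⟩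
    · obtain ⟨Γ, ⟨l1, l2, l3, l4, l5⟩, k1, k2⟩ := h2 i j e
      simp only [RG.UJ, hR, hR'] at l1 l2 l3
      exact ⟨Γ, ⟨fun p hp => Subgroup.mem_prod.1 (l1 hp), l2, l3, l4, l5⟩, by rintro k (rfl | rfl) <;> assumption⟩
  choose! Γ L hg using ex
  replace L : ∀ i j, Lk D D' a a' {i, j} (Γ {i, j}) := fun i j => L _ ⟨i, j, rfl⟩
  have r1 : ∀ i j, ∀ w ∈ E.par {i, j}, Rl E a a' {i, j} (Γ {i, j}) (a w) (a' w) := fun i j w hw =>
    ⟨1, one_mem _, w, hw, rfl, rfl⟩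
  have un : ∀ i j k l z z' y', Rl E a a' {i, j} (Γ {i, j}) z z' → Rl E a a' {k, l} (Γ {k, l}) z y' → z' = y' :=
    fun i j k l z z' y' r r' => by
    rcases inter_cases ((L i j).mem ha r) ((L k l).mem ha r') with e | e | ⟨t, t1, t2, e⟩
    · exact (L k l).uniq hd ha ha' (e ▸ r) r'
    · obtain rfl := D.eq_of_δ _ _ e
      exact ((L i j).uniq hd ha ha' r (r1 i j 1 (one_mem _))).trans
        ((L k l).uniq hd ha ha' (r1 k l 1 (one_mem _)) r')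
    · obtain ⟨u, hu, e1⟩ := ug_trans hd ha 1 t e
      obtain ⟨u', e2⟩ := (h1 t).left u hu
      rw [one_mul] at e1
      exact ((L i j).uniq hd ha ha' r ⟨_, hg _ ⟨i, j, rfl⟩ t t1 e2, _, E.s_mem_par t1, e1.symm, rfl⟩).trans
        ((L k l).uniq hd ha ha' ⟨_, hg _ ⟨k, l, rfl⟩ t t2 e2, _, E.s_mem_par t2, e1.symm, rfl⟩ r')
  let f : C → C' := fun z => if h : ∃ z' i j, Rl E a a' {i, j} (Γ {i, j}) z z' then h.choose else a' 1
  have hf : ∀ i j z z', Rl E a a' {i, j} (Γ {i, j}) z z' → f z = z' := fun i j z z' r => by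
    have e : ∃ z' i j, Rl E a a' {i, j} (Γ {i, j}) z z' := ⟨z', i, j, r⟩
    obtain ⟨k, l, r'⟩ := e.choose_spec
    exact (dif_pos e).trans (un _ _ _ _ _ _ _ r' r)
  have fa : ∀ i j, ∀ w ∈ E.par {i, j}, f (a w) = a' w := fun i j w hw => hf i j _ _ (r1 i j w hw)
  obtain ⟨φ, k1, -, k2⟩ := ext ha ha' (f := f) (fun i j => ⟨fun u hu v hv => by
    obtain ⟨u', r⟩ := (L i j).total hd ha hu
    obtain ⟨v', r'⟩ := (L i j).total hd ha hv
    rw [hf i j _ _ r, hf i j _ _ r', (L i j).δ_eq hd ha ha' r' u u' r], fun u' hu => by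
    rw [fa i j 1 (one_mem _)] at hu
    obtain ⟨u, r⟩ := (L i j).symm.total hd ha' hu
    exact ⟨u, (L i j).mem ha r.symm, hf i j _ _ r.symm⟩⟩) fa
  exact ⟨φ, k1, k2⟩

end Bld

end CfsgLib.Tits
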