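import Mathlib
import Cfsg.Agent.Lib.Tits.Iso
import Cfsg.Prelude.Def_KGroupFacts

/-!
# Package FINAL: a simple strongly transitive group is the group generated by the root groups (see `plans/TITS.md`)
-/

set_option autoImplicit false

namespace CfsgLib.Tits
open Cfsg CfsgLib.BN
open scoped commutatorElement

namespace Fx

/-- a simple group normalizing `X`, with `C(X) = 1` and `Out X` solvable, is abelian or lies in `X` -/
theorem le_of_out {A : Type*} [Group A] {G X : Subgroup A} [IsSimpleGroup G] (hn : G ≤ Subgroup.normalizer (X : Set A))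
    (hc : ∀ g ∈ G, ∀ x ∈ X, (∀ y ∈ X, x⁻¹ * g * y = y * (x⁻¹ * g)) → x⁻¹ * g = 1) (hO : Group.IsSolvable (Out X)) :
    G ≤ X ∨ ∀ g ∈ G, ∀ h ∈ G, g * h = h * g := by
  let ψ : G →* Out X := (QuotientGroup.mk' (Inn X)).comp (X.normalizerMonoidHom.comp (Subgroup.inclusion hn))
  rcases ψ.normal_ker.eq_bot_or_eq_top with e | e
  · have := Group.isSolvable_of_isSolvable_injective (ψ.ker_eq_bot_iff.1 e)
    exact Or.inr fun g hg h hh => congrArg Subtype.val (IsSimpleGroup.comm_iff_isSolvable.2 this ⟨g, hg⟩ ⟨h, hh⟩)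
  · refine Or.inl fun g hg => ?_
    obtain ⟨x, hx⟩ := (QuotientGroup.eq_one_iff _).1 (e ▸ Subgroup.mem_top _ : (⟨g, hg⟩ : G) ∈ ψ.ker)
    rw [← inv_mul_eq_one.1 (hc g hg x x.2 fun y hy => ?_)]
    · exact x.2
    · have : x.1 * y * x.1⁻¹ = g * y * g⁻¹ := by
        have := congrArg Subtype.val (DFunLike.congr_fun hx (⟨y, hy⟩ : X))
        exact this
      calc x.1⁻¹ * g * y = x.1⁻¹ * (g * y * g⁻¹) * g := by group
        _ = _ := by rw [← this]; group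

/-- a regular `p`-group containing all `p`-elements of a transitive group lies in this group -/
theorem le_of_regular {C : Type*} [Finite C] {H U : Subgroup (Equiv.Perm C)} {p : ℕ} (hp : p.Prime) (hU : IsPGroup p U)
    {y : C} (h1 : ∀ u ∈ U, u y = y → u = 1) (h2 : ∀ z, (∃ u ∈ U, u y = z) ↔ ∃ h ∈ H, h y = z)
    (h3 : ∀ g ∈ H, (∃ k, g ^ p ^ k = 1) → g ∈ U) : U ≤ H := by
  have := Fact.mk hp
  obtain ⟨k, hk⟩ := IsPGroup.iff_card.1 hU
  have e1 : MulAction.orbit U y = MulAction.orbit H y := Set.ext fun z =>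
    ⟨fun ⟨u, e⟩ => let ⟨h, a, b⟩ := (h2 z).1 ⟨u, u.2, e⟩; ⟨⟨h, a⟩, b⟩,
      fun ⟨u, e⟩ => let ⟨h, a, b⟩ := (h2 z).2 ⟨u, u.2, e⟩; ⟨⟨h, a⟩, b⟩⟩
  have e2 : MulAction.stabilizer U y = ⊥ := eq_bot_iff.2 fun u hu => Subtype.ext (h1 u u.2 hu)
  have e3 := MulAction.index_stabilizer U y
  rw [e2, Subgroup.index_bot, e1, ← MulAction.index_stabilizer, hk] at e3
  obtain ⟨P, hP⟩ := Sylow.exists_subgroup_card_pow_prime p (e3 ▸ Subgroup.index_dvd_card _ : p ^ k ∣ Nat.card H)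
  have e4 : P.map H.subtype ≤ U := by
    rintro _ ⟨g, hg, rfl⟩
    refine h3 _ g.2 ⟨k, ?_⟩
    rw [← hP]
    exact congrArg (fun x : P => (x.1 : Equiv.Perm C)) (pow_card_eq_one' (x := (⟨g, hg⟩ : P)))
  rw [← Subgroup.eq_of_le_of_card_ge e4 (by rw [Subgroup.card_map_of_injective H.subtype_injective, hP, hk])]
  exact Subgroup.map_subtype_le P

theorem solvable_out {G H : Type*} [Group G] [Group H] (e : G ≃* H) (h : Group.IsSolvable (Out G)) :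
    Group.IsSolvable (Out H) :=
  Group.isSolvable_of_surjective (f := (QuotientGroup.congr (Inn G) (Inn H) (MulAut.congr e) (by
    ext β
    constructor
    · rintro ⟨_, ⟨g, rfl⟩, rfl⟩
      exact ⟨e g, by ext; simp⟩
    · rintro ⟨h, rfl⟩
      exact ⟨_, ⟨e.symm h, rfl⟩, by ext; simp⟩)).toMonoidHom) (MulEquiv.surjective _)

end Fx

open Fx

namespace Bld
variable {B W : Type*} [Group W] [Finite W] {E : ExchSys B W} {C : Type*} {D : Bld E C} {a : W → C}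

namespace Fy

omit [Finite W] in
theorem UG_le (w : W) (i : B) : D.UG a (rt E w i) ≤ D.KK a := le_iSup₂_of_le w i le_rfl

omit [Finite W] in
theorem act_inv {n : Equiv.Perm C} {v : W} (h : D.Act a n v) : D.Act a n⁻¹ v⁻¹ :=
  ⟨inv_mem h.1, fun x => Equiv.Perm.inv_eq_iff_eq.2 (by rw [h.2, mul_inv_cancel_left])⟩

theorem nontriv (hd : Dia E.mat) (ha : D.IsApt a) (w : W) (i : B) : ∃ u ∈ D.UG a (rt E w i), u ≠ 1 := by
  obtain ⟨R, h, -⟩ := exists_rg hd ha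
  exact h ▸ R.nontriv w i

theorem exists_act (hd : Dia E.mat) (ha : D.IsApt a) (v : W) : ∃ n ∈ D.KK a, D.Act a n v := by
  refine E.induction_right (p := fun v => ∃ n ∈ D.KK a, D.Act a n v) v ⟨1, one_mem _, one_mem _, fun x => by simp⟩
    fun i w ⟨n, h1, h2⟩ => ?_
  obtain ⟨u, hu, h⟩ := nontriv hd ha 1 i
  obtain ⟨p, hp, q, hq, k⟩ := ug_mu hd ha 1 i hu h
  refine ⟨n * (p * u * q), mul_mem h1 (mul_mem (mul_mem (UG_le _ _ hp) (UG_le _ _ hu)) (UG_le _ _ hq)),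
    mul_mem h2.1 k.1, fun x => ?_⟩
  rw [Equiv.Perm.mul_apply, k.2, h2.2]; simp [mul_assoc]

theorem exists_fix (hd : Dia E.mat) (ha : D.IsApt a) (z : C) :
    ∃ u ∈ D.KK a, u (a 1) = a 1 ∧ u (a (D.δ (a 1) z)) = z := by
  obtain ⟨u, hu, e⟩ := exists_smul_apt hd ha (J := Set.univ) (z := z) (mem_par_univ E _)
  exact ⟨u, (Subgroup.closure_le _).2 (by rintro _ ⟨w, -, k, -, -, h⟩; exact UG_le w k h) hu, Ix.UU_one hu, e⟩

theorem exists_trans (hd : Dia E.mat) (ha : D.IsApt a) (z : C) : ∃ k ∈ D.KK a, k (a 1) = z := by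
  obtain ⟨u, hu, -, e⟩ := exists_fix hd ha z
  obtain ⟨n, hn, k⟩ := exists_act hd ha (D.δ (a 1) z)
  exact ⟨u * n, mul_mem hu hn, by rw [Equiv.Perm.mul_apply, k.2, mul_one, e]⟩

omit [Finite W] in
theorem KK_aut : D.KK a ≤ D.Aut := iSup₂_le fun _ _ _ h => h.1

omit [Finite W] in
theorem KK_le {K : Subgroup (Equiv.Perm C)} (hK : D.Str a K) (h : ∀ i, D.UG a (rt E 1 i) ≤ K) : D.KK a ≤ K :=
  iSup₂_le fun w i u hu => by
    obtain ⟨n, hn, k⟩ := hK.2.1 w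
    have := (act_inv k).conj hu
    rw [inv_mul_cancel] at this
    simpa [mul_assoc] using mul_mem (mul_mem hn (h i this)) (inv_mem hn)

theorem eq_UG (hd : Dia E.mat) (ha : D.IsApt a) {i : B} {Y : Subgroup (Equiv.Perm C)} (h1 : Y ≤ D.UG a (rt E 1 i))
    (h2 : ∀ z, D.δ (a 1) z = E.s i → ∃ y ∈ Y, y (a (E.s i)) = z) : Y = D.UG a (rt E 1 i) := by
  refine h1.antisymm fun u hu => ?_
  have e : D.δ (a 1) (a (E.s i)) = E.s i := by rw [ha, inv_one, one_mul]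
  obtain ⟨y, hy, k⟩ := h2 (u (a (E.s i))) (by rw [← hu.2.1 1 (self_mem_rt E 1 i), hu.1, e])
  rwa [← inv_mul_eq_one.1 (ug_semireg hd ha (mul_mem (inv_mem (h1 hy)) hu) e (Equiv.Perm.inv_eq_iff_eq.2 k.symm))]

theorem eq_one_of_comm (hd : Dia E.mat) (ha : D.IsApt a) {t : Equiv.Perm C}
    (h : ∀ y ∈ D.KK a, t * y = y * t) : t = 1 := by
  have h1 : t (a 1) = a 1 := by
    by_contra n
    obtain ⟨i, hi⟩ := E.exists_not_P fun e => n (D.eq_of_δ _ _ e).symm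
    obtain ⟨x, x1, x2⟩ := D.exists_mid (E.s_mul_s_mul i (D.δ (a 1) (t (a 1)))).symm
    obtain ⟨u, hu, k⟩ := nontriv hd ha 1 i
    have e := hu.2.1 1 (self_mem_rt E 1 i)
    refine k (ug_semireg hd ha hu x1 (D.aut_fix_mid hu.1 e (z := t (a 1)) ?_ ?_))
    · rw [← Equiv.Perm.mul_apply, ← h u (UG_le _ _ hu), Equiv.Perm.mul_apply, e]
    · rw [x1, x2, E.len_s, ← E.len_lt_of_not_P hi, add_comm]
  ext z
  obtain ⟨k, hk, rfl⟩ := exists_trans hd ha z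
  rw [← Equiv.Perm.mul_apply, h k hk, Equiv.Perm.mul_apply, h1]; rfl

theorem not_comm [Nonempty B] (ha : D.IsApt a) {G : Subgroup (Equiv.Perm C)} (hG : D.Str a G) :
    ¬ ∀ g ∈ G, ∀ h ∈ G, g * h = h * g := fun h => by
  obtain ⟨k⟩ := ‹Nonempty B›
  obtain ⟨g, hg⟩ := D.exists_near (K := Set.univ) (x := a 1) (y := a (w0 E)) (Set.mem_univ k)
    (by rw [ha, inv_one, one_mul]; rfl)
  obtain ⟨u, u1, u2, u3⟩ := D.thick k (a (w0 E)) g (a (w0 E))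
  obtain ⟨b, b1, b2, b3⟩ := hG.2.2 u (hg u u1 u2)
  obtain ⟨n, n1, n2⟩ := hG.2.1 (w0 E)
  have e := n2.2 1
  rw [mul_one] at e
  exact u3 (by rw [← b3, ← e, ← Equiv.Perm.mul_apply, h b b1 n n1, Equiv.Perm.mul_apply, b2])

end Fy

open Fy

theorem conj_mem_KK (hd : Dia E.mat) (ha : D.IsApt a) {g k : Equiv.Perm C} (hg : g ∈ D.Aut) (hk : k ∈ D.KK a) :
    g * k * g⁻¹ ∈ D.KK a := by
  obtain ⟨x, hx, e⟩ := exists_trans hd ha (g (a 1))
  have h1 : (x⁻¹ * g) (a 1) = a 1 := Equiv.Perm.inv_eq_iff_eq.2 e.symm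
  have h2 := mul_mem (inv_mem (KK_aut hx)) hg
  obtain ⟨u, hu, e1, e2⟩ := exists_fix hd ha ((x⁻¹ * g) (a (w0 E)))
  rw [← h1, h2, ha, inv_one, one_mul] at e2
  have h3 := D.act_of_opp ha (mul_mem (inv_mem (KK_aut hu)) h2) (v := 1) (x := 1)
    (by rw [mul_one, Equiv.Perm.mul_apply, h1, Equiv.Perm.inv_eq_iff_eq, e1])
    (by rw [one_mul, one_mul, one_mul, Equiv.Perm.mul_apply, Equiv.Perm.inv_eq_iff_eq, e2])
  have h4 : D.KK a ≤ (D.KK a).comap (MulAut.conj (u⁻¹ * (x⁻¹ * g))).toMonoidHom :=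
    iSup₂_le fun w i y hy => UG_le _ _ (h3.conj hy)
  have := mul_mem (mul_mem (mul_mem hx hu) (h4 hk)) (inv_mem (mul_mem hx hu))
  simpa [mul_assoc] using this

theorem Spl.card_UG (hd : Dia E.mat) (ha : D.IsApt a) {K : Subgroup (Equiv.Perm C)} {p : ℕ} {q : B → ℕ}
    (h : D.Spl a K p q) (i : B) : Nat.card (D.UG a (rt E 1 i)) = q i := by
  obtain ⟨U, -, -, -, -, -, -, h⟩ := h
  obtain ⟨Y, -, h1, h2, h3⟩ := h i
  rw [← eq_UG hd ha h1 h3, h2]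

theorem eq_of_spl [Nonempty B] [Finite C] (hd : Dia E.mat) (ha : D.IsApt a) {G X : Subgroup (Equiv.Perm C)}
    [IsSimpleGroup G] [IsSimpleGroup X] (hG : D.Str a G) (hX : D.Str a X) {p : ℕ} (hp : p.Prime) {q : B → ℕ}
    (hS : D.Spl a X p q) (hO : Group.IsSolvable (Out X)) : G = X := by
  obtain ⟨U, u1, u2, u3, u4, u5, u6, u7⟩ := hS
  have h1 : ∀ i, D.UG a (rt E 1 i) ≤ U := fun i => let ⟨_, y1, y2, _, y3⟩ := u7 i; eq_UG hd ha y2 y3 ▸ y1
  have h2 := KK_le hX fun i => (h1 i).trans u1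
  have hn : ((D.KK a).subgroupOf X).Normal := ⟨fun k hk g => conj_mem_KK hd ha (hX.1 g.2) hk⟩
  obtain rfl : X = D.KK a := by
    refine le_antisymm (Subgroup.subgroupOf_eq_top.1 (hn.eq_bot_or_eq_top.resolve_left fun e => ?_)) h2
    obtain ⟨i⟩ := ‹Nonempty B›
    obtain ⟨u, hu, k⟩ := nontriv hd ha 1 i
    have : (⟨u, h2 (UG_le _ _ hu)⟩ : X) ∈ (D.KK a).subgroupOf X := UG_le _ _ hu
    rw [e] at this
    exact k (congrArg Subtype.val this)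
  have h3 : G ≤ D.KK a := (le_of_out (fun g hg => Subgroup.mem_normalizer_iff.2 fun k =>
    ⟨conj_mem_KK hd ha (hG.1 hg), fun h => by simpa [mul_assoc] using conj_mem_KK hd ha (inv_mem (hG.1 hg)) h⟩)
    (fun g _ x _ h => eq_one_of_comm hd ha h) hO).resolve_right (not_comm ha hG)
  have e : ∀ g ∈ D.Aut, g (a 1) = a 1 → D.δ (a 1) (g (a (w0 E))) = w0 E := fun g hg h => by
    conv_lhs => rw [← h, hg, ha, inv_one, one_mul]
  have h4 := le_of_regular (H := G ⊓ MulAction.stabilizer _ (a 1)) hp u2 u6 (fun z => ⟨by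
    rintro ⟨u, hu, rfl⟩
    obtain ⟨b, b1, b2, b3⟩ := hG.2.2 _ (e u (hX.1 (u1 hu)) (u3 u hu))
    exact ⟨b, ⟨b1, b2⟩, b3⟩, by
    rintro ⟨g, hg, rfl⟩
    exact u5 _ (e g (hG.1 hg.1) hg.2)⟩) fun g hg => u4 g (h3 hg.1) hg.2
  exact h3.antisymm (KK_le hG fun i => (h1 i).trans (h4.trans inf_le_left))

end Bld

theorem final_iso {B W : Type*} [Group W] [Finite W] {E : ExchSys B W} [Nonempty B] (hd : Dia E.mat)
    {G X : Type*} [Group G] [Group X] [IsSimpleGroup G] [IsSimpleGroup X] (Γ : Geo E G) (Δ : Geo E X)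
    {p : ℕ} (hp : p.Prime) {q : B → ℕ} (hS : Δ.D.Spl Δ.a Δ.ρ.range p q) (hO : Group.IsSolvable (Out X))
    (φ : Γ.C ≃ Δ.C) (h1 : ∀ x y, Δ.D.δ (φ x) (φ y) = Γ.D.δ x y) (h2 : ∀ w, φ (Γ.a w) = Δ.a w) :
    Nonempty (G ≃* X) := by
  have := Δ.fin
  let σ : G →* Equiv.Perm Δ.C := φ.permCongrHom.toMonoidHom.comp Γ.ρ
  have hσ : ∀ g x, σ g (φ x) = φ (Γ.ρ g x) := fun g x => by simp [σ, Equiv.permCongrHom]
  let e := MonoidHom.ofInjective (f := σ) (φ.permCongrHom.injective.comp Γ.inj)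
  let e' := MonoidHom.ofInjective Δ.inj
  have := e.symm.isSimpleGroup
  have := e'.symm.isSimpleGroup
  have au : ∀ g, σ g ∈ Δ.D.Aut := fun g => φ.surjective.forall₂.2 fun x y => by
    rw [hσ, hσ, h1, h1, Γ.str.1 ⟨g, rfl⟩]
  have k : σ.range = Δ.ρ.range := Bld.eq_of_spl hd Δ.apt ⟨by rintro _ ⟨g, rfl⟩; exact au g, fun v => by
    obtain ⟨_, ⟨g, rfl⟩, k⟩ := Γ.str.2.1 v
    exact ⟨_, ⟨g, rfl⟩, au g, fun x => by rw [← h2, hσ, k.2, h2]⟩, φ.surjective.forall.2 fun z hz => by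
    obtain ⟨_, ⟨g, rfl⟩, k1, k2⟩ := Γ.str.2.2 z (by rw [← h1, h2, hz])
    exact ⟨_, ⟨g, rfl⟩, by rw [← h2, hσ, k1], by rw [← h2, hσ, k2]⟩⟩ Δ.str hp hS (solvable_out e' hO)
  exact ⟨e.trans ((MulEquiv.subgroupCongr k).trans e'.symm)⟩

end CfsgLib.Tits
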