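import Cfsg.Agent.Lib.Tits.C3
import Cfsg.Agent.Lib.Tits.PQ

/-!
# Package FOUND: isomorphisms of foundations (see `plans/TITS.md`)
-/

set_option autoImplicit false
set_option linter.unusedSectionVars false

namespace CfsgLib.Tits
open Cfsg CfsgLib.BN
open scoped commutatorElement

universe u

theorem exists_gr {A A' Y : Type*} [Group A] [Group A'] [Group Y] (φ : Y →* A) (φ' : Y →* A')
    (hφ : Function.Injective φ) (hφ' : Function.Injective φ') {H : Subgroup A} {H' : Subgroup A'}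
    (h : ∀ u, u ∈ H ↔ ∃ y, u = φ y) (h' : ∀ u, u ∈ H' ↔ ∃ y, u = φ' y) :
    ∃ Γ, Gr H H' Γ ∧ ∀ p, p ∈ Γ ↔ ∃ y, (φ y, φ' y) = p := by
  refine ⟨(φ.prod φ').range, ⟨?_, fun u hu => ?_, fun u hu => ?_, ?_, ?_⟩, fun _ => Iff.rfl⟩
  · rintro _ ⟨y, rfl⟩
    exact ⟨(h _).2 ⟨y, rfl⟩, (h' _).2 ⟨y, rfl⟩⟩
  · obtain ⟨y, rfl⟩ := (h u).1 hu
    exact ⟨_, y, rfl⟩
  · obtain ⟨y, rfl⟩ := (h' u).1 hu
    exact ⟨_, y, rfl⟩
  · rintro u ⟨y, e⟩
    obtain ⟨e1, rfl⟩ := Prod.mk.inj e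
    rw [(injective_iff_map_eq_one φ).1 hφ y e1, map_one]
  · rintro u ⟨y, e⟩
    obtain ⟨rfl, e1⟩ := Prod.mk.inj e
    rw [(injective_iff_map_eq_one φ').1 hφ' y e1, map_one]

theorem exists_gr_add {A A' F F' : Type*} [Group A] [Group A'] [AddGroup F] [AddGroup F'] {x : F → A}
    {x' : F' → A'} (a : ∀ s t, x (s + t) = x s * x t) (a' : ∀ s t, x' (s + t) = x' s * x' t)
    (hx : Function.Injective x) (hx' : Function.Injective x') {H : Subgroup A} {H' : Subgroup A'}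
    (h : ∀ u, u ∈ H ↔ ∃ y, u = x y) (h' : ∀ u, u ∈ H' ↔ ∃ y, u = x' y) (ψ : F ≃+ F') :
    ∃ Γ, Gr H H' Γ ∧ ∀ p, p ∈ Γ ↔ ∃ y, (x y, x' (ψ y)) = p :=
  exists_gr (Y := Multiplicative F) (MonoidHom.mk' (fun t => x t.toAdd) fun s t => a _ _)
    (MonoidHom.mk' (fun t => x' (ψ t.toAdd)) fun s t => by simp [a']) hx (hx'.comp ψ.injective) h
    fun u => (h' u).trans ψ.surjective.exists

namespace C3C
variable {B W : Type*} [Group W] [Finite W] {E : ExchSys B W} {A : Type*} [Group A] {R : RG E A} {h i j : B}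
  {F : Type*} [Field F] (d : C3C R h i j F)

include d in
theorem card : Nat.card (R.S i) = Nat.card F :=
  (Nat.card_eq_of_bijective (fun t => (⟨d.c.x₃ t, (d.c.mem₃ _).2 ⟨t, rfl⟩⟩ : R.S i))
    ⟨fun _ _ e => d.c.inj₃ (congrArg Subtype.val e), fun u =>
      ((d.c.mem₃ _).1 u.2).imp fun _ e => Subtype.ext e.symm⟩).symm

theorem z_eq_one {t : F} : d.z t = 1 ↔ t = 0 := by
  have : d.z 0 = 1 := by simpa using d.add 0 0
  rw [← this, d.inj.eq_iff]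

theorem bit_iff : R.Bit i j ↔ ∀ y z, d.D.f y z = 0 := by
  refine ⟨fun hb y z => ?_, fun hf y hy z hz => ?_⟩
  · rw [← d.z_eq_one, ← d.comm24]
    exact (hb _ ((d.ι_mem _).2 ⟨z, rfl⟩) _ y.2).commutator_eq
  · obtain ⟨a, rfl⟩ := (d.ι_mem y).1 hy
    exact commutatorElement_eq_one_iff_commute.1 ((d.comm24 a ⟨z, hz⟩).trans (d.z_eq_one.2 (hf _ _)))

theorem bit_iff' : R.Bit j i ↔ ∀ s t, d.D.g s t = 1 := by
  refine ⟨fun hb s t => d.ι_inj ?_, fun hg y hy z hz => ?_⟩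
  · rw [map_one, ← d.comm13]
    exact (hb _ ((d.mem _).2 ⟨_, rfl⟩) _ ((d.c.mem₃ _).2 ⟨_, rfl⟩)).symm.commutator_eq
  · obtain ⟨t, rfl⟩ := (d.mem y).1 hy
    obtain ⟨s, rfl⟩ := (d.c.mem₃ z).1 hz
    refine (commutatorElement_eq_one_iff_commute.1 ?_).symm
    rw [← neg_neg t, d.comm13, hg, map_one]

end C3C

theorem RG.exists_C3C {B W : Type*} [Group W] [Finite W] {E : ExchSys B W} {A : Type u} [Group A] [Finite A]
    (R : RG E A) {h i j : B} (h1 : E.mat h i = 3) (h2 : E.mat i j = 4) (h3 : E.mat h j = 2) :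
    ∃ (F : Type u) (_ : Field F) (_ : Finite F), Nonempty (C3C R h i j F) := by
  obtain ⟨F, _, _, ⟨c⟩⟩ := R.exists_A2C h1
  obtain ⟨d, -⟩ := c.exists_C3C h1 h2 h3
  exact ⟨F, _, ‹_›, ⟨d⟩⟩

namespace RG
variable {B W : Type*} [Group W] [Finite W] {E : ExchSys B W} {A A' : Type*} [Group A] [Group A'] [Finite A] [Finite A']
  {R : RG E A} {R' : RG E A'}

section C3
variable {h i j : B} (h1 : E.mat h i = 3) (h2 : E.mat i j = 4) (h3 : E.mat h j = 2)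
include h1 h2 h3

theorem c3_card (R : RG E A) : Nat.card (R.S j) = Nat.card (R.S i) ∨ Nat.card (R.S j) = Nat.card (R.S i) ^ 2 ∨
    Nat.card (R.S j) ^ 2 = Nat.card (R.S i) ∨ Nat.card (R.S j) ^ 2 = Nat.card (R.S i) ^ 3 := by
  obtain ⟨F, _, _, ⟨d⟩⟩ := R.exists_C3C h1 h2 h3
  rw [d.card]; exact d.D.card_cases

theorem bit_of_lt (h : Nat.card (R.S j) < Nat.card (R.S i)) : R.Bit i j := by
  obtain ⟨F, _, _, ⟨d⟩⟩ := R.exists_C3C h1 h2 h3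
  exact d.bit_iff.2 (d.D.f_eq_zero_of_lt (d.card ▸ h))

theorem not_bit_of_lt (h : Nat.card (R.S i) < Nat.card (R.S j)) : ¬ R.Bit i j := by
  obtain ⟨F, _, _, ⟨d⟩⟩ := R.exists_C3C h1 h2 h3
  exact fun hb => (d.D.card_le_of_f_eq_zero (d.bit_iff.1 hb)).not_gt (d.card ▸ h)

theorem bit_of_even (h : Nat.card (R.S j) = Nat.card (R.S i)) (h' : Even (Nat.card (R.S i))) : R.Bit i j := by
  obtain ⟨F, _, _, ⟨d⟩⟩ := R.exists_C3C h1 h2 h3
  exact d.bit_iff.2 (d.D.f_eq_zero_of_even (h.trans d.card) (d.card ▸ h'))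

theorem card_of_not_bit (h : ¬ R.Bit i j) (h' : ¬ R.Bit j i) : Nat.card (R.S j) ^ 2 = Nat.card (R.S i) ^ 3 := by
  obtain ⟨F, _, _, ⟨d⟩⟩ := R.exists_C3C h1 h2 h3
  rw [d.bit_iff] at h
  rw [d.bit_iff'] at h'
  rw [d.card]
  exact d.D.card_of_ne (by simpa using h) (by simpa using h')

theorem b2_start (hi : Nat.card (R.S i) = Nat.card (R'.S i)) (hj : Nat.card (R.S j) = Nat.card (R'.S j))
    (hb : R.Bit i j ↔ R'.Bit i j) : ∃ Γ Λ, Gr (R.S i) (R'.S i) Γ ∧ Gr (R.S j) (R'.S j) Λ ∧ R.Edge R' i j Γ Λ ∧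
      R.Semi R' h Γ ∧ (R.Bit i j → ∀ k, E.mat k j = 3 → E.mat k i = 2 → E.mat k h = 2 → R.Semi R' k Λ) := by
  obtain ⟨F, _, _, ⟨d⟩⟩ := R.exists_C3C h1 h2 h3
  obtain ⟨F', _, _, ⟨d'⟩⟩ := R'.exists_C3C h1 h2 h3
  obtain ⟨ψ, θ, c, hc, eπ, ef, eρ, eg⟩ := d.D.exists_iso d'.D (by rw [← d.card, hi, d'.card]) hj
    (by rw [← d.bit_iff, hb, d'.bit_iff])
  obtain ⟨Γ₁, g₁, m₁⟩ := exists_gr_add d.c.add₃ d'.c.add₃ d.c.inj₃ d'.c.inj₃ d.c.mem₃ d'.c.mem₃ ψ.toAddEquiv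
  obtain ⟨Γ₂, g₂, m₂⟩ := exists_gr d.ι (d'.ι.comp θ.toMonoidHom) d.ι_inj (d'.ι_inj.comp θ.injective) d.ι_mem
    fun u => (d'.ι_mem u).trans θ.surjective.exists
  obtain ⟨Γ₃, g₃, m₃⟩ := exists_gr_add d.add d'.add d.inj d'.inj d.mem d'.mem
    (ψ.toAddEquiv.trans { Equiv.mulLeft₀ c hc with map_add' := mul_add c })
  obtain ⟨Γ₄, g₄, m₄⟩ := exists_gr (R.S j).subtype ((R'.S j).subtype.comp θ.toMonoidHom) (H := R.S j)
    (H' := R'.S j) Subtype.val_injective (Subtype.val_injective.comp θ.injective) (by simp)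
    fun u => ⟨fun hu => ⟨θ.symm ⟨u, hu⟩, by simp⟩, by rintro ⟨y, rfl⟩; exact (θ y).2⟩
  replace m₁ : ∀ p, p ∈ Γ₁ ↔ ∃ y, (d.c.x₃ y, d'.c.x₃ (ψ y)) = p := m₁
  replace m₂ : ∀ p, p ∈ Γ₂ ↔ ∃ y, (d.ι y, d'.ι (θ y)) = p := m₂
  replace m₃ : ∀ p, p ∈ Γ₃ ↔ ∃ y, (d.z y, d'.z (c * ψ y)) = p := m₃
  replace m₄ : ∀ p, p ∈ Γ₄ ↔ ∃ y : R.S j, ((y : A), (θ y : A')) = p := m₄
  have cp : ∀ (a b : A) (a' b' : A'), ⁅(a, a'), (b, b')⁆ = (⁅a, b⁆, ⁅a', b'⁆) := fun _ _ _ _ => rfl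
  refine ⟨Γ₁, Γ₄, g₁, g₄, glue4 h2 g₁ g₂ g₃ g₄ ?_ ?_ ?_, fun T hT => ?_, fun hb' k k1 k2 k3 T hT => ?_⟩
  · simp only [m₁, m₂, m₃]
    rintro _ ⟨s, rfl⟩ _ ⟨t, rfl⟩
    exact ⟨d.D.g s (-t), by rw [cp, eg, ← d.comm13, ← d'.comm13]; simp⟩
  · simp only [m₂, m₃, m₄]
    rintro _ ⟨a, rfl⟩ _ ⟨b, rfl⟩
    exact ⟨d.D.f b a, by rw [cp, d.comm24, d'.comm24, ef]⟩
  · simp only [m₁, m₂, m₃, m₄]
    rintro _ ⟨s, rfl⟩ _ ⟨y, rfl⟩
    refine ⟨_, ⟨d.D.ρ s y, rfl⟩, _, ⟨-(s * d.D.π y), rfl⟩, ?_⟩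
    rw [cp, d.comm14, d'.comm14, eρ, eπ, map_neg, map_mul, mul_left_comm, mul_neg]; rfl
  · obtain ⟨s, hs, e⟩ := d.c.tor_scalar h1 hT
    obtain ⟨T', hT', e'⟩ := d'.c.exists_tor h1 ((map_ne_zero ψ).2 hs)
    refine ⟨T', hT', fun u u' hu => ?_⟩
    obtain ⟨t, k⟩ := (m₁ _).1 hu
    obtain ⟨rfl, rfl⟩ := Prod.mk.inj k
    exact (m₁ _).2 ⟨s * t, by rw [e, e', map_mul]⟩
  obtain ⟨y₀, hy₀⟩ := d.D.ne
  have cj : ∀ y : R.S j, T * y * T⁻¹ ∈ R.S j := fun y => by simpa using R.conj hT.act 1 j y y.2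
  obtain ⟨T', hT', e⟩ := tor_trans k1 (θ y₀).2 (θ ⟨_, cj y₀⟩).2 (by simpa using hy₀) (by
    rw [Ne, OneMemClass.coe_eq_one, map_eq_one_iff _ θ.injective, Subtype.ext_iff]; simpa using hy₀)
  obtain ⟨ν, hν⟩ := d.tor k k1 k2 k3 T hT
  obtain ⟨ν', hν'⟩ := d'.tor k k1 k2 k3 T' hT'
  have e1 := hν' _ _ e.symm
  rw [eπ, eπ, hν y₀ _ rfl, map_mul, mul_left_comm, mul_left_inj' (mul_ne_zero hc
    ((map_ne_zero ψ).2 fun k => hy₀ ((d.D.π_eq_zero _).1 k)))] at e1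
  refine ⟨T', hT', fun u u' hu => ?_⟩
  obtain ⟨y, k⟩ := (m₄ _).1 hu
  obtain ⟨rfl, rfl⟩ := Prod.mk.inj k
  have cj' : T' * θ y * T'⁻¹ ∈ R'.S j := by simpa using R'.conj hT'.act 1 j _ (θ y).2
  refine (m₄ _).2 ⟨⟨_, cj y⟩, Prod.ext rfl (congrArg Subtype.val (d'.D.π_injective
    (d'.bit_iff.1 (hb.1 hb')) (a₂ := ⟨_, cj'⟩) ?_))⟩
  rw [hν' (θ y) ⟨_, cj'⟩ rfl, eπ, eπ, hν y _ rfl, map_mul, mul_left_comm, e1]

end C3

theorem found_of_tree {I : Set B} (hT : Tree E.mat I) (g : B → Subgroup (A × A'))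
    (h1 : ∀ i ∈ I, Gr (R.S i) (R'.S i) (g i)) (h2 : ∀ i ∈ I, ∀ j ∈ I, i ≠ j → R.Edge R' i j (g i) (g j))
    (h3 : ∀ i ∈ I, ∀ k, k ∉ I → E.mat k i = 3 → R.Semi R' k (g i)) : R.Found R' := by
  obtain ⟨ρ, h0, hρ⟩ := hT
  have key : ∀ n, ∃ g : B → Subgroup (A × A'), (∀ i, ρ i ≤ n → Gr (R.S i) (R'.S i) (g i)) ∧
      (∀ i j, ρ i ≤ n → ρ j ≤ n → i ≠ j → R.Edge R' i j (g i) (g j)) ∧
      ∀ i k, ρ i ≤ n → ρ i < ρ k → E.mat k i = 3 → R.Semi R' k (g i) := fun n => by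
    induction n with
    | zero =>
      simp only [Nat.le_zero, ← h0]
      exact ⟨g, h1, fun i j hi hj => h2 i hi j hj, fun i k hi hk => h3 i hi k fun e => by
        rw [h0] at e; omega⟩
    | succ n ih =>
      obtain ⟨g, a1, a2, a3⟩ := ih
      have : ∀ j, ∃ Λ, (ρ j ≤ n → Λ = g j) ∧ (ρ j = n + 1 → Gr (R.S j) (R'.S j) Λ ∧
          (∀ k, ρ j < ρ k → E.mat k j = 3 → R.Semi R' k Λ) ∧ ∃ i, ρ i ≤ n ∧ R.Edge R' j i Λ (g i) ∧
            ∀ k, k ≠ j → k ≠ i → ρ k ≤ ρ j → E.mat k j = 2) := fun j => by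
        by_cases hj : ρ j = n + 1
        swap; · exact ⟨g j, fun _ => rfl, fun e => absurd e hj⟩
        obtain ⟨i, b1, b2, b3⟩ := hρ j (by rw [h0]; omega)
        have b4 := (mat_comm E j i).trans b2
        obtain ⟨Λ, c1, c2, c3⟩ := a2_ext b4 (a1 i (by omega)) (a3 i j (by omega) b1 b4)
        refine ⟨Λ, by omega, fun _ => ⟨c1, fun k k1 k2 => ?_, i, by omega, c3, b3⟩⟩
        obtain ⟨i', -, -, d3⟩ := hρ k (by rw [h0]; omega)
        obtain rfl : j = i' := by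
          by_contra e
          have := d3 j (by rintro rfl; omega) e k1.le
          rw [mat_comm] at this; omega
        exact semi_indep b2 k2 (d3 i (by rintro rfl; omega) (by rintro rfl; omega) (by omega)) c1 c2
      choose Λ e1 e2 using this
      have G : ∀ i, ρ i ≤ n + 1 → Gr (R.S i) (R'.S i) (Λ i) := fun i hi => by
        rcases Nat.of_le_succ hi with k | k
        exacts [e1 i k ▸ a1 i k, (e2 i k).1]
      refine ⟨Λ, G, fun i j hi hj hne => ?_, fun i k hi => ?_⟩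
      · wlog hij : ρ i ≤ ρ j generalizing i j
        · exact edge_symm (this j i hj hi hne.symm (by omega))
        rcases Nat.of_le_succ hj with k | k
        · rw [e1 i (by omega), e1 j k]; exact a2 i j (by omega) k hne
        obtain ⟨-, -, i', b1, b2, b3⟩ := e2 j k
        by_cases e : i = i'
        · subst e; rw [e1 i b1]; exact edge_symm b2
        · exact glue2 (b3 i hne e hij) (G i hi) (G j hj)
      · rcases Nat.of_le_succ hi with k' | k'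
        exacts [e1 i k' ▸ a3 i k k', (e2 i k').2.1 k]
  have := finite_nodes E
  obtain ⟨n, hn⟩ := (Set.finite_range ρ).bddAbove
  obtain ⟨g, a1, a2, -⟩ := key n
  exact ⟨g, fun i => a1 i (hn ⟨i, rfl⟩), fun i j => a2 i j (hn ⟨i, rfl⟩) (hn ⟨j, rfl⟩)⟩

/-- simply laced diagrams -/
theorem found_simple {i j : B} (hT : Tree E.mat {i}) (hj : E.mat j i = 3)
    (hc : Nat.card (R.S i) = Nat.card (R'.S i)) : R.Found R' := by
  obtain ⟨Γ, g1, g2⟩ := a2_start hj hc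
  refine found_of_tree hT (fun _ => Γ) (by rintro _ rfl; exact g1)
    (by rintro _ rfl _ rfl h; exact absurd rfl h) ?_
  rintro _ rfl k - hk
  by_cases e : j = k
  · exact e ▸ g2
  refine semi_indep hj hk ?_ g1 g2
  obtain ⟨ρ, h0, hρ⟩ := hT
  clear g2
  wlog hjk : ρ j ≤ ρ k generalizing j k
  · rw [mat_comm]; exact this hk j hj (Ne.symm e) (by omega)
  have hk' := ne_of_mat E (hk.trans_ne (by decide))
  obtain ⟨i', -, -, d3⟩ := hρ k hk'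
  refine d3 j e (fun e' => ?_) hjk
  have := d3 _ hk'.symm (e' ▸ (ne_of_mat E (hj.trans_ne (by decide))).symm) (((h0 _).1 rfl).trans_le (Nat.zero_le _))
  rw [mat_comm] at this; omega

/-- diagrams with a double edge -/
theorem found_double {h i j : B} (hT : Tree E.mat {i, j}) (h1 : E.mat h i = 3) (h2 : E.mat i j = 4)
    (h3 : E.mat h j = 2) (h4 : ∀ k, E.mat k i = 3 → k = h)
    (h5 : ∀ k, E.mat k j = 3 → R.Bit i j ∧ E.mat k i = 2 ∧ E.mat k h = 2)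
    (hi : Nat.card (R.S i) = Nat.card (R'.S i)) (hj : Nat.card (R.S j) = Nat.card (R'.S j))
    (hb : R.Bit i j ↔ R'.Bit i j) : R.Found R' := by
  classical
  obtain ⟨Γ, Λ, g1, g2, g3, g4, g5⟩ := b2_start h1 h2 h3 hi hj hb
  have hij : j ≠ i := (ne_of_mat E (by omega)).symm
  refine found_of_tree hT (fun k => if k = i then Γ else Λ) ?_ ?_ ?_
  · rintro _ (rfl | rfl) <;> simp [*]
  · rintro _ (rfl | rfl) _ (rfl | rfl) h <;> simp only [if_true, if_neg hij]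
    exacts [absurd rfl h, g3, edge_symm g3, absurd rfl h]
  · rintro _ (rfl | rfl) k - hk <;> simp only [if_true, if_neg hij]
    exacts [h4 k hk ▸ g4, g5 (h5 k hk).1 k hk (h5 k hk).2.1 (h5 k hk).2.2]

end RG

end CfsgLib.Tits
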