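import Cfsg.Agent.Lib.Tits.Dia
import Cfsg.Agent.Lib.Tits.Final
import Cfsg.Agent.Lib.Tits.Geo
import Cfsg.Agent.Lib.Tits.Found
import Cfsg.Agent.Lib.Tits.Cox1
import Cfsg.Agent.Lib.Tits.Cox2
import Cfsg.Agent.Lib.Tits.ModA
import Cfsg.Agent.Lib.Tits.ModU
import Cfsg.Agent.Lib.Tits.ModT
import Cfsg.Agent.Lib.KRow.OutCl
import Cfsg.Agent.Lib.KRow.OutExc
import Cfsg.Agent.Lib.RGD.Simple
import Cfsg.Agent.Lib.OrthE.Embed
import Cfsg.Agent.S0249
import Cfsg.Agent.S0270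
import Cfsg.Agent.S0283
import Cfsg.Agent.S0295
import Cfsg.Agent.S0296
import Cfsg.Agent.S0297
import Cfsg.Agent.S0821
import Cfsg.Agent.S1070

/-!
# Tits' classification of the finite simple groups with an irreducible BN-pair of rank at least three
-/

set_option autoImplicit false

namespace CfsgLib.Tits
open Cfsg Cfsg.Lie Cfsg.Agent CfsgLib.BN CfsgLib.KRow

/-- the conclusion -/
def Concl (G : Type*) [Group G] : Prop :=
  IsPSL G ∨ IsPSp G ∨ IsPSU G ∨ IsPOmegaOdd G ∨ IsPOmegaPlus G ∨ IsPOmegaMinus G ∨ IsExceptionalLieType G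

theorem Concl.solvable {X : Type*} [Group X] [Finite X] (h : Concl X) : Group.IsSolvable (Out X) := by
  rcases h with h | h | h | h | h | h | h
  exacts [(od_psl h).solvable, (od_psp (n := 1) h).solvable, (od_psu h).solvable, (od_orth (n := 1) (.inl h)).solvable,
    (od_orth (n := 1) (.inr (.inl h))).solvable, (od_orth (n := 1) (.inr (.inr h))).solvable, (od_exc (n := 1) h).solvable]

theorem exists_field {q : ℕ} (h : IsPrimePow q) : ∃ (F : Type) (_ : Field F) (_ : Fintype F), Fintype.card F = q := by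
  obtain ⟨p, k, hp, hk, rfl⟩ := (isPrimePow_nat_iff q).1 h
  have := Fact.mk hp
  let := Fintype.ofFinite (GaloisField p k)
  exact ⟨GaloisField p k, inferInstance, this, by rw [← Nat.card_eq_fintype_card, GaloisField.card p k hk.ne']⟩

section Concl
variable {X : Type*} [Group X] {F : Type} [Field F] [Fintype F] {n q : ℕ}

theorem c_psl (hn : 3 ≤ n) (e : Nonempty (X ≃* Matrix.ProjectiveSpecialLinearGroup (Fin n) F)) : Concl X :=
  .inl ⟨F, _, ‹_›, n, by omega, by omega, e⟩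

theorem c_psp (hn : 3 ≤ n) (e : Nonempty (X ≃* PSp n F)) : Concl X :=
  .inr (.inl ⟨F, _, ‹_›, n, by omega, by omega, e⟩)

theorem c_psu (hn : 4 ≤ n) (hF : Fintype.card F = q ^ 2) (e : Nonempty (X ≃* PSU n F q)) : Concl X :=
  .inr (.inr (.inl ⟨F, _, ‹_›, n, q, hF, by omega, by omega, e⟩))

theorem c_odd (hn : 3 ≤ n) (h : Odd (Fintype.card F)) (e : Nonempty (X ≃* POmega F (quadFormOdd n F))) : Concl X :=
  .inr (.inr (.inr (.inl ⟨F, _, ‹_›, n, hn, h, e⟩)))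

theorem c_plus (hn : 4 ≤ n) (e : Nonempty (X ≃* POmega F (quadFormPlus n F))) : Concl X :=
  .inr (.inr (.inr (.inr (.inl ⟨F, _, ‹_›, n, hn, e⟩))))

theorem c_minus (hn : 3 ≤ n) {a b : F} (hab : ∀ z₁ z₂ : F, z₁ ^ 2 + a * z₁ * z₂ + b * z₂ ^ 2 = 0 → z₁ = 0 ∧ z₂ = 0)
    (e : Nonempty (X ≃* POmega F (quadFormMinus n F a b))) : Concl X :=
  .inr (.inr (.inr (.inr (.inr (.inl ⟨F, _, ‹_›, n + 1, a, b, by omega, hab, e⟩)))))

theorem c_exc (h : IsExceptionalLieType X) : Concl X := .inr (.inr (.inr (.inr (.inr (.inr h)))))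

theorem c_F4 (e : Nonempty (X ≃* chevF4.group F)) : Concl X := c_exc (.inr (.inl ⟨F, _, ‹_›, e⟩))

theorem c_E6 (e : Nonempty (X ≃* chevE6.group F)) : Concl X := c_exc (.inr (.inr (.inl ⟨F, _, ‹_›, e⟩)))

theorem c_E7 (e : Nonempty (X ≃* chevE7.group F)) : Concl X := c_exc (.inr (.inr (.inr (.inl ⟨F, _, ‹_›, e⟩))))

theorem c_E8 (e : Nonempty (X ≃* chevE8.group F)) : Concl X :=
  c_exc (.inr (.inr (.inr (.inr (.inl ⟨F, _, ‹_›, e⟩)))))

theorem c_2E6 (hq : IsPrimePow q) (hF : Fintype.card F = q ^ 2) (e : Nonempty (X ≃* twistedE6 F q)) : Concl X :=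
  c_exc (.inr (.inr (.inr (.inr (.inr (.inl ⟨F, _, ‹_›, q, hq, hF, e⟩))))))

end Concl

variable {B W : Type*} [Group W] [Finite W] {E : ExchSys B W}

/-- a building together with its root group datum -/
structure GR (E : ExchSys B W) (X : Type*) [Group X] extends Geo E X where
  R : RG E (Equiv.Perm C)
  hR : R.U = D.UG a

instance GR.finite {X : Type*} [Group X] (Γ : GR E X) : Finite (Equiv.Perm Γ.C) := by
  have := Γ.fin
  infer_instance

theorem exists_geoR (hd : Dia E.mat) {X : Type*} [Group X] (Γ : Geo E X) : ∃ Δ : GR E X, Δ.toGeo = Γ := by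
  obtain ⟨R, h, -⟩ := Bld.exists_rg hd Γ.apt
  exact ⟨⟨Γ, R, h⟩, rfl⟩

/-- a model -/
def GR.IsMod {X : Type*} [Group X] (Δ : GR E X) (q : B → ℕ) : Prop :=
  ∃ p : ℕ, p.Prime ∧ Δ.D.Spl Δ.a Δ.ρ.range p q

theorem GR.IsMod.card (hd : Dia E.mat) {X : Type*} [Group X] {Δ : GR E X} {q : B → ℕ} (h : Δ.IsMod q) (i : B) :
    Nat.card (Δ.R.S i) = q i := by
  obtain ⟨p, -, h⟩ := h
  rw [RG.S, Δ.hR]
  exact h.card_UG hd Δ.apt i

variable [Nonempty B]

theorem exists_mod (hd : Dia E.mat) {n : ℕ} {M : ℕ → ℕ → ℕ} (e : B ≃ Fin n) (hE : ∀ i j, E.mat i j = M (e i) (e j))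
    {q : ℕ → ℕ} {X : Type*} [Group X] [Finite X] [IsSimpleGroup X] (h : BNMod n M q X) :
    ∃ Δ : GR E X, Δ.IsMod fun i => q (e i) := by
  obtain ⟨Δ, p, hp, h⟩ := exists_geo_of_mod E e hE h
  obtain ⟨Δ, rfl⟩ := exists_geoR hd Δ
  exact ⟨Δ, p, hp, h⟩

variable {G : Type*} [Group G] [IsSimpleGroup G]

theorem iso_of_mod (hd : Dia E.mat) {X : Type*} [Group X] [Finite X] [IsSimpleGroup X] (Γ : GR E G) {Δ : GR E X}
    {q : B → ℕ} (h : Δ.IsMod q) (hX : Concl X) (hf : Γ.R.Found Δ.R) : Nonempty (G ≃* X) := by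
  obtain ⟨p, hp, h⟩ := h
  obtain ⟨φ, h1, h2⟩ := Bld.iso_of_found hd Γ.apt Δ.apt Γ.hR Δ.hR hf
  exact final_iso hd Γ.toGeo Δ.toGeo hp h hX.solvable φ h1 h2

section Simple
variable {n : ℕ} {M : ℕ → ℕ → ℕ} (e : B ≃ Fin n) (hE : ∀ i j, E.mat i j = M (e i) (e j))
include hE

theorem simple_case (hd : Dia fun i j : Fin n => M i j) (hT : Tree (fun i j : Fin n => M i j) {i | i.val = 0})
    (h0 : 0 < n) {j : ℕ} (hj : j < n) (h3 : M j 0 = 3) (Γ : Geo E G) :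
    ∃ (F : Type) (_ : Field F) (_ : Fintype F), ∀ (X : Type) [Group X] [Finite X] [IsSimpleGroup X],
      BNMod n M (fun _ => Nat.card F) X → Concl X → Nonempty (G ≃* X) := by
  replace hd := dia_of_fin e hE hd
  obtain ⟨Γ, -⟩ := exists_geoR hd Γ
  have h4 : E.mat (e.symm ⟨j, hj⟩) (e.symm ⟨0, h0⟩) = 3 := by simpa [hE]
  obtain ⟨F, _, _, hF⟩ := exists_field (Γ.R.isPrimePow_card ((mat_comm E _ _).trans h4))
  refine ⟨F, ‹_›, ‹_›, fun X _ _ _ h hX => ?_⟩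
  obtain ⟨Δ, h⟩ := exists_mod hd e hE h
  refine iso_of_mod hd Γ h hX (RG.found_simple (tree_of_fin e hE (fun i => ?_) hT) h4 ?_)
  · simp [Equiv.eq_symm_apply, Fin.ext_iff]
  · rw [h.card hd, ← hF, Nat.card_eq_fintype_card]

end Simple

section Double
variable {h i j : B} (hd : Dia E.mat) (hT : Tree E.mat {i, j}) (h1 : E.mat h i = 3) (h2 : E.mat i j = 4)
  (h3 : E.mat h j = 2) (h4 : ∀ k, E.mat k i = 3 → k = h)
include hd hT h1 h2 h3 h4

theorem double_case (Γ : GR E G) (h5 : ∀ k, E.mat k j = 3 → Γ.R.Bit i j ∧ E.mat k i = 2 ∧ E.mat k h = 2)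
    {X : Type*} [Group X] [Finite X] [IsSimpleGroup X] {Δ : GR E X} {q : B → ℕ} (hΔ : Δ.IsMod q) (hX : Concl X)
    (hi : Nat.card (Γ.R.S i) = q i) (hj : Nat.card (Γ.R.S j) = q j)
    (hb : q i ≠ q j ∨ Even (q i) ∨ (Γ.R.Bit i j ↔ Δ.R.Bit i j)) : Nonempty (G ≃* X) := by
  have hi' := hΔ.card hd i
  have hj' := hΔ.card hd j
  refine iso_of_mod hd Γ hΔ hX (RG.found_double hT h1 h2 h3 h4 h5 (hi.trans hi'.symm) (hj.trans hj'.symm) ?_)
  rcases lt_trichotomy (q i) (q j) with c | c | c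
  · exact iff_of_false (RG.not_bit_of_lt h1 h2 h3 (by omega)) (RG.not_bit_of_lt h1 h2 h3 (by omega))
  · rcases hb with hb | hb | hb
    · exact absurd c hb
    · exact iff_of_true (RG.bit_of_even h1 h2 h3 (by omega) (hi ▸ hb)) (RG.bit_of_even h1 h2 h3 (by omega) (hi' ▸ hb))
    · exact hb
  · exact iff_of_true (RG.bit_of_lt h1 h2 h3 (by omega)) (RG.bit_of_lt h1 h2 h3 (by omega))

end Double

theorem pow_ne_self {q k : ℕ} (hq : IsPrimePow q) (hk : 2 ≤ k) : q ^ k ≠ q := fun h =>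
  (Nat.pow_lt_pow_right hq.one_lt (show 1 < k by omega)).ne' (by simpa using h)

theorem concl_B {n : ℕ} (hn : 3 ≤ n) (e : B ≃ Fin n) (hE : ∀ i j, E.mat i j = mB n (e i) (e j)) (Γ : Geo E G) :
    Concl G := by
  have hd := dia_of_fin e hE (dia_B hn)
  obtain ⟨Γ, -⟩ := exists_geoR hd Γ
  obtain ⟨h, hh⟩ : ∃ h, (e h).val + 3 = n := ⟨e.symm ⟨n - 3, by omega⟩, by simp; omega⟩
  obtain ⟨i, hi⟩ : ∃ i, (e i).val + 2 = n := ⟨e.symm ⟨n - 2, by omega⟩, by simp; omega⟩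
  obtain ⟨j, hj⟩ : ∃ j, (e j).val + 1 = n := ⟨e.symm ⟨n - 1, by omega⟩, by simp; omega⟩
  have inj : ∀ {a b}, (e a).val = e b → a = b := fun h => e.injective (Fin.ext h)
  have hT : Tree E.mat {i, j} := tree_of_fin e hE (fun k => ⟨by rintro (rfl | rfl) <;> simp [hi, hj],
    fun c => c.imp (fun c => inj (by omega)) fun c => inj (by omega)⟩) tree_B
  have h1 : E.mat h i = 3 := by have := mB_spec n (e h) (e i); rw [hE]; omega
  have h2 : E.mat i j = 4 := by have := mB_spec n (e i) (e j); rw [hE]; omega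
  have h3 : E.mat h j = 2 := by have := mB_spec n (e h) (e j); rw [hE]; omega
  have h4 : ∀ k, E.mat k i = 3 → k = h := fun k c => inj (by have := mB_spec n (e k) (e i); rw [hE] at c; omega)
  have h5 : ∀ k, E.mat k j ≠ 3 := fun k c => by have := mB_spec n (e k) (e j); have := (e k).2; rw [hE] at c; omega
  have hq := Γ.R.isPrimePow_card ((mat_comm E _ _).trans h1)
  obtain ⟨F, _, _, hF⟩ := exists_field hq
  have hF' := Nat.card_eq_fintype_card.trans hF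
  have hi' : ¬ (e i).val + 1 = n := by omega
  rcases RG.c3_card h1 h2 h3 Γ.R with c | c | c | c
  · have := S0270.result (F := F) n (by omega) (by omega)
    obtain ⟨Δ, hΔ⟩ := exists_mod hd e hE (mod_psp F hn)
    by_cases hb : Even (Nat.card F) ∨ (Γ.R.Bit i j ↔ Δ.R.Bit i j)
    · exact c_psp hn (double_case hd hT h1 h2 h3 h4 Γ (fun k c => (h5 k c).elim) hΔ
        (c_psp hn ⟨.refl _⟩) hF'.symm (c.trans hF'.symm) (.inr hb))
    have ho : Odd (Fintype.card F) := by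
      rw [← Nat.card_eq_fintype_card, ← Nat.not_even_iff_odd]; exact fun c => hb (.inl c)
    have := S0295.result ho n hn
    obtain ⟨Λ, hΛ⟩ := exists_mod hd e hE (mod_odd F hn ho)
    refine c_odd hn ho (double_case hd hT h1 h2 h3 h4 Γ (fun k c => (h5 k c).elim) hΛ
      (c_odd hn ho ⟨.refl _⟩) hF'.symm (c.trans hF'.symm) (.inr (.inr ?_)))
    have : ¬ (Δ.R.Bit i j ↔ Λ.R.Bit i j) := fun c => (S0821.result ho n hn).false (double_case hd hT h1 h2 h3 h4 Δ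
      (fun k c => (h5 k c).elim) hΛ (c_odd hn ho ⟨.refl _⟩) (hΔ.card hd i) (hΔ.card hd j) (.inr (.inr c))).some
    tauto
  · obtain ⟨a, b, hab⟩ := OrthE.exists_anisotropic F
    have : IsSimpleGroup (POmega F (quadFormMinus n F a b)) := S0297.result (n + 1) (by omega) a b hab
    obtain ⟨Δ, hΔ⟩ := exists_mod hd e hE (mod_minus hn hab)
    refine c_minus hn hab (double_case hd hT h1 h2 h3 h4 Γ (fun k c => (h5 k c).elim) hΔ (c_minus hn hab ⟨.refl _⟩)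
      (by simp [hi', hF]) (by simp [hj, hF, c]) (.inl ?_))
    simpa [hi', hj, hF] using (pow_ne_self hq le_rfl).symm
  · rw [← c] at hF hq
    have := S0283.result hF (2 * n) (by omega) (by omega)
    obtain ⟨Δ, hΔ⟩ := exists_mod hd e hE (mod_psu_even hn hF)
    refine c_psu (by omega) hF (double_case hd hT h1 h2 h3 h4 Γ (fun k c => (h5 k c).elim) hΔ
      (c_psu (by omega) hF ⟨.refl _⟩) (by simp [hi', c]) (by simp [hj]) (.inl ?_))
    simpa [hi', hj] using pow_ne_self ((isPrimePow_pow_iff two_ne_zero).1 hq) le_rfl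
  · obtain ⟨q, hq1, hq2⟩ := Nat.exists_eq_pow_of_pow_eq_pow (.inl two_ne_zero) c
    norm_num only at hq1 hq2
    rw [hq2] at hF hq
    have := S0283.result hF (2 * n + 1) (by omega) (by omega)
    obtain ⟨Δ, hΔ⟩ := exists_mod hd e hE (mod_psu_odd hn hF)
    refine c_psu (by omega) hF (double_case hd hT h1 h2 h3 h4 Γ (fun k c => (h5 k c).elim) hΔ
      (c_psu (by omega) hF ⟨.refl _⟩) (by simp [hi', hq2]) (by simp [hj, hq1]) (.inl ?_))
    simpa [hi', hj] using (Nat.pow_lt_pow_right ((isPrimePow_pow_iff two_ne_zero).1 hq).one_lt (by norm_num : 2 < 3)).ne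

omit [IsSimpleGroup G] [Nonempty B] in
/-- the diagram of type `F₄` can be oriented -/
theorem bit_or (e : B ≃ Fin 4) (hE : ∀ i j, E.mat i j = mF (e i) (e j)) (Γ : GR E G) :
    Γ.R.Bit (e.symm 1) (e.symm 2) ∨ Γ.R.Bit (e.symm 2) (e.symm 1) := by
  by_contra! h
  have a := RG.card_of_not_bit (h := e.symm 0) (by simp [hE, mF]) (by simp [hE, mF]) (by simp [hE, mF]) h.1 h.2
  have b := RG.card_of_not_bit (h := e.symm 3) (by simp [hE, mF]) (by simp [hE, mF]) (by simp [hE, mF]) h.2 h.1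
  have c := (Γ.R.isPrimePow_card (i := e.symm 2) (j := e.symm 3) (by simp [hE, mF])).one_lt
  generalize Nat.card (Γ.R.S (e.symm 1)) = x at *
  generalize Nat.card (Γ.R.S (e.symm 2)) = y at *
  have : y ^ 4 = y ^ 9 := by
    calc y ^ 4 = (y ^ 2) ^ 2 := by ring
      _ = (x ^ 2) ^ 3 := by rw [a]; ring
      _ = y ^ 9 := by rw [b]; ring
  exact absurd (Nat.pow_right_injective c this) (by norm_num)

theorem mF_rev (i j : Fin 4) : mF (3 - i) (3 - j) = mF i j := by revert i j; decide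

omit [IsSimpleGroup G] [Nonempty B] in
theorem exists_bit (e : B ≃ Fin 4) (hE : ∀ i j, E.mat i j = mF (e i) (e j)) {q : ℕ} {Γ : GR E G}
    (h : Γ.IsMod fun _ => q) : ∃ Δ : GR E G, (Δ.IsMod fun _ => q) ∧ Δ.R.Bit (e.symm 1) (e.symm 2) := by
  rcases bit_or e hE Γ with c | c
  · exact ⟨Γ, h, c⟩
  let π : B ≃ B := (e.trans Fin.revPerm).trans e.symm
  obtain ⟨τ, D, h1, h2⟩ := exists_bld_map E Γ.D π fun i j => by simp [π, hE, mF_rev]
  obtain ⟨h2, h3, h4, h5⟩ := h2 Γ.a Γ.apt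
  obtain ⟨Δ, hΔ⟩ := exists_geoR (dia_of_fin e hE dia_F) ⟨Γ.C, Γ.fin, D, _, h2, Γ.ρ, Γ.inj, h4 _ Γ.str⟩
  obtain ⟨⟨C, _, D', a, ha, ρ, hρ, hs⟩, R, hR⟩ := Δ
  cases hΔ
  obtain ⟨p, hp, h⟩ := h
  refine ⟨⟨_, R, hR⟩, ⟨p, hp, h5 _ _ _ h⟩, ?_⟩
  have e1 : e.symm 1 = π (e.symm 2) := by simp [π]
  have e2 : e.symm 2 = π (e.symm 1) := by simp [π]
  intro y hy z hz
  refine c y ?_ z ?_
  · rw [Γ.hR, ← h3, h1, ← e1, ← e2]
    exact hR ▸ hy
  · rw [RG.S, Γ.hR, ← h3, map_one, ← e2]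
    exact hR ▸ hz

theorem concl_F_bit (e : B ≃ Fin 4) (hE : ∀ i j, E.mat i j = mF (e i) (e j)) (Γ : GR E G)
    (hb : Γ.R.Bit (e.symm 1) (e.symm 2)) : Concl G := by
  have hd := dia_of_fin e hE dia_F
  have hT : Tree E.mat {e.symm 1, e.symm 2} :=
    tree_of_fin e hE (fun k => by simp [Equiv.eq_symm_apply, Fin.ext_iff]) tree_F
  have h1 : E.mat (e.symm 0) (e.symm 1) = 3 := by simp [hE, mF]
  have h2 : E.mat (e.symm 1) (e.symm 2) = 4 := by simp [hE, mF]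
  have h3 : E.mat (e.symm 0) (e.symm 2) = 2 := by simp [hE, mF]
  have h4 : ∀ k, E.mat k (e.symm 1) = 3 → k = e.symm 0 := fun k => by
    obtain ⟨k, rfl⟩ := e.symm.surjective k
    simp only [hE, Equiv.apply_symm_apply, EmbeddingLike.apply_eq_iff_eq]
    revert k; decide
  have h5 : ∀ k, E.mat k (e.symm 2) = 3 → Γ.R.Bit (e.symm 1) (e.symm 2) ∧ E.mat k (e.symm 1) = 2 ∧
      E.mat k (e.symm 0) = 2 := fun k c => ⟨hb, by
    obtain ⟨k, rfl⟩ := e.symm.surjective k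
    simp only [hE, Equiv.apply_symm_apply] at c ⊢
    revert k; decide⟩
  have hq := Γ.R.isPrimePow_card ((mat_comm E _ _).trans h1)
  have hq' := Γ.R.isPrimePow_card (i := e.symm 2) (j := e.symm 3) (by simp [hE, mF])
  have hle : ¬ _ < _ := fun c => RG.not_bit_of_lt h1 h2 h3 c hb
  obtain ⟨F, _, _, hF⟩ := exists_field hq
  have hF' := Nat.card_eq_fintype_card.trans hF
  rcases RG.c3_card h1 h2 h3 Γ.R with c | c | c | c
  · have := RGD.isSimpleGroup_F4 (F := F)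
    obtain ⟨Δ, hΔ⟩ := exists_mod hd e hE (mod_F4 F)
    obtain ⟨Δ, hΔ, hb'⟩ := exists_bit e hE hΔ
    exact c_F4 (double_case hd hT h1 h2 h3 h4 Γ h5 hΔ (c_F4 ⟨.refl _⟩) hF'.symm (c.trans hF'.symm)
      (.inr (.inr (iff_of_true hb hb'))))
  · exact absurd (c ▸ by simpa using Nat.pow_lt_pow_right hq.one_lt one_lt_two) hle
  · rw [← c] at hF
    have := (S1070.result hq' hF).1
    obtain ⟨Δ, hΔ⟩ := exists_mod hd e hE (mod_2E6 hq' hF)
    exact c_2E6 hq' hF (double_case hd hT h1 h2 h3 h4 Γ h5 hΔ (c_2E6 hq' hF ⟨.refl _⟩) (by simp [c])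
      (by simp) (.inl (by simpa using pow_ne_self hq' le_rfl)))
  · refine absurd (lt_of_pow_lt_pow_left₀ 2 (Nat.zero_le _) ?_) hle
    exact c ▸ Nat.pow_lt_pow_right hq.one_lt (by norm_num)

theorem concl_F (e : B ≃ Fin 4) (hE : ∀ i j, E.mat i j = mF (e i) (e j)) (Γ : Geo E G) : Concl G := by
  obtain ⟨Γ, -⟩ := exists_geoR (dia_of_fin e hE dia_F) Γ
  rcases bit_or e hE Γ with c | c
  · exact concl_F_bit e hE Γ c
  · exact concl_F_bit (e.trans Fin.revPerm) (fun i j => by simp [hE, mF_rev]) Γ c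

theorem concl_of_geo [Fintype B] (h : ∀ i j, i ≠ j → E.mat i j ∈ ({2, 3, 4, 6, 8} : Set ℕ)) (h3 : 3 ≤ Fintype.card B)
    (hc : ∀ J : Set B, J.Nonempty → Jᶜ.Nonempty → ∃ i ∈ J, ∃ j ∉ J, E.mat i j ≠ 2) (Γ : Geo E G) : Concl G := by
  rcases type_of_pd (mat_comm E) (mat_self E) h (pd_of_finite E h) h3 hc with
    ⟨n, hn, e, hE⟩ | ⟨n, hn, e, hE⟩ | ⟨n, hn, e, hE⟩ | ⟨e, hE⟩ | ⟨e, hE⟩ | ⟨e, hE⟩ | ⟨e, hE⟩
  · obtain ⟨F, _, _, h⟩ := simple_case e hE (dia_A hn) tree_A (by omega) (j := 1) (by omega) rfl Γ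
    have := S0249.result (F := F) (n + 1) (by omega)
    exact c_psl (by omega) (h _ (mod_psl F hn) (c_psl (by omega) ⟨.refl _⟩))
  · exact concl_B hn e hE Γ
  · obtain ⟨F, _, _, h⟩ := simple_case e hE (dia_D hn) (tree_D hn) (by omega) (j := 1) (by omega)
      (by have := mD_spec n 1 0; omega) Γ
    have := S0296.result (F := F) n hn
    exact c_plus hn (h _ (mod_plus F hn) (c_plus hn ⟨.refl _⟩))
  · obtain ⟨F, _, _, h⟩ := simple_case e hE dia_E6 tree_E6 (by omega) (j := 2) (by omega) rfl Γ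
    have := RGD.isSimpleGroup_E6 (F := F)
    exact c_E6 (h _ (mod_E6 F) (c_E6 ⟨.refl _⟩))
  · obtain ⟨F, _, _, h⟩ := simple_case e hE dia_E7 tree_E7 (by omega) (j := 2) (by omega) rfl Γ
    have := RGD.isSimpleGroup_E7 (F := F)
    exact c_E7 (h _ (mod_E7 F) (c_E7 ⟨.refl _⟩))
  · obtain ⟨F, _, _, h⟩ := simple_case e hE dia_E8 tree_E8 (by omega) (j := 2) (by omega) rfl Γ
    have := RGD.isSimpleGroup_E8 (F := F)
    exact c_E8 (h _ (mod_E8 F) (c_E8 ⟨.refl _⟩))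
  · exact concl_F e hE Γ

theorem concl_of_bn {G : Type*} [Group G] [Finite G] [IsSimpleGroup G] (P : BNPair G) (h3 : 3 ≤ P.rank)
    (hirr : P.Irreducible) : Concl G := by
  let := Fintype.ofFinite P.S
  rw [BNPair.rank, Nat.card_eq_fintype_card] at h3
  have : Nonempty P.S := Fintype.card_pos_iff.1 (by omega)
  obtain ⟨Γ⟩ := exists_geo P
  refine concl_of_geo (E := exch P) (fun i j h => FH.orderOf_mem (P := P) h.symm) h3 (fun J ⟨i, hi⟩ ⟨j, hj⟩ => ?_) Γ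
  obtain ⟨_, ⟨s, hs, rfl⟩, t, ⟨ht, ht'⟩, h⟩ := hirr (Subtype.val '' J) (Subtype.coe_image_subset _ _) ⟨_, i, hi, rfl⟩
    ⟨j, j.2, fun ⟨k, hk, e⟩ => hj (Subtype.ext e ▸ hk)⟩
  have ht'' : (⟨t, ht⟩ : P.S) ∉ J := fun c => ht' ⟨_, c, rfl⟩
  refine ⟨s, hs, ⟨t, ht⟩, ht'', fun c => h ?_⟩
  rw [mat_eq_two_iff _ (ne_of_mem_of_not_mem hs ht'')] at c
  have h1 : s.1 ∈ P.N := P.subset s.2
  have h2 : t ∈ P.N := P.subset ht
  refine (cls_eq_one_iff P (mul_mem (mul_mem (mul_mem h1 h2) (inv_mem h1)) (inv_mem h2))).1 ?_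
  rw [cls_mul P (mul_mem (mul_mem h1 h2) (inv_mem h1)) (inv_mem h2), cls_mul P (mul_mem h1 h2) (inv_mem h1),
    cls_mul P h1 h2, cls_inv P h1, cls_inv P h2]
  change cls P h1 * cls P h2 = cls P h2 * cls P h1 at c
  rw [c]; group

end CfsgLib.Tits
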