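import Cfsg.Agent.Lib.Tits.Defs
import Cfsg.Agent.Lib.LieAll.Main

/-!
# Package MODG: the split BN-pair of a twisted group (see `plans/TITS.md`)
-/

set_option autoImplicit false
set_option linter.unusedSectionVars false

namespace CfsgLib.Tits
open Cfsg CfsgLib.BN
open scoped commutatorElement

open CfsgLib.RGD CfsgLib.Twist CfsgLib.ChevAut CfsgLib.LieAll

theorem cls_pow_eq_one {X : Type*} [Group X] (P : BNPair X) {n : X} (hn : n ∈ P.N) (k : ℕ) :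
    cls P hn ^ k = 1 ↔ n ^ k ∈ P.B := by
  rw [← cls_eq_one_iff P (pow_mem hn k)]; rfl

section Comap
variable {X Y : Type*} [Group X] [Group Y] (P : BNPair X) (e : Y ≃* X)

theorem comap_dc {g n : Y} : g ∈ DoubleCoset.doubleCoset n (P.B.comap e.toMonoidHom : Set Y)
    (P.B.comap e.toMonoidHom) ↔ e g ∈ DoubleCoset.doubleCoset (e n) (P.B : Set X) P.B := by
  simp only [DoubleCoset.mem_doubleCoset, e.surjective.exists, ← map_mul, e.injective.eq_iff]; rfl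

/-- transport of a BN-pair along an isomorphism -/
def bnComap : BNPair Y where
  B := P.B.comap e.toMonoidHom
  N := P.N.comap e.toMonoidHom
  S := e ⁻¹' P.S
  sup_eq_top := by rw [Subgroup.comap_sup_eq _ _ _ e.surjective, P.sup_eq_top, Subgroup.comap_top]
  conj_mem n hn t ht := by simpa using P.conj_mem _ hn _ ht
  subset _ h := P.subset h
  sq_mem s hs := by simpa using P.sq_mem _ hs
  inj s hs t ht h := e.injective (P.inj _ hs _ ht (by simpa using h))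
  closure_sup := by
    conv_rhs => rw [← P.closure_sup, ← Subgroup.comap_sup_eq _ _ _ e.surjective, Subgroup.comap_inf]
    congr 1
    rw [Subgroup.comap_equiv_eq_map_symm', MonoidHom.map_closure]
    exact congrArg _ (e.toEquiv.image_symm_eq_preimage _).symm
  mul_mem_union s hs n hn b hb := by
    simpa only [Set.mem_union, comap_dc, map_mul] using P.mul_mem_union _ hs (e n) hn (e b) hb
  conj_ne s hs h := P.conj_ne _ hs (by
    ext x
    obtain ⟨x, rfl⟩ := e.surjective x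
    refine Iff.trans ?_ (Set.ext_iff.1 h x)
    simp only [Set.mem_image, e.surjective.exists, ← map_mul, e.injective.eq_iff]; rfl)

theorem comap_cell {n g : Y} (hn : n ∈ (bnComap P e).N) :
    g ∈ cell (bnComap P e) (cls _ hn) ↔ e g ∈ cell P (cls P (show e n ∈ P.N from hn)) := by
  rw [cell_cls, cell_cls]; exact comap_dc P e

theorem comap_P (s : (bnComap P e).S) {n : Y} (hn : n ∈ (bnComap P e).N) :
    (exch (bnComap P e)).P s (cls _ hn) ↔ (exch P).P ⟨e s, s.2⟩ (cls P (show e n ∈ P.N from hn)) := by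
  simp only [exch, sW, ← cls_mul, comap_cell, e.surjective.forall, map_mul]

end Comap

theorem BNMod.congr {n : ℕ} {M : ℕ → ℕ → ℕ} {q : ℕ → ℕ} {X Y : Type*} [Group X] [Group Y] (h : BNMod n M q X)
    (e : Y ≃* X) : BNMod n M q Y := by
  obtain ⟨P, ε, p, hp, h1, U, Z, a1, a2, a3, a4, a5, a6, a7, a8, a9, a10⟩ := h
  let τ : (bnComap P e).S ≃ P.S := e.toEquiv.subtypeEquiv fun _ => Iff.rfl
  refine ⟨bnComap P e, τ.trans ε, p, hp, fun s t => ?_, U.comap e.toMonoidHom,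
    fun s => (Z (τ s)).comap e.toMonoidHom, a1.comap_of_injective _ e.injective, fun _ h => a2 h,
    fun g hg ⟨k, hk⟩ => a3 _ hg ⟨k, by rw [← map_pow, hk, map_one]⟩, fun b hb => ?_,
    fun n hn h u hu k => ?_, fun s _ h => a6 _ h, fun s => ?_, fun s g hg => ?_,
    fun s n hn h y hy => ?_, fun s t n hn h h' y hy g hg => ?_⟩
  · refine Eq.trans ?_ (h1 (τ s) (τ t))
    rw [sW, sW, sW, sW, ← cls_mul, ← cls_mul, orderOf_eq_orderOf_iff]
    refine fun k => (cls_pow_eq_one _ _ k).trans (Iff.trans ?_ (cls_pow_eq_one _ _ k).symm)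
    change e _ ∈ P.B ↔ (e _ * e _) ^ k ∈ P.B
    rw [map_pow, map_mul]
  · obtain ⟨u, hu, h, hh, k⟩ := a4 (e b) hb
    obtain ⟨u, rfl⟩ := e.surjective u
    obtain ⟨h, rfl⟩ := e.surjective h
    exact ⟨u, hu, h, hh, e.injective (k.trans (map_mul e _ _).symm)⟩
  · refine e.injective ((a5 (e n) hn (fun s => ?_) (e u) hu ?_).trans (map_one e).symm)
    · obtain ⟨s, rfl⟩ := τ.surjective s
      exact fun k => h s ((comap_P P e s hn).2 k)
    · rwa [← map_inv, ← map_mul, ← map_mul]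
  · exact (Nat.card_congr (e.toEquiv.subtypeEquiv fun _ => Iff.rfl)).trans (a7 (τ s))
  · obtain ⟨y, hy, b, hb, k⟩ := a8 (τ s) (e g) ((comap_cell P e _).1 hg)
    obtain ⟨y, rfl⟩ := e.surjective y
    obtain ⟨b, rfl⟩ := e.surjective b
    exact ⟨y, hy, b, hb, e.injective (by rw [k, map_mul, map_mul]; rfl)⟩
  · have := a9 (τ s) (e n) hn ((comap_P P e s hn).1 h) _ hy
    change e _ ∈ P.B
    rwa [map_mul, map_mul, map_inv]
  · rw [sW, ← cls_mul, comap_P] at h'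
    have := a10 (τ s) (τ t) (e n) hn ((comap_P P e s hn).1 h) (by
      simp only [map_mul] at h'
      exact (cls_mul P (show e n ∈ P.N from hn) (P.subset t.2)) ▸ h') _ hy (e g) ((comap_cell P e _).1 hg)
    change e _ ∈ P.B
    rwa [map_mul, map_mul, map_inv, map_mul, map_mul, map_inv]

variable {ι κ B : Type} [Fintype κ] [DecidableEq κ] [Finite ι] {Φ : RootSys ι κ}
  {F : Type*} [Field F] [Finite F] {G : Type*} [Group G] [Finite G] {S : StSys Φ F G}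

theorem bn_P_of_pos {T : Tw S B} {K : Subgroup G} (hK : IsTw T K) {n : K} (hn : n ∈ hK.bn.N)
    {w : Equiv.Perm ι} (ha : S.Acts n w) {b : B} (h : ∀ i ∈ T.J b, Φ.Pos (w⁻¹ (Φ.simple i))) :
    (exch hK.bn).P ⟨hK.nM b, b, rfl⟩ (cls _ hn) := by
  have hS := hK.sharp
  have hw := hK.nondeg.mem_W_of_acts hn.1 ha
  by_contra k
  obtain ⟨β, hβ, k⟩ := exists_sbn_mem hn k
  obtain ⟨β₁, h1, β₂, h2, k⟩ := (mem_cell_cls _ _).1 k
  obtain ⟨u, hu, t, ht, e⟩ := S.mem_B_iff.1 hβ.1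
  obtain ⟨a, ha', c, hc, rfl⟩ := hS.exists_rad_mul (T.J b) hu
  have hm : S.Acts (t * n) w := by simpa using (S.acts_of_mem_H ht).mul ha hw
  refine T.sw_ne_one b (mul_eq_right.1 (hK.nondeg.acts_eq_of_eq
    (mul_mem (hK.nb_mem_N b) (mul_mem (S.H_le_N ht) hn.1)) hn.1 ((hK.acts_nb b).mul hm hw) ha
    (S.U_le_B (S.UJ_le_U _ (hS.levi_norm _ _
      (hS.mem_LJ_of_acts (hK.nb_mem_N b) (T.sw_mem_WJ b) (hK.acts_nb b)) _ ha')))
    (S.U_le_B (conj_mem_UU' hw hm (fun r hr => Φ.pos_apply_of_pos_simple (inv_mem hw) h hr.1 hr.2) hc))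
    h1.1 h2.1 (Eq.trans ?_ (congrArg Subtype.val k))))
  change _ = hK.nb b * β * n
  rw [show (β : G) = _ from e]; simp only [Subgroup.coe_subtype]; group

theorem pos_of_bn_P {T : Tw S B} {K : Subgroup G} (hK : IsTw T K) {n : K} (hn : n ∈ hK.bn.N)
    {w : Equiv.Perm ι} (ha : S.Acts n w) {b : B} (h : (exch hK.bn).P ⟨hK.nM b, b, rfl⟩ (cls _ hn)) :
    ∀ i ∈ T.J b, Φ.Pos (w⁻¹ (Φ.simple i)) := by
  have hw := hK.mem_W1 hn.1 n.2 ha
  refine (T.pos_or_neg_J (inv_mem hw) b).resolve_right fun k => (exch hK.bn).P_not _ _ h ?_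
  rw [exch_s, sW, ← cls_mul]
  refine bn_P_of_pos hK _ ((hK.acts_nb b).mul ha hw.1) ?_
  rw [mul_inv_rev, T.sw_inv]
  exact T.pos_mul_sw (inv_mem hw) k

theorem bnMod_of_isTw {T : Tw S B} {K : Subgroup G} (hK : IsTw T K) {n : ℕ} {M : ℕ → ℕ → ℕ} {q : ℕ → ℕ}
    (e : B ≃ Fin n) (h1 : ∀ b c, orderOf (T.sw b * T.sw c) = M (e b) (e c))
    (h2 : ∀ b, Nat.card (Ub T K b) = q (e b)) : BNMod n M q K := by
  have hS := hK.sharp
  obtain ⟨p, hp⟩ := CharP.exists F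
  have : Fact p.Prime := ⟨CharP.char_is_prime F p⟩
  let τ : B ≃ hK.bn.S := Equiv.ofInjective hK.nM fun b c h => T.sw_injective (hS.acts_unique
    (hK.acts_nb b) (by rw [show hK.nb b = hK.nb c from congrArg Subtype.val h]; exact hK.acts_nb c))
  have hB : ∀ {g : K}, (g : G) ∈ S.B → g ∈ hK.bn.B := fun h => ⟨h, Subtype.prop _⟩
  have hU : ∀ {g : K}, (g : G) ∈ S.U → g ∈ hK.bn.B := fun h => hB (S.U_le_B h)
  have hL := fun b => hS.mem_LJ_of_acts (hK.nb_mem_N b) (T.sw_mem_WJ b) (hK.acts_nb b)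
  refine ⟨hK.bn, τ.symm.trans e, p, this.1, fun s t => ?_, hK.sylow p,
    fun s => (Ub T K (τ.symm s)).subgroupOf K, (hK.sylow p).isPGroup', fun _ h => hU h.1,
    fun g hg ⟨k, hk⟩ => ?_, fun b hb => ?_, fun n hn h u hu k => ?_,
    fun s _ h => ⟨UU_posJ_le_U S _ h.1, h.2⟩, fun s => ?_, fun s g hg => ?_, fun s n hn h y hy => ?_,
    fun s t n hn h h' y hy g hg => ?_⟩
  · obtain ⟨b, rfl⟩ := τ.surjective s
    obtain ⟨c, rfl⟩ := τ.surjective t
    simp only [Equiv.trans_apply, τ.symm_apply_apply, ← h1]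
    rw [sW, sW, ← cls_mul, orderOf_eq_orderOf_iff]
    refine fun k => (cls_pow_eq_one _ _ k).trans ?_
    have hN := pow_mem (mul_mem (hK.nb_mem_N b) (hK.nb_mem_N c)) k
    have ha : S.Acts ((hK.nb b * hK.nb c) ^ k) ((T.sw b * T.sw c) ^ k) := by
      clear hN
      induction k with
      | zero => simpa using S.acts_one
      | succ k ih =>
        rw [pow_succ, pow_succ]
        exact ih.mul ((hK.acts_nb b).mul (hK.acts_nb c) (T.sw_mem c).1) (mul_mem (T.sw_mem b).1 (T.sw_mem c).1)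
    exact ⟨fun h => hS.eq_one_of_acts_mem_B hN ha h.1,
      fun h => hB (S.H_le_B (hS.mem_H _ hN (h ▸ ha)))⟩
  · have h3 : g ∈ Subgroup.normalizer (hK.sylow p : Set K) := fun x =>
      ((hK.mem_sylow p).trans (S.B_le_normalizer_U hg.1 x)).trans (hK.mem_sylow p (g := g * x * g⁻¹)).symm
    have h4 : IsPGroup p (Subgroup.zpowers g) := by
      rintro ⟨_, m, rfl⟩
      exact ⟨k, Subtype.ext (by
        change (g ^ m) ^ p ^ k = 1
        rw [← zpow_natCast, ← zpow_mul, mul_comm, zpow_mul, zpow_natCast, hk, one_zpow])⟩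
    exact ((h4.inf_normalizer_sylow _).le ⟨Subgroup.mem_zpowers g, h3⟩).2
  · obtain ⟨u, hu, h, hh, k⟩ := hK.mem_B hb.1 b.2
    exact ⟨⟨u, hK.U_le hu⟩, ⟨hu.1, hK.U_le hu⟩, ⟨h, hh.2⟩, ⟨⟨S.H_le_B hh.1, hh.2⟩, S.H_le_N hh.1, hh.2⟩,
      Subtype.ext k⟩
  · obtain ⟨w, hw, ha⟩ := hS.acts_N hn.1
    have := hS.eq_one_of_mem_B_V k.1 (conj_mem_UU' hw ha (fun r hr =>
      Φ.neg_apply_of_neg_simple (J := Set.univ) (inv_mem hw) (fun i _ => ((T.pos_or_neg_J
        (inv_mem (hK.mem_W1 hn.1 n.2 ha)) (T.orb i)).resolve_left fun k =>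
          h (τ _) (bn_P_of_pos hK hn ha k)) i rfl) hr (Φ.inSub_univ r)) hu.1)
    simpa [mul_assoc, inv_mul_eq_one] using this
  · exact (Nat.card_congr (Subgroup.subgroupOfEquivOfLe inf_le_right).toEquiv).trans (h2 _)
  · obtain ⟨b, rfl⟩ := τ.surjective s
    obtain ⟨β, hβ, β', hβ', rfl⟩ := (mem_cell_cls _ _).1 hg
    obtain ⟨u, hu, h, hh, k⟩ := hK.mem_B hβ.1 β.2
    obtain ⟨a, ha, c, hc, k'⟩ := T.exists_rad_mul_fix hS b (inv_mem hu.1) (inv_mem hu.2)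
    have hc' := hK.posJ_le b hc
    refine ⟨⟨c, hc'⟩⁻¹, by simp only [τ.symm_apply_apply]; exact inv_mem ⟨hc.1, hc'⟩,
      (hK.nM b)⁻¹ * ⟨c, hc'⟩ * β * hK.nM b * β', mul_mem (hB ?_) hβ', by
        change β * hK.nM b * β' = _ * hK.nM b * _; group⟩
    have := mul_mem (S.U_le_B (S.UJ_le_U _ (hS.levi_norm _ _ (inv_mem (hL b)) _ (inv_mem ha.1))))
      (S.H_le_B (S.N_inv_conj_mem_H (hK.nb_mem_N b) hh.1))
    convert this using 1
    change (hK.nb b)⁻¹ * c * β * hK.nb b = _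
    rw [show (β : G) = _ from k, ← inv_inv u, k']; group
  · obtain ⟨b, rfl⟩ := τ.surjective s
    obtain ⟨w, hw, ha⟩ := hS.acts_N hn.1
    simp only [τ.symm_apply_apply] at hy
    exact hU (conj_mem_UU' hw ha (fun r hr => Φ.pos_apply_of_pos_simple (inv_mem hw)
      (pos_of_bn_P hK hn ha h) hr.1 hr.2) hy.1)
  · obtain ⟨b, rfl⟩ := τ.surjective s
    obtain ⟨c, rfl⟩ := τ.surjective t
    obtain ⟨w, hw, ha⟩ := hS.acts_N hn.1
    simp only [τ.symm_apply_apply] at hy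
    rw [sW, ← cls_mul] at h'
    have a1 := pos_of_bn_P hK _ (ha.mul (hK.acts_nb c) (T.sw_mem c).1) h'
    obtain ⟨β, hβ, β', hβ', rfl⟩ := (mem_cell_cls _ _).1 hg
    have a2 := S.P_conj_mem_UJ (inv_mem (mul_mem (mul_mem (S.B_le_P _ hβ.1) (S.LJ_le_P _ (hL c)))
      (S.B_le_P _ hβ'.1))) (conj_mem_UU' hw ha (Ψ' := {r | Φ.Pos r ∧ ¬ Φ.InSub (T.J c) r}) (fun r hr => by
        have a3 := Φ.pos_apply_of_pos_simple (inv_mem hw) (pos_of_bn_P hK hn ha h) hr.1 hr.2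
        refine ⟨a3, fun a4 => Φ.not_pos_of_neg (w0_neg Φ _ a3 a4) ?_⟩
        have := Φ.pos_apply_of_pos_simple (inv_mem (mul_mem hw (T.sw_mem c).1)) a1 hr.1 hr.2
        rwa [mul_inv_rev, T.sw_inv] at this) hy.1)
    rw [inv_inv] at a2
    exact hU (S.UJ_le_U _ a2)

omit [Finite ι] in
theorem orderOf_s_mul_s {i j : κ} (h : i ≠ j) {k : ℕ}
    (hk : Φ.A i j * Φ.A j i = 0 ∧ k = 2 ∨ Φ.A i j * Φ.A j i = 1 ∧ k = 3 ∨ Φ.A i j * Φ.A j i = 2 ∧ k = 4) :
    orderOf (Φ.s i * Φ.s j) = k := by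
  have ws : ∀ a b r, Φ.wt a (Φ.s b r) = Φ.wt a r - Φ.A a b * Φ.wt b r := fun a b r => by
    simp only [RootSys.wt, Φ.s_apply, Φ.rt_refl, mul_sub, Finset.sum_sub_distrib, mul_ite, mul_zero,
      Finset.sum_ite_eq', Finset.mem_univ, if_true]
  have ne : ∀ m : ℕ, Φ.rt (((Φ.s i * Φ.s j) ^ m) (Φ.simple j)) j ≠ 1 → (Φ.s i * Φ.s j) ^ m ≠ 1 :=
    fun m h e => h (by rw [e]; simp [Φ.rt_simple])
  have n1 : Φ.s i * Φ.s j ≠ 1 := by
    simpa using ne 1 (by simp [Φ.rt_s, h.symm, Φ.rt_simple, Φ.wt_simple, Φ.A_self])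
  have eq : ∀ m : ℕ, (∀ r l, Φ.rt (((Φ.s i * Φ.s j) ^ m) r) l = Φ.rt r l) → (Φ.s i * Φ.s j) ^ m = 1 :=
    fun m h => Equiv.ext fun r => Φ.rt_inj _ _ (funext (h r))
  rcases hk with ⟨hk, rfl⟩ | ⟨hk, rfl⟩ | ⟨hk, rfl⟩
  · have d := Φ.d_symm i j
    have d1 := Φ.d_pos i
    have d2 := Φ.d_pos j
    obtain ⟨a, b⟩ : Φ.A i j = 0 ∧ Φ.A j i = 0 := by
      rcases mul_eq_zero.1 hk with k | k <;> simp_all [d1.ne', d2.ne']
    refine orderOf_eq_prime (eq 2 fun r l => ?_) n1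
    simp only [pow_succ, pow_zero, one_mul, Equiv.Perm.mul_apply, Φ.rt_s, ws, Φ.A_self, a, b]
    split_ifs <;> ring
  · refine orderOf_eq_prime (eq 3 fun r l => ?_) n1
    simp only [pow_succ, pow_zero, one_mul, Equiv.Perm.mul_apply, Φ.rt_s, ws, Φ.A_self]
    split_ifs with h1 h2
    · exact absurd (h1.symm.trans h2) h.symm
    all_goals grind
  · refine orderOf_eq_prime_pow (p := 2) (n := 1) (ne 2 ?_) (eq 4 fun r l => ?_)
    · simp only [pow_succ, pow_zero, one_mul, Equiv.Perm.mul_apply, Φ.rt_s, ws, Φ.A_self, Φ.wt_simple,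
        Φ.rt_simple, if_neg h.symm, if_true]
      grind
    simp only [pow_succ, pow_zero, one_mul, Equiv.Perm.mul_apply, Φ.rt_s, ws, Φ.A_self]
    split_ifs with h1 h2
    · exact absurd (h1.symm.trans h2) h.symm
    all_goals grind

theorem sw_eq_s' {T : Sym Φ B} {b : B} {k : κ} (hk : T.J b = {k}) : T.sw b = Φ.s k :=
  (eq_w0 Φ (Φ.s_mem_WJ (hk ▸ rfl)) fun i hi => by
    rw [show i = k from (hk ▸ hi : i ∈ ({k} : Set κ)), Φ.s_simple]; exact Φ.neg_neg_simple k).symm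

theorem bnMod_id {K : Subgroup G} (hK : IsTw (idTw S) K) {n : ℕ} {M : ℕ → ℕ → ℕ} (e : κ ≃ Fin n)
    (h0 : ∀ i, M i i = 1) (h1 : ∀ i j, i ≠ j → Φ.A i j * Φ.A j i = 0 ∧ M (e i) (e j) = 2 ∨
      Φ.A i j * Φ.A j i = 1 ∧ M (e i) (e j) = 3 ∨ Φ.A i j * Φ.A j i = 2 ∧ M (e i) (e j) = 4) :
    BNMod n M (fun _ => Nat.card F) K := by
  refine bnMod_of_isTw hK e (fun b c => ?_) fun b => ?_
  · rw [sw_eq_s' (idTw_J S b), sw_eq_s' (idTw_J S c)]
    by_cases h : b = c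
    · rw [h, h0, Φ.s_mul_self, orderOf_one]
    · exact orderOf_s_mul_s h (h1 b c h)
  · rw [Ub, inf_eq_left.2 fun g hg => hK.posJ_le b ⟨hg, S.UU_le_grp _ hg, rfl⟩, idTw_J, posJ_singleton,
      hK.nondeg.card_UU (StSys.closed_singleton (Φ.simple b)) (by rintro _ rfl; exact Φ.pos_simple b)]
    simp

end CfsgLib.Tits
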