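import Cfsg.Agent.Lib.Tits.ModG

/-!
# Tools for the models: orders of products of the generators of the fixed Weyl group
-/

set_option autoImplicit false

namespace CfsgLib.Tits.Mh
open CfsgLib.RGD CfsgLib.Twist CfsgLib.ChevAut CfsgLib.LieAll CfsgLib.ClSys

section Grp

variable {W : Type*} [Group W] {a a' b b' x y : W}

theorem ord2 (hx : x * x = 1) (hy : y * y = 1) (h : Commute x y) (hne : x ≠ y) : orderOf (x * y) = 2 :=
  orderOf_eq_prime (by rw [h.mul_pow, sq, sq, hx, hy, one_mul]) fun e =>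
    hne (by rw [← mul_one x, ← hy, ← mul_assoc, e, one_mul])

theorem ord3 (hy : y * y = 1) (h : (x * y) ^ 3 = 1) (hne : x ≠ y) : orderOf (x * y) = 3 :=
  haveI : Fact (Nat.Prime 3) := ⟨Nat.prime_three⟩
  orderOf_eq_prime h fun e => hne (by rw [← mul_one x, ← hy, ← mul_assoc, e, one_mul])

theorem ord4 (hx : x * x = 1) (hy : y * y = 1) (h : Commute y (x * y * x)) (hne : x * y * x ≠ y) :
    orderOf (x * y) = 4 := by
  have e : (x * y) ^ 2 = x * y * x * y := by rw [sq, mul_assoc (x * y)]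
  refine orderOf_eq_prime_pow (p := 2) (n := 1) (fun e' => hne ?_) ?_
  · rw [pow_one, e] at e'
    rw [← mul_one (x * y * x), ← hy, ← mul_assoc, e', one_mul]
  · rw [show 2 ^ (1 + 1) = 2 * 2 from rfl, pow_mul, e, h.symm.mul_pow, sq, sq, hy, mul_one,
      show x * y * x * (x * y * x) = x * y * (x * x) * y * x by group, hx, mul_one, mul_assoc x, hy,
      mul_one, hx]

theorem cube (ha : a * a = 1) (hb : b * b = 1) (h : a * b * a = b * a * b) : (a * b) ^ 3 = 1 := by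
  rw [show (a * b) ^ 3 = a * b * a * (b * a * b) by simp only [pow_succ, pow_zero, one_mul, mul_assoc], ← h,
    show a * b * a * (a * b * a) = a * b * (a * a) * b * a by group, ha, mul_one, mul_assoc a, hb, mul_one, ha]

theorem pair3 (h1 : Commute a a') (h2 : Commute a b') (h3 : Commute b a') (h4 : Commute b b')
    (h : (a * b) ^ 3 = 1) (h' : (a' * b') ^ 3 = 1) : (a * a' * (b * b')) ^ 3 = 1 := by
  rw [← h3.mul_mul_mul_comm, ((h1.mul_right h2).mul_left (h3.mul_right h4)).mul_pow, h, h', one_mul]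

theorem ord_a3 (ha : a * a = 1) (ha' : a' * a' = 1) (hb : b * b = 1) (h1 : Commute a a')
    (h2 : a * b * a = b * a * b) (h3 : a' * b * a' = b * a' * b) (hne : a ≠ a') :
    orderOf (a * a' * b) = 4 := by
  have e : a * a' * b * (a * a') = a * (b * a' * b) * a := by
    rw [← h3]; nth_rewrite 2 [h1.eq]; group
  refine ord4 (by rw [← sq, h1.mul_pow, sq, sq, ha, ha', one_mul]) hb ?_ fun h => hne ?_
  · rw [e]
    calc b * (a * (b * a' * b) * a) = b * a * b * a' * b * a := by group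
      _ = a * b * (a * a') * b * a := by rw [← h2]; group
      _ = a * b * a' * (a * b * a) := by rw [h1.eq]; group
      _ = _ := by rw [h2]; group
  · rw [e] at h
    have : b * a * b = b * a' * b := by
      rw [← h2, ← h, show a * (a * (b * a' * b) * a) * a = a * a * (b * a' * b) * (a * a) by group, ha,
        one_mul, mul_one, h]
    exact mul_left_cancel (mul_right_cancel this)

theorem ord_a4 (ha : a * a = 1) (ha' : a' * a' = 1) (hb : b * b = 1) (hb' : b' * b' = 1)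
    (h1 : Commute a a') (h2 : Commute a b') (h3 : Commute b a') (h4 : a * b * a = b * a * b)
    (h5 : b * b' * b = b' * b * b') (h6 : a' * b' * a' = b' * a' * b') (hne : a' ≠ b) :
    orderOf (a * a' * (b * b' * b)) = 4 := by
  have i : ∀ {z : W}, z * z = 1 → z⁻¹ = z := inv_eq_of_mul_eq_one_right
  obtain ⟨u, hu⟩ : ∃ u, u = a * b * b' := ⟨_, rfl⟩
  have e : a * a' * (b * b' * b) * (a * a') = u * a' * u⁻¹ := by
    rw [hu, mul_inv_rev, mul_inv_rev, i ha, i hb, i hb']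
    calc _ = a * (a' * b) * b' * (b * a') * a := by nth_rewrite 2 [h1.eq]; group
      _ = a * b * (a' * b' * a') * b * a := by rw [← h3.eq]; nth_rewrite 2 [h3.eq]; group
      _ = _ := by rw [h6]; group
  have e1 : b = u * a * u⁻¹ := by
    rw [eq_mul_inv_iff_mul_eq, hu, ← mul_assoc, ← mul_assoc, ← h4, mul_assoc _ a, h2.eq]; group
  have e2 : b' = u * b * u⁻¹ := by
    rw [eq_mul_inv_iff_mul_eq, hu, ← mul_assoc, ← mul_assoc, ← h2.eq, mul_assoc a, mul_assoc a, ← h5]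
    group
  have e3 : b * b' * b = u * (a * b * a) * u⁻¹ := by
    rw [← conj_mul, ← conj_mul, ← e1, ← e2]
  refine ord4 (by rw [← sq, h1.mul_pow, sq, sq, ha, ha', one_mul])
    (by rw [show b * b' * b * (b * b' * b) = b * b' * (b * b) * b' * b by group, hb, mul_one, mul_assoc b,
      hb', mul_one, hb]) ?_ fun h => hne ?_
  · rw [e, e3]
    exact ((h1.mul_left h3).mul_left h1).conj u
  · rw [e, e3] at h
    have := mul_left_cancel (mul_right_cancel h)
    rw [← one_mul a', ← ha, mul_assoc, h1.eq, this]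
    rw [show a * (a * b * a * a) = a * a * b * (a * a) by group, ha, one_mul, mul_one]

end Grp

variable {ι κ B : Type} [Fintype κ] [DecidableEq κ] {Φ : RootSys ι κ} {i j : κ}

theorem s_inj (h : Φ.s i = Φ.s j) : i = j := by
  by_contra e
  have := Φ.pos_s (Φ.pos_simple i) (i := j) fun e' => e (Φ.simple_injective e')
  rw [← h, Φ.s_simple] at this
  exact Φ.not_neg_of_pos this (Φ.neg_neg_simple i)

theorem s_ne_one (i : κ) : Φ.s i ≠ 1 := fun h => by
  have := Φ.neg_neg_simple i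
  rw [← Φ.s_simple, h] at this
  exact Φ.not_neg_of_pos (Φ.pos_simple i) this

theorem s_comm (h : i ≠ j → Φ.A i j = 0) : Commute (Φ.s i) (Φ.s j) := by
  by_cases e : i = j
  · rw [e]
  have := pow_orderOf_eq_one (Φ.s i * Φ.s j)
  rw [orderOf_s_mul_s e (k := 2) (Or.inl ⟨by rw [h e, zero_mul], rfl⟩), sq, mul_eq_one_iff_eq_inv,
    mul_inv_rev, Φ.s_inv, Φ.s_inv] at this
  exact this

theorem s_braid (h : Φ.A i j = -1) (h' : Φ.A j i = -1) : Φ.s i * Φ.s j * Φ.s i = Φ.s j * Φ.s i * Φ.s j := by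
  have := pow_orderOf_eq_one (Φ.s i * Φ.s j)
  rw [orderOf_s_mul_s (by rintro rfl; rw [Φ.A_self] at h; omega) (k := 3)
    (Or.inr (Or.inl ⟨by rw [h, h']; rfl, rfl⟩)), show (Φ.s i * Φ.s j) ^ 3 = Φ.s i * Φ.s j * Φ.s i *
      (Φ.s j * Φ.s i * Φ.s j) by simp only [pow_succ, pow_zero, one_mul, mul_assoc],
    mul_eq_one_iff_eq_inv, mul_inv_rev, mul_inv_rev, Φ.s_inv, Φ.s_inv, ← mul_assoc] at this
  exact this

variable [Finite ι]

section SW

variable (T : Sym Φ B) (hπ : ∀ i, T.π (T.π i) = i)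

theorem sw_one (h : T.π i = i) : T.sw (T.orb i) = Φ.s i :=
  ((T.eq_one_or_sw ⟨Φ.s_mem_W i, by rw [T.conj_s, h]⟩ (Φ.s_mem_WJ (T.mem_J.2 rfl))).resolve_left
    (s_ne_one i)).symm

include hπ

theorem sw_two (h : T.π i ≠ i) (hc : Commute (Φ.s i) (Φ.s (T.π i))) :
    T.sw (T.orb i) = Φ.s i * Φ.s (T.π i) :=
  ((T.eq_one_or_sw ⟨mul_mem (Φ.s_mem_W _) (Φ.s_mem_W _), by
    rw [← conj_mul, T.conj_s, T.conj_s, hπ, hc.eq]⟩ (mul_mem (Φ.s_mem_WJ (T.mem_J.2 rfl))
      (Φ.s_mem_WJ (T.mem_J.2 (T.orb_π i))))).resolve_left fun e => h (s_inj (Φ := Φ) (by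
        rw [← Φ.s_inv i]; exact eq_inv_of_mul_eq_one_right e))).symm

theorem sw_three (hc : Φ.s i * Φ.s (T.π i) * Φ.s i = Φ.s (T.π i) * Φ.s i * Φ.s (T.π i)) :
    T.sw (T.orb i) = Φ.s i * Φ.s (T.π i) * Φ.s i :=
  ((T.eq_one_or_sw ⟨mul_mem (mul_mem (Φ.s_mem_W _) (Φ.s_mem_W _)) (Φ.s_mem_W _), by
    rw [← conj_mul, ← conj_mul, T.conj_s, T.conj_s, hπ, hc]⟩ (mul_mem (mul_mem (Φ.s_mem_WJ (T.mem_J.2 rfl))
      (Φ.s_mem_WJ (T.mem_J.2 (T.orb_π i)))) (Φ.s_mem_WJ (T.mem_J.2 rfl)))).resolve_left fun e =>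
        s_ne_one (T.π i) (conj_eq_one_iff.1 (by rwa [Φ.s_inv]))).symm

theorem sw_ord2 (hne : T.orb i ≠ T.orb j) (h1 : Φ.A i j = 0) (h2 : Φ.A i (T.π j) = 0)
    (h3 : Φ.A (T.π i) j = 0) (h4 : Φ.A (T.π i) (T.π j) = 0) : orderOf (T.sw (T.orb i) * T.sw (T.orb j)) = 2 := by
  refine ord2 (T.sw_mul_self _) (T.sw_mul_self _) ?_ (T.sw_injective.ne hne)
  have k : ∀ {J : Set κ} {x y : Equiv.Perm ι}, y ∈ Φ.WJ J → (∀ l ∈ J, Commute x (Φ.s l)) → Commute x y :=
    fun hy h => Subgroup.closure_induction (p := fun y _ => Commute _ y) (by rintro _ ⟨l, hl, rfl⟩; exact h l hl)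
      (Commute.one_right _) (fun _ _ _ _ => Commute.mul_right) (fun _ _ => Commute.inv_right) hy
  refine k (T.sw_mem_WJ _) fun l hl => (k (T.sw_mem_WJ _) fun m hm => (s_comm fun _ => ?_).symm).symm
  rcases (mem_J_iff_of_sq T hπ).1 hl with rfl | rfl <;> rcases (mem_J_iff_of_sq T hπ).1 hm with rfl | rfl <;>
    assumption

end SW

variable {F : Type*} [Field F] {G : Type*} [Group G] {S : StSys Φ F G} {T : Tw S B} {K : Subgroup G}
  (hK : IsTw T K) (hπ : ∀ i, T.π (T.π i) = i)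

include hK hπ

omit [Finite ι] in
theorem card_one (h : T.π i = i) : Nat.card (Ub T K (T.orb i)) = Nat.card {t // T.f i t = t} := by
  rw [Ub_eq hK, show T.J (T.orb i) = {i} from Set.ext fun j => by simp [mem_J_iff_of_sq _ hπ, h],
    T.card_single hK.sharp h]

omit [Finite ι] in
theorem card_two (h : T.π i ≠ i) (hf : ∀ t, T.f (T.π i) (T.f i t) = t)
    (hs : ∀ r ∈ posJ Φ (T.J (T.orb i)), ∃ k, r = Φ.simple k) : Nat.card (Ub T K (T.orb i)) = Nat.card F := by
  rw [Ub_eq hK]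
  refine T.card_pair rfl (hπ i) (orth_of_posJ hs (T.mem_J.2 rfl) (T.mem_J.2 (T.orb_π i)) h.symm) hf hK.sharp
    fun r => ⟨fun hr => ?_, ?_⟩
  · obtain ⟨k, rfl⟩ := hs r hr
    exact ((mem_J_iff_of_sq _ hπ).1 (Φ.inSub_simple_iff.1 hr.2)).imp (congrArg _) (congrArg _)
  · rintro (rfl | rfl)
    exacts [simple_mem_posJ (T.mem_J.2 rfl), simple_mem_posJ (T.mem_J.2 (T.orb_π i))]

omit hπ in
theorem bnMod_of_rep [Finite F] [Finite G] {n : ℕ} {q : ℕ → ℕ} (f : Fin n → κ)
    (hf : Function.Bijective (T.orb ∘ f))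
    (h1 : ∀ a b, a < b → orderOf (T.sw (T.orb (f a)) * T.sw (T.orb (f b))) = mB n a b)
    (h2 : ∀ a, Nat.card (Ub T K (T.orb (f a))) = q a) : BNMod n (mB n) q K := by
  refine bnMod_of_isTw hK (Equiv.ofBijective _ hf).symm (fun b c => ?_) fun b => ?_
  · obtain ⟨a, rfl⟩ := (Equiv.ofBijective _ hf).surjective b
    obtain ⟨b, rfl⟩ := (Equiv.ofBijective _ hf).surjective c
    rw [Equiv.symm_apply_apply, Equiv.symm_apply_apply]
    simp only [Equiv.ofBijective_apply, Function.comp_apply]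
    rcases lt_trichotomy a b with h | rfl | h
    · exact h1 a b h
    · rw [T.sw_mul_self, orderOf_one, mB, if_pos rfl]
    · rw [← orderOf_inv, mul_inv_rev, T.sw_inv, T.sw_inv, h1 b a h]
      simp only [mB, eq_comm, or_comm, add_comm]
  · obtain ⟨a, rfl⟩ := (Equiv.ofBijective _ hf).surjective b
    rw [Equiv.symm_apply_apply]
    exact h2 a

omit hK hπ

open Matrix

theorem bc_A {m : ℕ} {k : ℤ} (hk : k = 1 ∨ k = 2) (i j : Fin m) : (rootBC m hk).A i j =
    if i.val = j.val then 2 else if i.val + 1 = j.val then (if j.val + 1 < m then -1 else -k)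
    else if j.val + 1 = i.val then (if i.val + 1 < m then -1 else k - 3) else 0 := by
  have h := rootBC_wt hk i (simpleBC j)
  rw [← rootBC_simple hk j, RootSys.wt_simple, rootBC_simple] at h
  have := i.2; have := j.2
  generalize (rootBC m hk).A i j = A at h
  rcases simpleBC_cases i with ⟨r, e, h1⟩ | ⟨a, e, h1⟩ <;>
    rcases simpleBC_cases j with ⟨r', e', h'⟩ | ⟨a', e', h'⟩ <;>
    rw [e, e', evBC_dot_self] at h <;>
    simp only [evBC, Sum.elim_inl, Sum.elim_inr, evM, add_dotProduct, dotProduct_add, smul_dotProduct,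
      dotProduct_smul, smul_eq_mul, eps_dot] at h <;> rcases hk with rfl | rfl <;> omega

theorem d_A {m : ℕ} (hm : 2 ≤ m) (i j : Fin m) : (rootD hm).A i j =
    if i.val = j.val then 2 else if (i.val + 1 = j.val ∧ j.val + 1 < m) ∨
      (j.val + 1 = i.val ∧ i.val + 1 < m) ∨ (i.val + 2 = j.val ∧ j.val + 1 = m) ∨
      (j.val + 2 = i.val ∧ i.val + 1 = m) then -1 else 0 := by
  have h1 := key_simpleD hm i
  have h2 := key_simpleD hm j
  rw [← (rootD hm).wt_simple, rootD_wt, rootD_simple]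
  generalize simpleD hm i = r, simpleD hm j = s at h1 h2
  simp only [evM, add_dotProduct, dotProduct_add, eps_dot]
  generalize key r.1.1 = x, key r.1.2 = y, key s.1.1 = z, key s.1.2 = w at h1 h2
  have := i.2; have := j.2
  rcases h1 with ⟨a, rfl, rfl⟩ | ⟨a, rfl, rfl⟩ <;> rcases h2 with ⟨b, rfl, rfl⟩ | ⟨b, rfl, rfl⟩ <;>
    split_ifs <;> omega

end CfsgLib.Tits.Mh
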