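import Cfsg.Agent.Lib.Tits.Ext3

/-!
# Package MOU: the Moufang property (see `plans/TITS.md`)
-/

set_option autoImplicit false

namespace CfsgLib.Tits
open Cfsg CfsgLib.BN
open scoped commutatorElement

section cox
variable {B W : Type*} [Group W] (E : ExchSys B W)

theorem exists_descent {y : W} (h : y ≠ 1) : ∃ s y0, y = y0 * E.s s ∧ E.len y0 + 1 = E.len y := by
  obtain ⟨s, hs⟩ := E.exists_not_P (inv_ne_one.2 h)
  refine ⟨s, y * E.s s, (E.mul_s_mul_s s y).symm, ?_⟩
  have e := E.len_lt_of_not_P hs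
  rwa [← E.len_inv, mul_inv_rev, inv_inv, E.s_inv, E.len_inv] at e

theorem br2 {i j : B} (h : E.mat i j = 2) (x : W) : E.s i * (E.s j * x) = E.s j * (E.s i * x) := by
  rw [← mul_assoc, (mat_eq_two_iff E (ne_of_mat E (by omega))).1 h, mul_assoc]

theorem br3 {i j : B} (h : E.mat i j = 3) (x : W) :
    E.s i * (E.s j * (E.s i * x)) = E.s j * (E.s i * (E.s j * x)) := by
  simp only [← mul_assoc, braid3 E h]

theorem br4 {i j : B} (h : E.mat i j = 4) (x : W) :
    E.s i * (E.s j * (E.s i * (E.s j * x))) = E.s j * (E.s i * (E.s j * (E.s i * x))) := by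
  simp only [← mul_assoc, braid4 E h]

/-- a chamber deep inside a fundamental root -/
theorem exists_deep (hd : Dia E.mat) (i : B) : ∃ v, E.P i v ∧ ∀ p q, v⁻¹ * E.s i * v ∉ E.par {p, q} := by
  obtain ⟨j, k, ij, jk, ik, h1, h2⟩ := hd.three i
  have r1 : E.Red [j, i, j] := red_conj E (K := {i}) (l := [i]) ij.symm
    (E.red_nil.cons (E.P_one i)) (by simp) fun e => h1 ((mat_eq_two_iff E ij).2 (by simpa [E.wp_singleton] using e.symm))
  have hk : k ∉ ({i, j} : Set B) := by simp [jk.symm, ik.symm]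
  have hm : ∀ x ∈ [j, i, j], x ∈ ({i, j} : Set B) := by simp
  have r2 : E.Red [k, j, i, j, k] := red_conj E hk r1 hm fun e => by
    have h3 := r1.mem_of_mem_par (mem_par_of_conj E hk (E.wp_mem_par hm)
      (by rw [e, E.mul_s_mul_s]; exact E.wp_mem_par hm))
    exact h2.elim (fun h => h ((mat_eq_two_iff E jk).2 (h3 j (by simp)).2.symm))
      fun h => h ((mat_eq_two_iff E ik).2 (h3 i (by simp)).2.symm)
  refine ⟨E.s j * E.s k, P_of_not_mem E (J := {j, k})
    (mul_mem (E.s_mem_par (by simp)) (E.s_mem_par (by simp))) (by simp [ij, ik]), fun p q h => ?_⟩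
  have h3 := r2.mem_of_mem_par (J := {p, q}) (by simpa [ExchSys.wp, E.s_inv, mul_assoc] using h)
  have a := h3 i (by simp)
  have b := h3 j (by simp)
  have c := h3 k (by simp)
  simp only [Set.mem_insert_iff, Set.mem_singleton_iff] at a b c
  grind

/-- the induction over the walls -/
theorem wall_induction (hd : Dia E.mat) {r0 : W} (h0 : ∀ p q, r0 ∉ E.par {p, q}) {good : W → Prop}
    (base : ∀ t, good (E.s t))
    (rule : ∀ y s t, y⁻¹ * r0 * y ∉ E.par {s, t} → good (y * E.s s * y⁻¹) → good (y * E.s t * y⁻¹) →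
      good (y * E.s s * E.s t * (y * E.s s)⁻¹)) (y : W) (t : B) (hr : y * E.s t * y⁻¹ ≠ r0) :
    good (y * E.s t * y⁻¹) := by
  obtain ⟨n, hn⟩ : ∃ n, E.len y = n := ⟨_, rfl⟩
  induction n using Nat.strong_induction_on generalizing y t with
  | h n ih =>
  by_contra hg
  obtain ⟨r, er⟩ : ∃ r, y * E.s t * y⁻¹ = r := ⟨_, rfl⟩
  rw [er] at hr hg
  have min : ∀ y k, y * E.s k * y⁻¹ = r → n ≤ E.len y := fun y k e => by
    by_contra hl
    exact hg (e ▸ ih _ (by omega) y k (e ▸ hr) rfl)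
  have ne : ∀ {y s t k}, y⁻¹ * r0 * y ∉ E.par {s, t} → k ∈ ({s, t} : Set B) → y * E.s k * y⁻¹ ≠ r0 :=
    fun {y s t k} h hk e => h (by rw [← e]; simpa [mul_assoc] using E.s_mem_par hk)
  have A : ∀ y0 s t, E.len y0 < n → y0 * E.s s * E.s t * (y0 * E.s s)⁻¹ = r →
      (y0 * E.s s)⁻¹ * r0 * (y0 * E.s s) ∈ E.par {s, t} := fun y0 s t hl e => by
    by_contra h
    have h1 : y0⁻¹ * r0 * y0 ∉ E.par {s, t} := fun h1 => h (by
      have hs : E.s s ∈ E.par {s, t} := E.s_mem_par (by simp)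
      simpa only [mul_inv_rev, mul_assoc] using mul_mem (mul_mem (inv_mem hs) h1) hs)
    exact hg (e ▸ rule y0 s t h1 (ih _ hl y0 s (ne h1 (by simp)) rfl) (ih _ hl y0 t (ne h1 (by simp)) rfl))
  have T : ∀ y t, y * E.s t * y⁻¹ = r → y⁻¹ * r0 * y ∉ E.par {t} := fun y t e h => by
    rcases E.mem_par_singleton.1 h with h | h
    · exact h0 t t (by rw [show r0 = y * (y⁻¹ * r0 * y) * y⁻¹ by group, h]; simp)
    · exact hr (by rw [← e, ← h]; group)
  have Bb : ∀ y t y0 s y1 s', y * E.s t * y⁻¹ = r → y = y0 * E.s s → y = y1 * E.s s' → E.len y0 < n →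
      E.len y1 < n → s = s' := fun y t y0 s y1 s' e e0 e1 l0 l1 => by
    by_contra hs
    have h := Subgroup.mem_inf.2 ⟨e0 ▸ A y0 s t l0 (e0 ▸ e), e1 ▸ A y1 s' t l1 (e1 ▸ e)⟩
    rw [E.par_inf] at h
    refine T y t e (E.par_mono ?_ h)
    rintro x ⟨rfl | rfl, h | h⟩
    exacts [absurd h hs, h, rfl, rfl]
  obtain ⟨s, y0, rfl, l0⟩ := exists_descent E (y := y) (by rintro rfl; exact hg (by simpa [← er] using base t))
  have hξ := A y0 s t (by omega) er
  obtain ⟨u, y1, rfl, l1⟩ := exists_descent E (y := y0) (by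
    rintro rfl
    have hs : E.s s ∈ E.par {s, t} := E.s_mem_par (by simp)
    exact h0 s t (by convert mul_mem (mul_mem hs hξ) (inv_mem hs) using 1; group))
  have ls := E.len_mul_s_le s y1
  have lt := E.len_mul_s_le t y1
  have er' := er
  simp only [mul_inv_rev, E.s_inv, mul_assoc] at er'
  have st : s ≠ t := by
    rintro rfl
    have := min (y1 * E.s u) s (by simp only [← er', mul_inv_rev, E.s_inv, mul_assoc, E.s_mul_s_mul])
    omega
  have m2 : E.mat s t ≠ 2 := fun m2 => by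
    have := min (y1 * E.s u) t (by
      simp only [← er', mul_inv_rev, E.s_inv, mul_assoc, br2 E m2, E.s_mul_s_mul])
    omega
  have us : u ≠ s := by
    rintro rfl
    rw [E.mul_s_mul_s] at l0
    omega
  have m34 := (hd.mem s t st).resolve_left m2
  have ut : u ≠ t := by
    rintro rfl
    rcases m34 with m | m
    · have := min y1 s (by simp only [← er', mul_assoc, ← br3 E m, E.s_mul_s_mul])
      omega
    · have := min (y1 * E.s s) u (by
        simp only [← er', mul_inv_rev, E.s_inv, mul_assoc, ← br4 E m, E.s_mul_s_mul])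
      omega
  have mus : E.mat u s ≠ 2 := fun m => us (Bb _ t _ u _ s er
    (by rw [mul_assoc, (mat_eq_two_iff E us).1 m, ← mul_assoc]) rfl (by omega) (by omega))
  have mtu := hd.tri u s t us st ut mus m2
  rcases m34 with m | m
  · exact ut (Bb (y1 * E.s u * E.s t) s (y1 * E.s t) u _ t
      (by simp only [← er', mul_inv_rev, E.s_inv, mul_assoc, br3 E m])
      (by rw [mul_assoc, (mat_eq_two_iff E ut).1 mtu, ← mul_assoc]) rfl (by omega) (by omega))
  have m3 := hd.four t s u (mat_comm E s t ▸ m) ut us (mat_comm E u s ▸ mus)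
  by_cases h : (y1 * E.s s * E.s u)⁻¹ * r0 * (y1 * E.s s * E.s u) ∈ E.par {s, t}
  · have hs : E.s s ∈ E.par {s, t} := E.s_mem_par (by simp)
    refine T _ t er (E.par_mono ?_ (mem_par_of_conj E (u := u) (by simp [us, ut]) hξ ?_))
    · rintro x ⟨rfl | rfl, h'⟩
      exacts [absurd ((mat_eq_two_iff E us).2 h') mus, rfl]
    · have := mul_mem (mul_mem hs h) hs
      simp only [mul_inv_rev, E.s_inv, mul_assoc] at this ⊢
      rwa [br3 E m3, ← mul_one (E.s s * (E.s u * E.s s)), mul_assoc, mul_assoc, br3 E m3, mul_one] at this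
  · have e1 : y1 * E.s s * E.s u * E.s s * (y1 * E.s s * E.s u)⁻¹ = y1 * E.s u * y1⁻¹ := by
      simp only [mul_inv_rev, E.s_inv, mul_assoc, br3 E m3, E.s_mul_s_mul]
    have e2 : y1 * E.s s * E.s u * E.s t * (y1 * E.s s * E.s u)⁻¹ = y1 * E.s s * E.s t * (y1 * E.s s)⁻¹ := by
      simp only [mul_inv_rev, E.s_inv, mul_assoc, br2 E mtu, E.s_mul_s_mul]
    have := rule _ s t h (e1 ▸ ih _ (by omega) y1 u (e1 ▸ ne h (by simp)) rfl)
      (e2 ▸ ih _ (by omega) _ t (e2 ▸ ne h (by simp)) rfl)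
    simp only [mul_inv_rev, E.s_inv, mul_assoc, br3 E m3, br2 E mtu, E.s_mul_s_mul] at this
    exact hg (er' ▸ this)

end cox

namespace Bld
variable {B W : Type*} [Group W] [Finite W] {E : ExchSys B W} {C : Type*} {D : Bld E C} {a : W → C}

/-- an apartment through a fundamental root and a chamber adjacent to it -/
theorem exists_apt (ha : D.IsApt a) {i : B} {z : C} (hz : D.δ (a 1) z = E.s i) :
    ∃ a₁, D.IsApt a₁ ∧ a₁ (E.s i) = z ∧ ∀ x, E.P i x → a₁ x = a x := by
  have hz' : D.δ z (a 1) = E.s i := by rw [D.δ_symm, hz, E.s_inv]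
  have h1 : ∀ x, E.P i x → D.δ z (a x) = E.s i * x := fun x hx => by
    have := D.δ_P i z (a 1) (a x) hz' (by rwa [ha, inv_one, one_mul])
    rwa [ha, inv_one, one_mul] at this
  obtain ⟨a0, h2, h3, h4⟩ := D.apt z (a (E.s i * w0 E))
  rw [h1 _ (P_s_mul_w0 i), E.s_mul_s_mul] at h4
  refine ⟨fun x => a0 (E.s i * x), IsApt.mul h2 _, by simp only [E.sq, h3], fun x hx => ?_⟩
  refine D.mid_unique (x := z) (z := a (E.s i * w0 E)) (v := E.s i * x) (w := (E.s i * x)⁻¹ * w0 E)
    (by rw [mul_inv_cancel_left]; exact len_lng E (mem_par_univ E _)) (by rw [← h3, h2, inv_one, one_mul])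
    (by rw [← h4, h2]) (h1 x hx) (by rw [ha, mul_inv_rev, E.s_inv, mul_assoc])

theorem fix_panels (hd : Dia E.mat) (ha : D.IsApt a) {g : Equiv.Perm C} (hg : g ∈ D.Aut) {w : W} {i : B}
    (h0 : ∀ p q, w * E.s i * w⁻¹ ∉ E.par {p, q}) (h1 : ∀ x ∈ rt E w i, g (a x) = a x)
    (h2 : ∀ p, ∀ z ∈ D.R {p} (a 1), g z = z) {x : W} {t : B} (hx : x ∈ rt E w i) (hx' : x * E.s t ∈ rt E w i) :
    ∀ z ∈ D.R {t} (a x), g z = z := by
  let good : W → Prop := fun r => ∀ y t, y * E.s t * y⁻¹ = r → y ∈ rt E w i → ∀ z ∈ D.R {t} (a y), g z = z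
  have hP : ∀ y t, (∀ z ∈ D.R {t} (a y), g z = z) → good (y * E.s t * y⁻¹) := fun y t h y' t' e hy =>
    D.aut_fix_parallel hg (i := t) (x := a y) (by
      rw [ha, show y⁻¹ * y' * E.s t' = y⁻¹ * (y' * E.s t' * y'⁻¹) * y' by group, e]; group) h (h1 y' hy)
  have rule : ∀ y s t, y ∈ rt E w i → y⁻¹ * (w * E.s i * w⁻¹) * y ∉ E.par {s, t} → good (y * E.s s * y⁻¹) →
      good (y * E.s t * y⁻¹) → good (y * E.s s * E.s t * (y * E.s s)⁻¹) := fun y s t hy hn gs gt => by
    have h3 := aut_fix_R (K := {s, t}) (x := a y) (y := a (y * lng E {s, t})) hg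
      (by rintro _ (rfl | rfl); exacts [gs _ _ rfl hy, gt _ _ rfl hy]) (h1 y hy) (by rw [ha, inv_mul_cancel_left])
      (h1 _ (by by_contra h; exact hn (refl_mem_par E (lng_mem E _) hy h)))
    refine hP _ t fun z hz => h3 z (D.R_trans (y := a (y * E.s s)) (ha.mem_R.2 ?_) (D.R_mono (by simp) _ hz))
    rw [inv_mul_cancel_left]
    exact E.s_mem_par (by simp)
  refine wall_induction E hd (good := good) h0 (fun t => by simpa using hP 1 t (h2 t)) (fun y s t hn gs gt => ?_)
    x t (fun e => ?_) x t rfl hx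
  · by_cases hy : y ∈ rt E w i
    · exact rule y s t hy hn gs gt
    have e : ∀ k, y * w0 E * E.s (op E k) * (y * w0 E)⁻¹ = y * E.s k * y⁻¹ := fun k => by
      rw [mul_assoc y, ← s_mul_w0]; group
    have := rule (y * w0 E) (op E s) (op E t) ((mul_w0_mem_rt E).2 hy) (fun h => hn (by
      rw [← op_pair, mem_par_op, mul_inv_rev, w0_inv] at h
      have e' := lng_conj_conj E Set.univ (y⁻¹ * (w * E.s i * w⁻¹) * y)
      rw [← e']
      simpa only [w0, mul_assoc] using h)) (e s ▸ gs) (e t ▸ gt)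
    rw [mul_assoc y, ← s_mul_w0, ← mul_assoc y, mul_assoc (y * E.s s), ← s_mul_w0] at this
    convert this using 1
    group
  · have := (refl_mul_mem_rt E (w := w) (x := x) (i := i)).1 (by rw [← e]; simpa using hx')
    exact this hx

/-- a root group acts transitively on a panel of the wall minus the chamber in the root -/
theorem ug_trans (hd : Dia E.mat) (ha : D.IsApt a) (w : W) (i : B) {z : C} (hz : D.δ (a w) z = E.s i) :
    ∃ g ∈ D.UG a (rt E w i), g (a (w * E.s i)) = z := by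
  have : Nonempty B := ⟨i⟩
  wlog hw : w = 1 generalizing a w
  · have := this (ha.mul w) 1 (by simpa using hz) rfl
    rwa [D.UG_mul, mul_one, one_mul] at this
  subst hw
  obtain ⟨a1, h1, h2, h3⟩ := exists_apt ha hz
  obtain ⟨v, hv, hv'⟩ := exists_deep E hd i
  obtain ⟨φ, p1, p2, p3⟩ := ext (f := id) (ha.mul v) (h1.mul v)
    (fun _ _ => ⟨fun _ _ _ _ => rfl, fun u hu => ⟨u, hu, rfl⟩⟩) fun p q u hu => (h3 _ (by
      by_contra h
      exact hv' p q (by
        simpa using refl_mem_par E (w := 1) hu ((mem_rt_one E).2 hv) fun e => h ((mem_rt_one E).1 e)))).symm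
  have p4 : ∀ x, φ (a x) = a1 x := fun x => by simpa using p3 (v⁻¹ * x)
  have p5 : ∀ x ∈ rt E 1 i, φ (a x) = a x := fun x hx => (p4 x).trans (h3 x ((mem_rt_one E).1 hx))
  have m : ∀ x, x ∈ rt E v⁻¹ i ↔ v * x ∈ rt E 1 i := fun x => by
    rw [← mul_mem_rt E (v := v), mul_inv_cancel]
  refine ⟨φ, ⟨p1, p5, fun x t hx hx' => ?_⟩, by rw [one_mul, p4, h2]⟩
  have := fix_panels hd (ha.mul v) (g := φ) p1 (w := v⁻¹) (i := i) (by rwa [inv_inv])
    (fun x hx => p5 _ ((m x).1 hx)) (fun p z hz => p2 p p z (mem_pair_left p hz)) (x := v⁻¹ * x) (t := t)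
    (by rwa [m, mul_inv_cancel_left]) (by rwa [m, mul_assoc, mul_inv_cancel_left])
  simpa using this

end Bld

end CfsgLib.Tits
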