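import Cfsg.Agent.Lib.Tits.Cox

/-!
# Package RGB: the maps μ, rank two relations, gluing of graphs (see `plans/TITS.md`)
-/

set_option autoImplicit false

namespace CfsgLib.Tits
open Cfsg CfsgLib.BN
open scoped commutatorElement

namespace RGB

theorem mem_sup_of {G : Type*} [Group G] {H K : Subgroup G} (h : ∀ p ∈ H, ∀ q ∈ K, p * q * p⁻¹ ∈ K) {g : G}
    (hg : g ∈ H ⊔ K) : ∃ p ∈ H, ∃ q ∈ K, g = p * q := by
  have h1 : H ≤ Subgroup.normalizer (K : Set G) := fun p hp => Subgroup.mem_normalizer_iff.2 fun q =>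
    ⟨h p hp q, fun e => by simpa [mul_assoc] using h p⁻¹ (inv_mem hp) _ e⟩
  have h2 : g ∈ ((H ⊔ K : Subgroup G) : Set G) := hg
  rw [Subgroup.coe_mul_of_left_le_normalizer_right H K h1] at h2
  obtain ⟨p, hp, q, hq, e⟩ := h2
  exact ⟨p, hp, q, hq, e.symm⟩

theorem mem_sup_of' {G : Type*} [Group G] {H K : Subgroup G} (h : ∀ p ∈ H, ∀ q ∈ K, p * q * p⁻¹ ∈ K) {g : G}
    (hg : g ∈ K ⊔ H) : ∃ q ∈ K, ∃ p ∈ H, g = q * p := by
  obtain ⟨p, hp, q, hq, e⟩ := mem_sup_of h (sup_comm K H ▸ hg)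
  exact ⟨_, h p hp q hq, p, hp, by rw [e, inv_mul_cancel_right]⟩

theorem conj_sup {G : Type*} [Group G] {H K L : Subgroup G} {p : G} (h1 : ∀ q ∈ H, p * q * p⁻¹ ∈ L)
    (h2 : ∀ q ∈ K, p * q * p⁻¹ ∈ L) : ∀ q ∈ H ⊔ K, p * q * p⁻¹ ∈ L :=
  fun _ hq => (sup_le (c := L.comap (MulAut.conj p).toMonoidHom) h1 h2) hq

theorem conj_eq {G : Type*} [Group G] (p q : G) : p * q * p⁻¹ = ⁅p, q⁆ * q := by
  rw [commutatorElement_def, inv_mul_cancel_right]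

theorem conj_eq' {G : Type*} [Group G] (p q : G) : p * q * p⁻¹ = ⁅q, p⁆⁻¹ * q := by
  rw [commutatorElement_inv, conj_eq]

end RGB

namespace Gr
variable {A A' : Type*} [Group A] [Group A'] {H K : Subgroup A} {H' K' : Subgroup A'} {Γ Δ : Subgroup (A × A')}

theorem fst_mem (h : Gr H H' Γ) {p : A × A'} (hp : p ∈ Γ) : p.1 ∈ H := (h.le hp).1

theorem snd_mem (h : Gr H H' Γ) {p : A × A'} (hp : p ∈ Γ) : p.2 ∈ H' := (h.le hp).2

theorem eq_one_of_fst (h : Gr H H' Γ) {p : A × A'} (hp : p ∈ Γ) (e : p.1 = 1) : p = 1 :=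
  Prod.ext e (h.inj_left _ (e ▸ hp))

theorem eq_one_of_snd (h : Gr H H' Γ) {p : A × A'} (hp : p ∈ Γ) (e : p.2 = 1) : p = 1 :=
  Prod.ext (h.inj_right _ (e ▸ hp)) e

theorem conj_of_commute (h : Gr H H' Γ) (h' : Gr K K' Δ) (c : ∀ u ∈ H, ∀ v ∈ K, Commute u v)
    (c' : ∀ u ∈ H', ∀ v ∈ K', Commute u v) {p q : A × A'} (hp : p ∈ Γ) (hq : q ∈ Δ) : p * q * p⁻¹ = q := by
  rw [(Commute.prod (c _ (h.fst_mem hp) _ (h'.fst_mem hq)) (c' _ (h.snd_mem hp) _ (h'.snd_mem hq))).eq,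
    mul_inv_cancel_right]

end Gr

namespace RG
variable {B W : Type*} [Group W] {E : ExchSys B W} {A A' : Type*} [Group A] [Group A'] {R : RG E A} {R' : RG E A'}

theorem conj_mem_iff {n : A} {v : W} (h : R.Act n v) (w : W) (i : B) (u : A) :
    n * u * n⁻¹ ∈ R.U (rt E (v * w) i) ↔ u ∈ R.U (rt E w i) :=   ⟨fun e => by simpa [mul_assoc] using R.conj (R.act_inv h) _ _ _ e, R.conj h w i u⟩

theorem exists_isMu {w : W} {i : B} {u : A} (hu : u ∈ R.U (rt E w i)) (h1 : u ≠ 1) : ∃ m, R.IsMu w i u m :=   let ⟨p, hp, q, hq, h⟩ := R.mu_ex w i u hu h1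
  ⟨_, p, hp, q, hq, rfl, h⟩

theorem IsMu.act {w : W} {i : B} {u m : A} (h : R.IsMu w i u m) : R.Act m (w * E.s i * w⁻¹) :=   let ⟨_, _, _, _, _, h⟩ := h
  h

theorem IsMu.act_one {i : B} {u m : A} (h : R.IsMu 1 i u m) : R.Act m (E.s i) := by
  simpa using h.act

theorem IsMu.unique {w : W} {i : B} {u m m' : A} (hu : u ∈ R.U (rt E w i)) (h1 : u ≠ 1) (h : R.IsMu w i u m)
    (h' : R.IsMu w i u m') : m = m' := by
  obtain ⟨p, hp, q, hq, rfl, h⟩ := h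
  obtain ⟨p', hp', q', hq', rfl, h'⟩ := h'
  obtain ⟨rfl, rfl⟩ := R.mu_uniq w i u hu h1 p hp q hq p' hp' q' hq' h h'
  rfl

theorem IsMu.inv {w : W} {i : B} {u m : A} (h : R.IsMu w i u m) : R.IsMu w i u⁻¹ m⁻¹ := by
  obtain ⟨p, hp, q, hq, rfl, h⟩ := h
  exact ⟨q⁻¹, inv_mem hq, p⁻¹, inv_mem hp, by group, by simpa [mul_assoc] using R.act_inv h⟩

theorem IsMu.conj {w v : W} {i : B} {u m n : A} (h : R.IsMu w i u m) (hn : R.Act n v) :
    R.IsMu (v * w) i (n * u * n⁻¹) (n * m * n⁻¹) := by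
  obtain ⟨p, hp, q, hq, rfl, h⟩ := h
  refine ⟨n * p * n⁻¹, mul_assoc v w _ ▸ R.conj hn _ _ _ hp, n * q * n⁻¹, mul_assoc v w _ ▸ R.conj hn _ _ _ hq,
    by group, ?_⟩
  simpa only [mul_assoc, mul_inv_rev] using R.act_mul (R.act_mul hn h) (R.act_inv hn)

theorem IsMu.congr {w v : W} {i j : B} {u m : A} (h : R.IsMu w i u m) (e : rt E w i = rt E v j) :
    R.IsMu v j u m := by
  unfold IsMu at h ⊢
  rwa [rt_mul_s, ← e, ← rt_mul_s, ← refl_eq_of_rt_eq E e]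

theorem Tor.act {j : B} {h : A} (hh : R.Tor j h) : R.Act h 1 := by
  obtain ⟨u, -, v, -, m, n, -, -, h1, h2, rfl⟩ := hh
  simpa [E.sq] using R.act_mul (R.act_inv h1.act_one) h2.act_one

theorem exists_act (R : RG E A) (v : W) : ∃ n, R.Act n v := by
  refine E.induction_left (p := fun v => ∃ n, R.Act n v) v ⟨1, R.act_one⟩ fun i w ⟨n, hn⟩ => ?_
  obtain ⟨u, hu, h1⟩ := R.nontriv 1 i
  obtain ⟨m, hm⟩ := exists_isMu hu h1
  exact ⟨_, R.act_mul hm.act_one hn⟩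

theorem card_U [Finite A] (R : RG E A) (w : W) (i : B) : Nat.card (R.U (rt E w i)) = Nat.card (R.S i) := by
  obtain ⟨n, hn⟩ := R.exists_act w
  refine (Nat.card_congr ((MulAut.conj n).toEquiv.subtypeEquiv fun u => ?_)).symm
  simpa using (conj_mem_iff hn 1 i u).symm

theorem commute_two {i j : B} (hm : E.mat i j = 2) {u v : A} (hu : u ∈ R.S i ∨ u ∈ R.U (rt E (E.s i) i))
    (hv : v ∈ R.S j ∨ v ∈ R.U (rt E (E.s j) j)) : Commute u v := by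
  have hn : i ≠ j := ne_of_mat E (by omega)
  have hm' : E.mat j i = 2 := mat_comm E i j ▸ hm
  have k : ∀ w, u ∈ R.U (rt E w i) → v ∈ R.U (rt E w j) → Commute u v := fun w h1 h2 =>
    R.comm_adj w i j hn u h1 v (by rwa [rt_two E hm])
  have e1 := rt_two E hm 1
  have e2 := rt_two E hm' 1
  rw [one_mul] at e1 e2
  rcases hu with hu | hu <;> rcases hv with hv | hv
  · exact k 1 hu hv
  · exact k (E.s j) (by rwa [e2]) hv
  · exact k (E.s i) hu (by rwa [e1])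
  · exact k (E.s i * E.s j) (by rwa [rt_two E hm']) (by rwa [(mat_eq_two_iff E hn).1 hm, rt_two E hm])

/-- `μ(u)` commutes with the root groups of `± α_j` when `i`, `j` are not joined -/
theorem IsMu.commute {i j : B} (hm : E.mat i j = 2) {u m : A} (hu : u ∈ R.S i) (h : R.IsMu 1 i u m) {v : A}
    (hv : v ∈ R.S j ∨ v ∈ R.U (rt E (E.s j) j)) : Commute m v := by
  obtain ⟨p, hp, q, hq, rfl, -⟩ := h
  rw [one_mul] at hp hq
  exact ((commute_two hm (Or.inr hp) hv).mul_left (commute_two hm (Or.inl hu) hv)).mul_left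
    (commute_two hm (Or.inr hq) hv)

theorem IsMu.commute_mu {i j : B} (hm : E.mat i j = 2) {u m v n : A} (hu : u ∈ R.S i) (h : R.IsMu 1 i u m)
    (hv : v ∈ R.S j) (h' : R.IsMu 1 j v n) : Commute m n := by
  obtain ⟨p, hp, q, hq, rfl, -⟩ := h'
  rw [one_mul] at hp hq
  exact ((h.commute hm hu (Or.inr hp)).mul_right (h.commute hm hu (Or.inl hv))).mul_right
    (h.commute hm hu (Or.inr hq))

theorem Tor.commute {i j : B} (hm : E.mat i j = 2) {h v : A} (hh : R.Tor i h)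
    (hv : v ∈ R.S j ∨ v ∈ R.U (rt E (E.s j) j)) : Commute h v := by
  obtain ⟨a, ha, b, hb, m, n, -, -, h1, h2, rfl⟩ := hh
  exact (h1.commute hm ha hv).inv_left.mul_left (h2.commute hm hb hv)

theorem Tor.commute_mu {i j : B} (hm : E.mat i j = 2) {h v n : A} (hh : R.Tor i h) (hv : v ∈ R.S j)
    (h' : R.IsMu 1 j v n) : Commute h n := by
  obtain ⟨a, ha, b, hb, m, n, -, -, h1, h2, rfl⟩ := hh
  exact (h1.commute_mu hm ha hv h').inv_left.mul_left (h2.commute_mu hm hb hv h')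

theorem Tor.commute_tor {i j : B} (hm : E.mat i j = 2) {h k : A} (hh : R.Tor i h) (hk : R.Tor j k) :
    Commute h k := by
  obtain ⟨a, ha, b, hb, m, n, -, -, h1, h2, rfl⟩ := hk
  exact (hh.commute_mu hm ha h1).inv_right.mul_right (hh.commute_mu hm hb h2)

/-- the group generated by the root groups of the roots that contain `w` and `w s_i` -/
def Sep (R : RG E A) (w : W) (i : B) : Subgroup A :=
  Subgroup.closure {g | ∃ x j, w ∈ rt E x j ∧ w * E.s i ∈ rt E x j ∧ g ∈ R.U (rt E x j)}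

theorem mem_Sep {w x : W} {i j : B} (h1 : w ∈ rt E x j) (h2 : w * E.s i ∈ rt E x j) {g : A}
    (hg : g ∈ R.U (rt E x j)) : g ∈ R.Sep w i := Subgroup.subset_closure ⟨x, j, h1, h2, hg⟩

theorem eq_one_of_Sep {w : W} {i : B} {u : A} (hu : u ∈ R.U (rt E w i)) (h : u ∈ R.Sep w i) : u = 1 :=
  R.sep w i u hu h

theorem sep14 {i j : B} (h : i ≠ j) {g : A} (hg : g ∈ R.S j) : g ∈ R.Sep 1 i :=
  mem_Sep (self_mem_rt E 1 j) (by rw [one_mul, mem_rt_one]; exact P_s E h.symm) hg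

theorem sep12 {i j : B} (h : i ≠ j) {g : A} (hg : g ∈ R.U (rt E (E.s i) j)) : g ∈ R.Sep 1 i :=
  mem_Sep (one_mem_rt_s E h) (by rw [one_mul]; exact self_mem_rt E _ j) hg

theorem sep13 {i j : B} (h : E.mat i j = 4) {g : A} (hg : g ∈ R.U (rt E (E.s j) i)) : g ∈ R.Sep 1 i :=
  mem_Sep (one_mem_rt_s E (ne_of_mat E (by omega)).symm)
    (by rw [one_mul, mem_rt, E.s_inv]; exact P_s_s' E (by omega)) hg

theorem sep24 {i j : B} (h : 3 ≤ E.mat i j) {g : A} (hg : g ∈ R.S j) : g ∈ R.Sep (E.s i) j :=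
  mem_Sep ((mem_rt_one E).2 (P_s E (ne_of_mat E (by omega)).symm))
    ((mem_rt_one E).2 (P_s_s' E (mat_comm E i j ▸ h))) hg

theorem sep23 {i j : B} (h : E.mat i j = 4) {g : A} (hg : g ∈ R.U (rt E (E.s j) i)) : g ∈ R.Sep (E.s i) j :=
  mem_Sep (by rw [mem_rt, E.s_inv]; exact P_s_s' E (by omega))
    (by rw [mem_rt, E.s_inv, ← mul_assoc]; exact P_s_s_s E h) hg

theorem eq_one_of_mul {w : W} {i : B} {u v : A} (hu : u ∈ R.U (rt E w i)) (h : v ∈ R.Sep w i) (e : u * v = 1) :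
    u = 1 := eq_one_of_Sep hu (eq_inv_of_mul_eq_one_left e ▸ inv_mem h)

theorem rt_three_one {i j : B} (h : E.mat i j = 3) : rt E (E.s i) j = rt E (E.s j) i := by
  simpa using rt_three E h 1

theorem rt_four_one {i j : B} (h : E.mat i j = 4) : rt E (E.s i * E.s j) i = rt E (E.s j) i := by
  simpa using rt_four E h 1

/-- the root group of `-α_i` commutes with the root group of `α_j` -/
theorem commute_neg {i j : B} (h : i ≠ j) {p v : A} (hp : p ∈ R.U (rt E (E.s i) i)) (hv : v ∈ R.S j) :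
    Commute p v := R.comm_adj (E.s i) i j h p hp v (by rwa [E.sq])

theorem link_of {J : Set B} {Γ : Subgroup (A × A')} (h1 : Γ ≤ (R.UJ J).prod (R'.UJ J))
    (h2 : ∀ w ∈ E.par J, ∀ k ∈ J, (1 : W) ∈ rt E w k → ∃ Δ ≤ Γ, Gr (R.U (rt E w k)) (R'.U (rt E w k)) Δ)
    (h3 : ∀ p ∈ Γ, p.1 = 1 ∨ p.2 = 1 → p = 1) : R.Link R' J Γ where
  le := h1
  left w hw k hk h u hu :=
    let ⟨_, hΔ, g⟩ := h2 w hw k hk h
    let ⟨u', hu'⟩ := g.left u hu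
    ⟨u', g.snd_mem hu', hΔ hu'⟩
  right w hw k hk h u' hu' :=
    let ⟨_, hΔ, g⟩ := h2 w hw k hk h
    let ⟨u, hu⟩ := g.right u' hu'
    ⟨u, g.fst_mem hu, hΔ hu⟩
  inj_left _ h := congrArg Prod.snd (h3 _ h (Or.inl rfl))
  inj_right _ h := congrArg Prod.fst (h3 _ h (Or.inr rfl))

theorem gr_le_UJ {J : Set B} {w : W} {k : B} {Δ : Subgroup (A × A')}
    (h : Gr (R.U (rt E w k)) (R'.U (rt E w k)) Δ) (hw : w ∈ E.par J) (hk : k ∈ J) (h1 : (1 : W) ∈ rt E w k) :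
    Δ ≤ (R.UJ J).prod (R'.UJ J) := fun _ hp =>
  ⟨Subgroup.subset_closure ⟨w, hw, k, hk, h1, h.fst_mem hp⟩,
    Subgroup.subset_closure ⟨w, hw, k, hk, h1, h.snd_mem hp⟩⟩

variable [Finite W]

theorem commute12 {i j : B} (h : i ≠ j) {u v : A} (hu : u ∈ R.S i) (hv : v ∈ R.U (rt E (E.s i) j)) :
    Commute u v := R.comm_adj 1 i j h u hu v (by rwa [one_mul])

theorem commute23 {i j : B} (h : E.mat i j = 4) {u v : A} (hu : u ∈ R.U (rt E (E.s i) j))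
    (hv : v ∈ R.U (rt E (E.s j) i)) : Commute u v :=   R.comm_adj (E.s i) j i (ne_of_mat E (by omega)).symm u hu v (by rwa [rt_four_one h])

theorem comm24 {i j : B} (h : E.mat i j = 4) {u v : A} (hu : u ∈ R.U (rt E (E.s i) j)) (hv : v ∈ R.S j) :
    ⁅u, v⁆ ∈ R.U (rt E (E.s j) i) := by
  have := R.comm13 1 j i (mat_comm E i j ▸ h) v hv u (by rwa [one_mul])
  rw [one_mul] at this
  simpa using inv_mem this

theorem uniq2 {i j : B} (h : i ≠ j) {u v : A} (hu : u ∈ R.S i) (hv : v ∈ R.S j) (e : u * v = 1) :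
    u = 1 ∧ v = 1 := by
  obtain rfl := eq_one_of_mul hu (sep14 h hv) e
  exact ⟨rfl, by simpa using e⟩

theorem uniq3 {i j : B} (h : E.mat i j = 3) {u₁ u₂ u₃ : A} (h₁ : u₁ ∈ R.S i) (h₂ : u₂ ∈ R.U (rt E (E.s i) j))
    (h₃ : u₃ ∈ R.S j) (e : u₁ * u₂ * u₃ = 1) : u₁ = 1 ∧ u₂ = 1 ∧ u₃ = 1 := by
  have hn : i ≠ j := ne_of_mat E (by omega)
  obtain rfl := eq_one_of_mul h₁ (mul_mem (sep12 hn h₂) (sep14 hn h₃)) (by rw [← e, mul_assoc])
  rw [one_mul] at e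
  obtain rfl := eq_one_of_mul h₂ (sep24 h.ge h₃) e
  exact ⟨rfl, rfl, by simpa using e⟩

theorem uniq4 {i j : B} (h : E.mat i j = 4) {u₁ u₂ u₃ u₄ : A} (h₁ : u₁ ∈ R.S i) (h₂ : u₂ ∈ R.U (rt E (E.s i) j))
    (h₃ : u₃ ∈ R.U (rt E (E.s j) i)) (h₄ : u₄ ∈ R.S j) (e : u₁ * u₂ * u₃ * u₄ = 1) :
    u₁ = 1 ∧ u₂ = 1 ∧ u₃ = 1 ∧ u₄ = 1 := by
  have hn : i ≠ j := ne_of_mat E (by omega)
  obtain rfl := eq_one_of_mul h₁ (mul_mem (mul_mem (sep12 hn h₂) (sep13 h h₃)) (sep14 hn h₄))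
    (by rw [← e]; simp only [mul_assoc])
  rw [one_mul] at e
  obtain rfl := eq_one_of_mul h₂ (mul_mem (sep23 h h₃) (sep24 (by omega) h₄)) (by rw [← e, mul_assoc])
  rw [one_mul] at e
  obtain rfl := eq_one_of_mul h₄ (sep12 hn.symm h₃) (mul_eq_one_comm.1 e)
  exact ⟨rfl, rfl, by simpa using e, rfl⟩

/-- Tits-Weiss 6.4 for a simple edge -/
theorem IsMu.conj_three {i j : B} (hm : E.mat i j = 3) {u m v : A} (hu : u ∈ R.S i) (h : R.IsMu 1 i u m)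
    (hv : v ∈ R.S j) : m * v * m⁻¹ = ⁅u, v⁆ := by
  have hn : i ≠ j := ne_of_mat E (by omega)
  have h1 := R.conj h.act_one 1 j v hv
  obtain ⟨p, hp, q, hq, rfl, -⟩ := h
  have hy := R.comm3 1 i j hm u hu v hv
  rw [one_mul] at hp hq hy
  rw [mul_one] at h1
  have h2 := R.comm3 (E.s i) i j hm p hp _ hy
  rw [E.sq] at h2
  have c1 := (commute_neg hn hp hv).eq
  have c2 := (commute_neg hn hq hv).eq
  have c3 := (commute12 hn.symm hv (rt_three_one hm ▸ hy)).eq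
  refine mul_inv_eq_one.1 (eq_one_of_Sep (mul_mem h1 (inv_mem hy)) ?_)
  convert sep24 hm.ge (mul_mem h2 hv) using 1
  calc p * u * q * v * (p * u * q)⁻¹ * ⁅u, v⁆⁻¹ = p * u * (q * v) * (p * u * q)⁻¹ * ⁅u, v⁆⁻¹ := by group
    _ = p * ⁅u, v⁆ * p⁻¹ * (p * v) * p⁻¹ * ⁅u, v⁆⁻¹ := by rw [c2, commutatorElement_def]; group
    _ = ⁅p, ⁅u, v⁆⁆ * (⁅u, v⁆ * v) * ⁅u, v⁆⁻¹ := by rw [c1, commutatorElement_def p]; group
    _ = _ := by rw [← c3]; group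

/-- Tits-Weiss 6.4 for a double edge -/
theorem IsMu.conj_four {i j : B} (hm : E.mat i j = 4) {u m v y z : A} (hu : u ∈ R.S i) (h : R.IsMu 1 i u m)
    (hv : v ∈ R.S j) (hy : y ∈ R.U (rt E (E.s i) j)) (hz : z ∈ R.U (rt E (E.s j) i)) (e : ⁅u, v⁆ = y * z) :
    m * v * m⁻¹ = y := by
  have hn : i ≠ j := ne_of_mat E (by omega)
  have h1 := R.conj h.act_one 1 j v hv
  obtain ⟨p, hp, q, hq, rfl, -⟩ := h
  rw [one_mul] at hp hq
  rw [mul_one] at h1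
  obtain ⟨a, ha, b, hb, e1⟩ := R.comm14 (E.s i) i j hm p hp y hy
  have hc := R.comm13 (E.s i) i j hm p hp z (by rwa [rt_four_one hm])
  rw [E.sq] at ha hc
  rw [rt_four_one hm] at hb
  have c1 := (commute_neg hn hp hv).eq
  have c2 := (commute_neg hn hq hv).eq
  have c3 := (commute23 hm hy hz).eq
  have k : ∀ {t}, t ∈ R.S j → y * t * y⁻¹ ∈ R.Sep (E.s i) j := fun ht =>
    RGB.conj_eq y _ ▸ mul_mem (sep23 hm (comm24 hm hy ht)) (sep24 (by omega) ht)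
  refine mul_inv_eq_one.1 (eq_one_of_Sep (mul_mem h1 (inv_mem hy)) ?_)
  convert mul_mem (mul_mem (mul_mem (mul_mem (sep24 (by omega) ha) (sep23 hm hb)) (k hc)) (sep23 hm hz)) (k hv)
    using 1
  calc p * u * q * v * (p * u * q)⁻¹ * y⁻¹ = p * u * (q * v) * (p * u * q)⁻¹ * y⁻¹ := by group
    _ = p * ⁅u, v⁆ * p⁻¹ * (p * v) * p⁻¹ * y⁻¹ := by rw [c2, commutatorElement_def]; group
    _ = ⁅p, y⁆ * (y * ⁅p, z⁆ * y⁻¹) * (y * z) * v * y⁻¹ := by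
      rw [c1, e, commutatorElement_def p, commutatorElement_def p]; group
    _ = _ := by rw [e1, c3]; group

theorem edge_symm {i j : B} {Γ₁ Γ₂ : Subgroup (A × A')} (h : R.Edge R' i j Γ₁ Γ₂) : R.Edge R' j i Γ₂ Γ₁ := by
  obtain ⟨Γ, h1, h2, h3⟩ := h
  exact ⟨Γ, Set.pair_comm i j ▸ h1, h3, h2⟩

theorem glue2 {i j : B} (hm : E.mat i j = 2) {Γ₁ Γ₂ : Subgroup (A × A')} (h₁ : Gr (R.S i) (R'.S i) Γ₁)
    (h₂ : Gr (R.S j) (R'.S j) Γ₂) : R.Edge R' i j Γ₁ Γ₂ := by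
  have hn : i ≠ j := ne_of_mat E (by omega)
  refine ⟨Γ₁ ⊔ Γ₂, link_of (sup_le (gr_le_UJ h₁ (one_mem _) (by simp) (self_mem_rt E 1 i))
    (gr_le_UJ h₂ (one_mem _) (by simp) (self_mem_rt E 1 j))) (fun w hw k hk h => ?_) fun p hp h => ?_,
    le_sup_left, le_sup_right⟩
  · rcases pos_root_two E hm hw hk h with e | e <;> rw [e]
    exacts [⟨_, le_sup_left, h₁⟩, ⟨_, le_sup_right, h₂⟩]
  obtain ⟨a, ha, b, hb, rfl⟩ := RGB.mem_sup_of (fun p hp q hq => by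
    rwa [h₁.conj_of_commute h₂ (fun _ hu _ hv => commute_two hm (Or.inl hu) (Or.inl hv))
      (fun _ hu _ hv => commute_two hm (Or.inl hu) (Or.inl hv)) hp hq]) hp
  rcases h with h | h
  · obtain ⟨e1, e2⟩ := uniq2 hn (h₁.fst_mem ha) (h₂.fst_mem hb) h
    rw [h₁.eq_one_of_fst ha e1, h₂.eq_one_of_fst hb e2, mul_one]
  · obtain ⟨e1, e2⟩ := uniq2 hn (h₁.snd_mem ha) (h₂.snd_mem hb) h
    rw [h₁.eq_one_of_snd ha e1, h₂.eq_one_of_snd hb e2, mul_one]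

theorem glue3 {i j : B} (hm : E.mat i j = 3) {Γ₁ Γ₂ Γ₃ : Subgroup (A × A')} (h₁ : Gr (R.S i) (R'.S i) Γ₁)
    (h₂ : Gr (R.U (rt E (E.s i) j)) (R'.U (rt E (E.s i) j)) Γ₂) (h₃ : Gr (R.S j) (R'.S j) Γ₃)
    (h13 : ∀ p ∈ Γ₁, ∀ q ∈ Γ₃, ⁅p, q⁆ ∈ Γ₂) : R.Edge R' i j Γ₁ Γ₃ := by
  have hn : i ≠ j := ne_of_mat E (by omega)
  refine ⟨Γ₁ ⊔ (Γ₂ ⊔ Γ₃), link_of (sup_le (gr_le_UJ h₁ (one_mem _) (by simp) (self_mem_rt E 1 i))
    (sup_le (gr_le_UJ h₂ (E.s_mem_par (by simp)) (by simp) (one_mem_rt_s E hn))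
    (gr_le_UJ h₃ (one_mem _) (by simp) (self_mem_rt E 1 j)))) (fun w hw k hk h => ?_) fun p hp h => ?_,
    le_sup_left, le_sup_right.trans le_sup_right⟩
  · rcases pos_root_three E hm hw hk h with e | e | e <;> rw [e]
    exacts [⟨_, le_sup_left, h₁⟩, ⟨_, le_sup_left.trans le_sup_right, h₂⟩,
      ⟨_, le_sup_right.trans le_sup_right, h₃⟩]
  obtain ⟨a, ha, q, hq, rfl⟩ := RGB.mem_sup_of (fun p hp => RGB.conj_sup (fun q hq => by
      rw [h₁.conj_of_commute h₂ (fun _ hu _ hv => commute12 hn hu hv) (fun _ hu _ hv => commute12 hn hu hv) hp hq]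
      exact Subgroup.mem_sup_left hq) fun q hq => RGB.conj_eq p q ▸
    Subgroup.mul_mem_sup (h13 p hp q hq) hq) hp
  obtain ⟨b, hb, c, hc, rfl⟩ := RGB.mem_sup_of' (fun p hp q hq => by
    rwa [h₃.conj_of_commute h₂ (fun _ hu _ hv => commute12 hn.symm hu (rt_three_one hm ▸ hv))
      (fun _ hu _ hv => commute12 hn.symm hu (rt_three_one hm ▸ hv)) hp hq]) hq
  rw [← mul_assoc] at h ⊢
  rcases h with h | h
  · obtain ⟨e1, e2, e3⟩ := uniq3 hm (h₁.fst_mem ha) (h₂.fst_mem hb) (h₃.fst_mem hc) h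
    rw [h₁.eq_one_of_fst ha e1, h₂.eq_one_of_fst hb e2, h₃.eq_one_of_fst hc e3, mul_one, mul_one]
  · obtain ⟨e1, e2, e3⟩ := uniq3 hm (h₁.snd_mem ha) (h₂.snd_mem hb) (h₃.snd_mem hc) h
    rw [h₁.eq_one_of_snd ha e1, h₂.eq_one_of_snd hb e2, h₃.eq_one_of_snd hc e3, mul_one, mul_one]

theorem glue4 {i j : B} (hm : E.mat i j = 4) {Γ₁ Γ₂ Γ₃ Γ₄ : Subgroup (A × A')} (h₁ : Gr (R.S i) (R'.S i) Γ₁)
    (h₂ : Gr (R.U (rt E (E.s i) j)) (R'.U (rt E (E.s i) j)) Γ₂)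
    (h₃ : Gr (R.U (rt E (E.s j) i)) (R'.U (rt E (E.s j) i)) Γ₃) (h₄ : Gr (R.S j) (R'.S j) Γ₄)
    (h13 : ∀ p ∈ Γ₁, ∀ q ∈ Γ₃, ⁅p, q⁆ ∈ Γ₂) (h24 : ∀ p ∈ Γ₂, ∀ q ∈ Γ₄, ⁅p, q⁆ ∈ Γ₃)
    (h14 : ∀ p ∈ Γ₁, ∀ q ∈ Γ₄, ∃ y ∈ Γ₂, ∃ z ∈ Γ₃, ⁅p, q⁆ = y * z) : R.Edge R' i j Γ₁ Γ₄ := by
  have hn : i ≠ j := ne_of_mat E (by omega)
  refine ⟨Γ₁ ⊔ (Γ₂ ⊔ Γ₃ ⊔ Γ₄), link_of (sup_le (gr_le_UJ h₁ (one_mem _) (by simp) (self_mem_rt E 1 i))
    (sup_le (sup_le (gr_le_UJ h₂ (E.s_mem_par (by simp)) (by simp) (one_mem_rt_s E hn))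
    (gr_le_UJ h₃ (E.s_mem_par (by simp)) (by simp) (one_mem_rt_s E hn.symm)))
    (gr_le_UJ h₄ (one_mem _) (by simp) (self_mem_rt E 1 j)))) (fun w hw k hk h => ?_) fun p hp h => ?_,
    le_sup_left, le_sup_right.trans le_sup_right⟩
  · rcases pos_root_four E hm hw hk h with e | e | e | e <;> rw [e]
    exacts [⟨_, le_sup_left, h₁⟩, ⟨_, (le_sup_left.trans le_sup_left).trans le_sup_right, h₂⟩,
      ⟨_, (le_sup_right.trans le_sup_left).trans le_sup_right, h₃⟩, ⟨_, le_sup_right.trans le_sup_right, h₄⟩]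
  obtain ⟨a, ha, q, hq, rfl⟩ := RGB.mem_sup_of (fun p hp => RGB.conj_sup (RGB.conj_sup (fun q hq => by
      rw [h₁.conj_of_commute h₂ (fun _ hu _ hv => commute12 hn hu hv) (fun _ hu _ hv => commute12 hn hu hv) hp hq]
      exact Subgroup.mem_sup_left (Subgroup.mem_sup_left hq)) fun q hq => RGB.conj_eq p q ▸
    Subgroup.mem_sup_left (Subgroup.mul_mem_sup (h13 p hp q hq) hq)) fun q hq => by
      obtain ⟨y, hy, z, hz, e⟩ := h14 p hp q hq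
      rw [RGB.conj_eq, e]
      exact Subgroup.mul_mem_sup (Subgroup.mul_mem_sup hy hz) hq) hp
  obtain ⟨r, hr, d, hd, rfl⟩ := RGB.mem_sup_of' (fun p hp => RGB.conj_sup (fun q hq => RGB.conj_eq' p q ▸
    mul_mem (Subgroup.mem_sup_right (inv_mem (h24 q hq p hp))) (Subgroup.mem_sup_left hq)) fun q hq => by
      rw [h₄.conj_of_commute h₃ (fun _ hu _ hv => commute12 hn.symm hu hv)
        (fun _ hu _ hv => commute12 hn.symm hu hv) hp hq]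
      exact Subgroup.mem_sup_right hq) hq
  obtain ⟨b, hb, c, hc, rfl⟩ := RGB.mem_sup_of (fun p hp q hq => by
    rwa [h₂.conj_of_commute h₃ (fun _ hu _ hv => commute23 hm hu hv)
      (fun _ hu _ hv => commute23 hm hu hv) hp hq]) hr
  rw [← mul_assoc, ← mul_assoc] at h ⊢
  rcases h with h | h
  · obtain ⟨e1, e2, e3, e4⟩ := uniq4 hm (h₁.fst_mem ha) (h₂.fst_mem hb) (h₃.fst_mem hc) (h₄.fst_mem hd) h
    rw [h₁.eq_one_of_fst ha e1, h₂.eq_one_of_fst hb e2, h₃.eq_one_of_fst hc e3, h₄.eq_one_of_fst hd e4,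
      mul_one, mul_one, mul_one]
  · obtain ⟨e1, e2, e3, e4⟩ := uniq4 hm (h₁.snd_mem ha) (h₂.snd_mem hb) (h₃.snd_mem hc) (h₄.snd_mem hd) h
    rw [h₁.eq_one_of_snd ha e1, h₂.eq_one_of_snd hb e2, h₃.eq_one_of_snd hc e3, h₄.eq_one_of_snd hd e4,
      mul_one, mul_one, mul_one]

end RG

end CfsgLib.Tits
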